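import Cfsg.Agent.H5.Cover
import Cfsg.Agent.H5.Clifford3

/-!
Lemmas for Berger's theorem: homogeneous restrictions along homomorphisms.
-/

set_option autoImplicit false
set_option linter.dupNamespace false
set_option linter.style.haveILetI false

open scoped ComplexConjugate
open Cfsg Cfsg.Agent.H4 Cfsg.Agent.H5

namespace Cfsg.Agent.H7.Bg

section one
variable {T L : Type*} [Group T] [Group L] [Fintype T] [Fintype L]

theorem inner_of_mul {φ f g : L → ℂ} (hφ : IsIrrCharacter L φ) {x y : ℂ}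
    (hf : ∀ l, f l = x * φ l) (hg : ∀ l, g l = y * φ l) : classInner f g = x * conj y := by
  have h1 : f = x • φ := funext hf
  have h2 : g = y • φ := funext hg
  rw [h1, h2, classInner_smul_left, classInner_smul_right, hφ.classInner_self, mul_one]

/-- A constituent of a character with homogeneous pull-back has homogeneous pull-back. -/
theorem exists_mul_of_constituent (j : L →* T) {Θ X : T → ℂ} (hΘ : IsCharacter T Θ)
    (hX : IsIrrCharacter T X) (h : classInner Θ X ≠ 0) {φ : L → ℂ} (hφ : IsIrrCharacter L φ)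
    {e : ℂ} (he : ∀ l, Θ (j l) = e * φ l) : ∃ x : ℕ, 0 < x ∧ ∀ l, X (j l) = x * φ l := by
  have h1 := eq_smul_of_forall_constituent (hX.isClassFunction.comp j) hφ (fun η hη h2 => by
    have h3 := inner_comp_ne_zero_of_constituent j hΘ hX h hη.isCharacter h2
    have h4 : (fun l => Θ (j l)) = e • φ := funext he
    rw [h4, classInner_smul_left] at h3
    exact (hφ.eq_of_classInner_ne_zero hη (right_ne_zero_of_mul h3)).symm)
  obtain ⟨x, hx⟩ := (hX.isCharacter.comp j).classInner_nat hφ.isCharacter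
  rw [hx] at h1
  refine ⟨x, Nat.pos_of_ne_zero fun h0 => hX.apply_one_ne_zero ?_, fun l => congrFun h1 l⟩
  have := congrFun h1 1
  simpa [h0] using this

theorem apply_eq_of_constituent (j : L →* T) {b X : T → ℂ} (hb : IsCharacter T b)
    (hX : IsIrrCharacter T X) (h : classInner b X ≠ 0) (hk : ∀ l, b (j l) = b 1) (l : L) :
    X (j l) = X 1 := by
  obtain ⟨x, -, hx⟩ := exists_mul_of_constituent j hb hX h isIrrCharacter_one (e := b 1)
    (fun l => by rw [hk, mul_one])
  rw [hx, ← map_one j, hx]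

/-- The degree bound for a constituent with `L` in its kernel. -/
theorem exists_small (j : L →* T) {b X s : T → ℂ} (hb : IsCharacter T b)
    (hX : IsCharacter T X) (hs : IsCharacter T s) {φ : L → ℂ} (hφ : IsIrrCharacter L φ)
    (hk : ∀ l, b (j l) = b 1) {x c : ℕ} (hx : ∀ l, X (j l) = x * φ l)
    (hc : ∀ l, s (j l) = c * φ l) (h : classInner (b * X) s ≠ 0) :
    ∃ (β : T → ℂ) (d : ℕ), IsIrrCharacter T β ∧ classInner b β ≠ 0 ∧ β 1 = d ∧ d ≤ x * c := by
  rw [classInner_mul_left] at h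
  obtain ⟨β, hβ, h1, h2⟩ := exists_common_constituent hb.isClassFunction h
  have hη : IsCharacter T (fun g => conj (X g) * s g) := hX.conj.mul hs
  obtain ⟨a, a', ha, ha'⟩ := inner_comp_le_of_constituent j hη hβ h2 isCharacter_one
  obtain ⟨d, -, hd⟩ := hβ.exists_degree
  refine ⟨β, d, hβ, h1, hd, ?_⟩
  have h3 : classInner (fun l => β (j l)) (fun _ => (1 : ℂ)) = d := by
    rw [inner_of_mul isIrrCharacter_one (x := d) (y := 1)
      (fun l => by rw [apply_eq_of_constituent j hb hβ h1 hk, hd, mul_one]) (fun l => by simp)]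
    simp
  have h4 : classInner (fun l => conj (X (j l)) * s (j l)) (fun _ => (1 : ℂ)) = (x * c : ℕ) := by
    have h5 := classInner_eq_mul_conj_one (fun l => s (j l)) (fun l => X (j l))
    rw [inner_of_mul hφ hc hx] at h5
    rw [show (fun l => conj (X (j l)) * s (j l)) = fun l => s (j l) * conj (X (j l)) from
      funext fun l => mul_comm _ _, ← h5]
    simp [mul_comm]
  rw [h3] at ha
  rw [h4] at ha'
  have e1 : d = a := by exact_mod_cast ha
  have e2 : x * c = a + a' := by exact_mod_cast ha'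
  omega

end one

section two
variable {Γ T K : Type*} [Group Γ] [Group T] [Group K] [Finite Γ]

/-- An irreducible character stays irreducible on a supplement to a normal subgroup in its
kernel. -/
theorem irr_comp_of_supp (i : K →* Γ) (hi : i.range.Normal) (f : T →* Γ)
    (hsup : ∀ γ : Γ, ∃ k t, γ = i k * f t) {β : Γ → ℂ} (hβ : IsIrrCharacter Γ β)
    (hk : ∀ k, β (i k) = β 1) : IsIrrCharacter T (fun t => β (f t)) := by
  obtain ⟨ξ, hξ, rfl⟩ := exists_irr_inflate (QuotientGroup.mk' i.range)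
    (QuotientGroup.mk'_surjective _) hβ (fun k h => by
      obtain ⟨a, rfl⟩ := (QuotientGroup.eq_one_iff k).1 h
      exact hk a)
  refine hξ.comp_of_surjective ((QuotientGroup.mk' i.range).comp f) fun q => ?_
  obtain ⟨γ, rfl⟩ := QuotientGroup.mk'_surjective _ q
  obtain ⟨k, t, rfl⟩ := hsup γ
  refine ⟨t, ?_⟩
  rw [map_mul, show QuotientGroup.mk' i.range (i k) = 1 from
    (QuotientGroup.eq_one_iff _).2 ⟨k, rfl⟩, one_mul]
  rfl

end two

section three
variable {G : Type*} [Group G] [Fintype G]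

open Classical in
/-- Equality in the bound for the norm of a restriction forces vanishing. -/
theorem vanish_of_inner_res (H : Subgroup G) [Fintype H] {χ : G → ℂ} (hχ : IsIrrCharacter G χ)
    (h : classInner (fun x : H => χ x) (fun x : H => χ x) = H.index) {g : G} (hg : g ∉ H) :
    χ g = 0 := by
  have h1 := congrArg Complex.re h
  have h2 := congrArg Complex.re hχ.classInner_self
  rw [classInner_self_re] at h1 h2
  simp only [Complex.natCast_re, Complex.one_re] at h1 h2
  have hH : (0 : ℝ) < Nat.card H := by exact_mod_cast Nat.card_pos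
  have hG : (0 : ℝ) < Nat.card G := by exact_mod_cast Nat.card_pos
  have h3 : ∑ x : H, ‖χ x‖ ^ 2 = ∑ x : G, ‖χ x‖ ^ 2 := by
    have e1 : ∑ x : H, ‖χ x‖ ^ 2 = Nat.card H * H.index := by
      rw [← h1]; field_simp
    have e2 : ∑ x : G, ‖χ x‖ ^ 2 = Nat.card G := by
      field_simp at h2; linarith
    rw [e1, e2, ← H.card_mul_index]; push_cast; ring
  rw [← Finset.sum_filter_add_sum_filter_not Finset.univ (· ∈ H),
    Finset.sum_subtype_eq_sum_filter (s := Finset.univ) (p := (· ∈ H))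
      (f := fun x => ‖χ x‖ ^ 2) |>.symm] at h3
  simp only [Finset.subtype_univ] at h3
  have h4 : ∑ x ∈ Finset.univ.filter (fun x => ¬ x ∈ H), ‖χ x‖ ^ 2 = 0 := by
    have : (∑ x : H, ‖χ x‖ ^ 2) = ∑ x : {x // x ∈ H}, ‖χ x‖ ^ 2 := by
      congr 1
    linarith
  rw [Finset.sum_eq_zero_iff_of_nonneg (fun _ _ => by positivity)] at h4
  simpa using h4 g (Finset.mem_filter.2 ⟨Finset.mem_univ _, hg⟩)

omit [Fintype G] in
/-- A chief factor of a finite solvable group has prime exponent. -/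
theorem exists_prime_of_chief [Finite G] [Group.IsSolvable G] {L K : Subgroup G} [L.Normal]
    [K.Normal] (hLK : L < K)
    (hchief : ∀ M : Subgroup G, M.Normal → L ≤ M → M ≤ K → M = L ∨ M = K) :
    ⁅K, K⁆ ≤ L ∧ ∃ p : ℕ, p.Prime ∧ (∀ x ∈ K, x ^ p ∈ L) ∧ ∃ a : ℕ, L.relIndex K = p ^ a := by
  have hs : Group.IsSolvable (G ⧸ L) := inferInstance
  have hc : ⁅K, K⁆ ≤ L := commutator_le_of_chief (N := L) hs le_rfl hLK hchief
  refine ⟨hc, ?_⟩
  set π := QuotientGroup.mk' L
  have hcomm : ∀ x ∈ K, ∀ y ∈ K, Commute (π x) (π y) := fun x hx y hy => by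
    rw [← commutatorElement_eq_one_iff_commute, ← map_commutatorElement]
    exact (QuotientGroup.eq_one_iff _).2 (hc (Subgroup.commutator_mem_commutator hx hy))
  obtain ⟨x, hxK, hxL⟩ := SetLike.exists_of_lt hLK
  have hx1 : π x ≠ 1 := fun h => hxL ((QuotientGroup.eq_one_iff _).1 h)
  obtain ⟨p, hp, hpd⟩ := Nat.exists_prime_and_dvd (n := orderOf (π x))
    (by rwa [ne_eq, orderOf_eq_one_iff])
  let M : Subgroup G :=
    { carrier := {y | y ∈ K ∧ y ^ p ∈ L}
      one_mem' := ⟨K.one_mem, by simp⟩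
      mul_mem' := by
        rintro a b ⟨ha, ha'⟩ ⟨hb, hb'⟩
        refine ⟨K.mul_mem ha hb, (QuotientGroup.eq_one_iff _).1 ?_⟩
        change π _ = 1
        rw [map_pow, map_mul, (hcomm a ha b hb).mul_pow, ← map_pow, ← map_pow,
          show π (a ^ p) = 1 from (QuotientGroup.eq_one_iff _).2 ha',
          show π (b ^ p) = 1 from (QuotientGroup.eq_one_iff _).2 hb', one_mul]
      inv_mem' := by
        rintro a ⟨ha, ha'⟩
        exact ⟨K.inv_mem ha, by rw [inv_pow]; exact L.inv_mem ha'⟩ }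
  have hMn : M.Normal := ⟨fun a ha g => ⟨Subgroup.Normal.conj_mem ‹_› a ha.1 g, by
    rw [conj_pow]; exact Subgroup.Normal.conj_mem ‹_› _ ha.2 g⟩⟩
  have hMK : M = K := by
    rcases hchief M hMn (fun a ha => ⟨hLK.le ha, L.pow_mem ha p⟩) (fun a ha => ha.1) with h | h
    · exfalso
      have ho : orderOf (π x) ≠ 0 := (orderOf_pos _).ne'
      have h1 : x ^ (orderOf (π x) / p) ∈ M := ⟨K.pow_mem hxK _, by
        rw [← pow_mul, Nat.div_mul_cancel hpd]
        exact (QuotientGroup.eq_one_iff _).1 (by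
          change π _ = 1
          rw [map_pow, pow_orderOf_eq_one])⟩
      rw [h] at h1
      have h2 : π x ^ (orderOf (π x) / p) = 1 := by
        rw [← map_pow]; exact (QuotientGroup.eq_one_iff _).2 h1
      have h3 := Nat.le_of_dvd (Nat.div_pos (Nat.le_of_dvd (Nat.pos_of_ne_zero ho) hpd) hp.pos)
        (orderOf_dvd_of_pow_eq_one h2)
      exact absurd h3 (not_le.2 (Nat.div_lt_self (Nat.pos_of_ne_zero ho) hp.one_lt))
    · exact h
  have hpow : ∀ y ∈ K, y ^ p ∈ L := fun y hy => (hMK ▸ hy : y ∈ M).2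
  refine ⟨p, hp, hpow, ?_⟩
  haveI := Fact.mk hp
  have hP : IsPGroup p (K ⧸ L.subgroupOf K) := fun q => by
    obtain ⟨y, rfl⟩ := QuotientGroup.mk_surjective q
    refine ⟨1, ?_⟩
    rw [pow_one, ← QuotientGroup.mk_pow, QuotientGroup.eq_one_iff]
    exact hpow y y.2
  exact hP.exists_card_eq

omit [Fintype G] in
/-- Two consecutive chief factors belong to distinct primes if the lower one is complemented by
a maximal subgroup whose core is the bottom. -/
theorem false_of_same_prime [Finite G] {H M : Subgroup G} [M.Normal] (hH : IsCoatom H) {p : ℕ}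
    (hp : p.Prime) (hM : ∀ x ∈ M, ∃ a : ℕ, x ^ p ^ a ∈ H.normalCore) (hd : p ∣ H.index) :
    M ⊓ H ≤ H.normalCore := by
  haveI := Fact.mk hp
  let P : Subgroup (Equiv.Perm (G ⧸ H)) := (M ⊓ H).map (MulAction.toPermHom G (G ⧸ H))
  have hP : IsPGroup p P := by
    rintro ⟨_, x, hx, rfl⟩
    obtain ⟨a, ha⟩ := hM x hx.1
    refine ⟨a, Subtype.ext ?_⟩
    rw [Subgroup.normalCore_eq_ker] at ha
    change MulAction.toPermHom G (G ⧸ H) x ^ p ^ a = 1
    rw [← map_pow]; exact ha
  have h1 : ((1 : G) : G ⧸ H) ∈ MulAction.fixedPoints P (G ⧸ H) := by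
    rintro ⟨_, x, hx, rfl⟩
    change x • ((1 : G) : G ⧸ H) = _
    rw [MulAction.Quotient.smul_coe, QuotientGroup.eq]
    simpa using hx.2
  obtain ⟨b, hb, hne⟩ := hP.exists_fixed_point_of_prime_dvd_card_of_fixed_point (G ⧸ H) hd h1
  obtain ⟨k, rfl⟩ := QuotientGroup.mk_surjective b
  have hk : k ∉ H := fun h => hne (QuotientGroup.eq.2 (by simpa using h))
  have hconj : ∀ x ∈ M ⊓ H, k⁻¹ * x * k ∈ M ⊓ H := fun x hx => by
    refine ⟨Subgroup.Normal.conj_mem' ‹_› x hx.1 k, ?_⟩
    have h2 := hb ⟨_, x⁻¹, (M ⊓ H).inv_mem hx, rfl⟩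
    change x⁻¹ • (k : G ⧸ H) = _ at h2
    rw [MulAction.Quotient.smul_coe, QuotientGroup.eq] at h2
    simpa [mul_assoc] using h2
  have hkN : k⁻¹ ∈ Subgroup.normalizer ((M ⊓ H : Subgroup G) : Set G) :=
    Subgroup.mem_normalizer_fintype (fun x hx => by simpa using hconj x hx)
  have hHN : H ≤ Subgroup.normalizer ((M ⊓ H : Subgroup G) : Set G) := fun h hh =>
    Subgroup.mem_normalizer_fintype (fun x hx =>
      ⟨Subgroup.Normal.conj_mem ‹_› x hx.1 h, H.mul_mem (H.mul_mem hh hx.2) (H.inv_mem hh)⟩)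
  have htop := hH.2 _ (lt_of_le_of_ne hHN fun h => hk (by
    rw [← h] at hkN; simpa using hkN))
  haveI : (M ⊓ H).Normal := Subgroup.normalizer_eq_top_iff.1 htop
  exact Subgroup.normal_le_normalCore.2 inf_le_right

end three

end Cfsg.Agent.H7.Bg
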