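import Cfsg.Agent.H7.Berger1

/-!
Berger's theorem: a quasi-primitive character of a solvable group is primitive.
-/

set_option autoImplicit false
set_option linter.dupNamespace false
set_option linter.style.haveILetI false

open scoped ComplexConjugate
open Cfsg Cfsg.Agent.H4 Cfsg.Agent.H5

namespace Cfsg.Agent.H7.Bg

universe v

/-- The restriction to every normal subgroup over `N` is homogeneous. -/
def Hom {G : Type*} [Group G] (χ : G → ℂ) (N : Subgroup G) : Prop :=
  ∀ M : Subgroup G, M.Normal → N ≤ M →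
    ∃ (ϑ : M → ℂ) (e : ℕ), IsIrrCharacter M ϑ ∧ ∀ n : M, χ n = e * ϑ n

section step
variable {Γ K L : Type*} [Group Γ] [Group K] [Group L] [Fintype Γ] [Fintype L]

/-- First step: the extension is irreducible on the complement. -/
theorem irr_res (i : K →* Γ) (hi : i.range.Normal) (H : Subgroup Γ) (j : L →* H)
    (hsup : ∀ γ : Γ, ∃ k, ∃ t : H, γ = i k * t) {β Θ : Γ → ℂ} (hβ : IsIrrCharacter Γ β)
    (hΘ : IsCharacter Γ Θ) (hk : ∀ k, β (i k) = β 1) (hj : ∀ l, β (j l) = β 1)
    {ψ : H → ℂ} (hψ : IsIrrCharacter H ψ) (hne : IsIrrCharacter Γ (β * Θ))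
    (hind : indFun H ψ = β * Θ) {φ : L → ℂ} (hφ : IsIrrCharacter L φ) {c e : ℕ} (hc0 : 0 < c)
    (hc : ∀ l, ψ (j l) = c * φ l) (he : ∀ l, Θ (j l) = e * φ l) (hβ1 : β 1 = (e * c : ℕ)) :
    IsIrrCharacter H (fun x : H => Θ x) := by
  haveI := Fintype.ofFinite H
  have h1 : classInner ((fun x : H => Θ x) * fun x : H => β x) ψ ≠ 0 := by
    have h2 := hne.classInner_self
    nth_rewrite 2 [← hind] at h2
    rw [inner_indFun_right _ _ hne.isClassFunction] at h2
    rw [show ((fun x : H => Θ x) * fun x : H => β x) = fun x : H => (β * Θ) x from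
      funext fun x => mul_comm _ _, h2]
    exact one_ne_zero
  rw [classInner_mul_left] at h1
  obtain ⟨X, hX, h2, h3⟩ := exists_common_constituent (hΘ.isClassFunction.restrict H) h1
  obtain ⟨x, -, hx⟩ := exists_mul_of_constituent j (hΘ.restrict H) hX h2 hφ he
  have h4 : classInner ((fun x : H => β x) * X) ψ ≠ 0 := by
    rw [mul_comm, classInner_mul_left, ne_eq, classInner_eq_zero_symm]; exact h3
  obtain ⟨β0, d, hβ0, h5, h6, h7⟩ := exists_small j (hβ.isCharacter.restrict H) hX.isCharacter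
    hψ.isCharacter hφ hj hx hc h4
  have h8 := (irr_comp_of_supp i hi H.subtype hsup hβ hk).eq_of_classInner_ne_zero hβ0 h5
  have h9 : d = e * c := by
    have := congrFun h8 1
    rw [map_one, hβ1, h6] at this
    exact_mod_cast this.symm
  have h10 : e ≤ x := Nat.le_of_mul_le_mul_right (h9 ▸ h7) hc0
  obtain ⟨f, -, hf⟩ := hφ.exists_degree
  rw [eq_of_constituent_of_degree_le (hΘ.restrict H) hX h2 (by
    have e1 := he 1
    have e2 := hx 1
    rw [map_one] at e1 e2
    rw [e1, e2, hf]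
    simp only [← Nat.cast_mul, Complex.natCast_re]
    exact_mod_cast Nat.mul_le_mul_right f h10)]
  exact hX

/-- Second step: if the extension is induced on the complement, so is the product. -/
theorem exists_induced [Fintype K] (i : K →* Γ) (hi : i.range.Normal) (H : Subgroup Γ)
    [Fintype H] (j : L →* H)
    (hsup : ∀ γ : Γ, ∃ k, ∃ t : H, γ = i k * t) {β Θ : Γ → ℂ} (hβ : IsIrrCharacter Γ β)
    (hΘ : IsCharacter Γ Θ) (hk : ∀ k, β (i k) = β 1) (hj : ∀ l, β (j l) = β 1)
    {ψ : H → ℂ} (hψ : IsIrrCharacter H ψ) (hne : IsIrrCharacter Γ (β * Θ))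
    (hind : indFun H ψ = β * Θ) {φ : L → ℂ} (hφ : IsIrrCharacter L φ) {c e : ℕ}
    (hc : ∀ l, ψ (j l) = c * φ l) (he : ∀ l, Θ (j l) = e * φ l) (hβ1 : β 1 = (e * c : ℕ))
    (N : Subgroup Γ) [N.Normal] (hiN : ∀ k, i k ∈ N)
    (hN : ∀ γ ∈ N, ∃ k, ∃ t : H, (t : Γ) ∈ N ∧ γ = i k * t)
    (T : Subgroup H) (hT : T ≠ ⊤) (hNT : ∀ t : H, (t : Γ) ∈ N → t ∈ T) (hjT : ∀ l, j l ∈ T)
    {X : T → ℂ} (hX : IsIrrCharacter T X) (hXi : indFun T X = fun x : H => Θ x) :
    ∃ (S : Subgroup Γ) (η : S → ℂ), N ≤ S ∧ S ≠ ⊤ ∧ IsCharacter S η ∧ indFun S η = β * Θ := by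
  haveI := Fintype.ofFinite T
  let r : H →* Γ ⧸ N := (QuotientGroup.mk' N).comp H.subtype
  have hr : Function.Surjective r := fun q => by
    obtain ⟨γ, rfl⟩ := QuotientGroup.mk'_surjective _ q
    obtain ⟨k, t, rfl⟩ := hsup γ
    refine ⟨t, ?_⟩
    rw [map_mul, show QuotientGroup.mk' N (i k) = 1 from
      (QuotientGroup.eq_one_iff _).2 (hiN k), one_mul]
    rfl
  let S : Subgroup Γ := (T.map r).comap (QuotientGroup.mk' N)
  haveI := Fintype.ofFinite S
  have hSi : S.index ∣ T.index := by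
    rw [Subgroup.index_comap_of_surjective _ (QuotientGroup.mk'_surjective N)]
    exact Subgroup.index_map_dvd _ hr
  have hTS : ∀ t : T, ((t : H) : Γ) ∈ S := fun t => ⟨t, t.2, rfl⟩
  have hNS : N ≤ S := fun x hx => ⟨1, T.one_mem, by
    rw [map_one]; exact ((QuotientGroup.eq_one_iff _).2 hx).symm⟩
  have hmemS : ∀ γ ∈ S, ∃ k, ∃ t : T, γ = i k * ((t : H) : Γ) := by
    rintro γ ⟨t, ht, h⟩
    have h1 : γ * (t : Γ)⁻¹ ∈ N := by
      rw [← QuotientGroup.eq_one_iff]
      change QuotientGroup.mk' N _ = 1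
      rw [map_mul, map_inv, ← h]
      exact mul_inv_cancel _
    obtain ⟨k, s, hs, h2⟩ := hN _ h1
    refine ⟨k, ⟨s * t, T.mul_mem (hNT s hs) ht⟩, ?_⟩
    change γ = i k * (s * t)
    rw [← mul_assoc, ← h2, inv_mul_cancel_right]
  have hS : S ≠ ⊤ := fun h => hT (by
    rw [eq_top_iff]
    intro t _
    obtain ⟨k, s, h1⟩ := hmemS t (h ▸ Subgroup.mem_top _)
    have h2 : t * (s : H)⁻¹ ∈ T := hNT _ (by
      change (t : Γ) * ((s : H) : Γ)⁻¹ ∈ N
      rw [h1, mul_inv_cancel_right]; exact hiN k)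
    simpa using T.mul_mem h2 s.2)
  let f : T →* S := (H.subtype.comp T.subtype).codRestrict S hTS
  let iS : K →* S := i.codRestrict S fun k => hNS (hiN k)
  let jT : L →* T := j.codRestrict T hjT
  have hiS : iS.range.Normal := ⟨by
    rintro _ ⟨k, rfl⟩ g
    obtain ⟨k', hk'⟩ := hi.conj_mem _ ⟨k, rfl⟩ (g : Γ)
    exact ⟨k', Subtype.ext hk'⟩⟩
  have hΘX : classInner (fun t : T => Θ ((t : H) : Γ)) X ≠ 0 := by
    have h1 := inner_indFun_right T X (hΘ.isClassFunction.restrict H)
    rw [← h1, hXi, ne_eq, classInner_self_eq_zero]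
    intro h0
    apply hne.apply_one_ne_zero
    have : Θ 1 = 0 := congrFun h0 1
    simp [this]
  obtain ⟨x, -, hx⟩ := exists_mul_of_constituent jT
    ((hΘ.restrict H).restrict T) hX hΘX hφ (e := e) he
  have hxe : T.index * x = e := by
    have h1 := congrFun hXi 1
    have e1 := he 1
    have e2 := hx 1
    rw [map_one] at e1 e2
    rw [indFun_one, e2, e1, ← mul_assoc] at h1
    exact_mod_cast mul_right_cancel₀ hφ.apply_one_ne_zero h1
  have h1 : classInner ((fun t : T => β ((t : H) : Γ)) * X) (fun t : T => ψ t) ≠ 0 := by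
    have h2 := hne.classInner_self
    nth_rewrite 2 [← hind] at h2
    rw [inner_indFun_right _ _ hne.isClassFunction] at h2
    have h3 : (fun x : H => (β * Θ) x) = indFun T (X * fun t : T => β ((t : H) : Γ)) := by
      rw [indFun_mul_res' T X (hβ.isClassFunction.restrict H), hXi]
      funext x; exact mul_comm _ _
    rw [h3, inner_indFun_left _ _ hψ.isClassFunction] at h2
    rw [mul_comm, h2]; exact one_ne_zero
  obtain ⟨β0, d, hβ0, h2, h3, h4⟩ := exists_small jT ((hβ.isCharacter.restrict H).restrict T)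
    hX.isCharacter (hψ.isCharacter.restrict T) hφ hj hx hc h1
  obtain ⟨β1, hβ1i, h5, h6⟩ := exists_constituent_inner_comp_ne_zero f
    (hβ.isClassFunction.restrict S) (θ := β0) h2
  have h7 : ∀ k, β1 (iS k) = β1 1 :=
    apply_eq_of_constituent iS (hβ.isCharacter.restrict S) hβ1i h5 hk
  have h8 := (irr_comp_of_supp iS hiS f (fun γ => by
    obtain ⟨k, t, h⟩ := hmemS γ γ.2
    exact ⟨k, t, Subtype.ext h⟩) hβ1i h7).eq_of_classInner_ne_zero hβ0 h6
  have h9 : β1 1 = d := by rw [← h3, ← h8]; simp only [map_one]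
  have hη : IsCharacter S (β1 * fun s : S => Θ s) := hβ1i.isCharacter.mul (hΘ.restrict S)
  refine ⟨S, _, hNS, hS, hη, eq_of_constituent_of_degree_le (isCharacter_indFun S hη) hne ?_ ?_⟩
  · rw [inner_indFun_left _ _ hne.isClassFunction]
    have h10 := ((hβ.isCharacter.restrict S).sub_irr hβ1i h5).mul (hΘ.restrict S)
    have h11 : (fun s : S => (β * Θ) s) = (β1 * fun s : S => Θ s) +
        ((fun s : S => β s) - β1) * fun s : S => Θ s := by
      funext s; simp only [Pi.mul_apply, Pi.add_apply, Pi.sub_apply]; ring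
    obtain ⟨a, ha⟩ := hη.classInner_nat hη
    obtain ⟨b, hb⟩ := hη.classInner_nat h10
    rw [h11, classInner_add_right, ha, hb]
    have ha0 : a ≠ 0 := by
      rintro rfl
      rw [Nat.cast_zero, classInner_self_eq_zero] at ha
      have h12 := congrFun ha 1
      simp only [Pi.mul_apply, Pi.zero_apply, mul_eq_zero] at h12
      rcases h12 with h | h
      · exact hβ1i.apply_one_ne_zero h
      · exact hne.apply_one_ne_zero (by
          have : Θ 1 = 0 := h
          simp [this])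
    exact_mod_cast (by omega : a + b ≠ 0)
  · obtain ⟨n, hn⟩ := hΘ.exists_degree
    have h10 : S.index * d ≤ e * c := by
      calc S.index * d ≤ T.index * (x * c) :=
            Nat.mul_le_mul (Nat.le_of_dvd (Nat.pos_of_ne_zero Subgroup.index_ne_zero_of_finite)
              hSi) h4
        _ = e * c := by rw [← mul_assoc, hxe]
    rw [indFun_one, Pi.mul_apply, Pi.mul_apply, h9, hβ1, show Θ ((1 : S) : Γ) = n from hn, hn]
    simp only [← Nat.cast_mul, Complex.natCast_re]
    rw [← mul_assoc]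
    exact_mod_cast Nat.mul_le_mul_right n h10

/-- Third step: the homogeneous case is impossible. -/
theorem index_eq_one (H M : Subgroup Γ) [M.Normal] {Θ : Γ → ℂ} (hΘ : IsCharacter Γ Θ)
    (hM : IsIrrCharacter M (fun x : M => Θ x)) {X : M.subgroupOf H → ℂ}
    (hX : IsIrrCharacter (M.subgroupOf H) X) {b : ℕ} (hb : ∀ u : M.subgroupOf H, Θ (u : H) = b * X u)
    (E : NEmb L (M.subgroupOf H)) {φ : L → ℂ} (hφ : IsIrrCharacter L φ) {e : ℕ}
    (he : ∀ l, Θ (E.f l : H) = e * φ l) (hcop : E.f.range.index.Coprime e)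
    (hee : e * e = H.relIndex M)
    (hcore : ∀ u : M.subgroupOf H, u ∉ E.f.range → ∃ g : Γ, g * (u : H) * g⁻¹ ∉ H) :
    E.f.range.index = 1 := by
  haveI := Fintype.ofFinite (M.subgroupOf H)
  haveI := Fintype.ofFinite M
  haveI := Fintype.ofFinite (H.subgroupOf M)
  have hΘU : IsCharacter (M.subgroupOf H) (fun u => Θ (u : H)) := (hΘ.restrict H).restrict _
  have hb0 : (b : ℂ) ≠ 0 := fun h => hM.apply_one_ne_zero (by
    have := hb 1
    rw [h, zero_mul] at this
    exact this)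
  have h1 : classInner (fun u : M.subgroupOf H => Θ (u : H)) X ≠ 0 := by
    rw [inner_of_mul hX hb (y := 1) (fun l => by simp)]
    simpa using hb0
  obtain ⟨t, ht0, ht⟩ := exists_mul_of_constituent E.f hΘU hX h1 hφ he
  obtain ⟨t', ht', h2⟩ := E.degree_dvd_index hφ hX (by
    rw [inner_of_mul hφ ht (y := 1) (fun l => by simp)]
    simpa using ht0.ne')
  have e1 := he 1
  have e2 := ht 1
  have e3 := hb 1
  rw [map_one] at e1 e2
  have htt : t = t' := by
    rw [e2] at h2
    exact_mod_cast mul_right_cancel₀ hφ.apply_one_ne_zero h2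
  have hbt : b * t = e := by
    rw [e3, e2, ← mul_assoc] at e1
    exact_mod_cast mul_right_cancel₀ hφ.apply_one_ne_zero e1
  have ht1 : t = 1 := Nat.eq_one_of_dvd_coprimes hcop (htt ▸ ht') (Dvd.intro_left _ hbt)
  subst ht1
  rw [mul_one] at hbt
  subst hbt
  let σ : H.subgroupOf M ≃ M.subgroupOf H :=
    { toFun := fun x => ⟨⟨(x : M), x.2⟩, (x : M).2⟩
      invFun := fun x => ⟨⟨(x : H), x.2⟩, (x : H).2⟩
      left_inv := fun _ => rfl
      right_inv := fun _ => rfl }
  have h3 : ∀ g : M, g ∉ H.subgroupOf M → Θ g = 0 := fun g hg => by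
    refine vanish_of_inner_res (H.subgroupOf M) hM ?_ hg
    have h4 := classInner_comp_equiv (fun u : M.subgroupOf H => Θ (u : H))
      (fun u : M.subgroupOf H => Θ (u : H)) σ
    rw [inner_of_mul hX hb hb, map_natCast, ← Nat.cast_mul, hee] at h4
    exact h4
  have h4 := (E.sq_eq_index_iff hX hφ ht).2 fun u hu => by
    obtain ⟨g, hg⟩ := hcore u hu
    have h5 := h3 ⟨g * (u : H) * g⁻¹, (inferInstance : M.Normal).conj_mem _ u.2 g⟩ hg
    rw [hΘ.isClassFunction, hb] at h5
    exact (mul_eq_zero.1 h5).resolve_left hb0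
  rw [← h4, one_pow]

end step

theorem index_eq_relIndex {G : Type*} [Group G] [Finite G] (H K : Subgroup G)
    (h : ∀ x : G, ∃ k ∈ K, ∃ h ∈ H, x = k * h) : H.index = H.relIndex K := by
  haveI := Fintype.ofFinite G
  haveI := Fintype.ofFinite K
  have h1 := mackey_of_mul_eq H K h (isClassFunction_const 1) 1
  rw [OneMemClass.coe_one, indFun_one, indFun_one, mul_one, mul_one] at h1
  exact_mod_cast h1

theorem berger_aux (n : ℕ) : ∀ (G : Type v) [Group G] [Fintype G] [Group.IsSolvable G]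
    (N : Subgroup G) [N.Normal], N.index = n → ∀ χ : G → ℂ, IsIrrCharacter G χ → Hom χ N →
    ∀ (H : Subgroup G) (ψ : H → ℂ), N ≤ H → H ≠ ⊤ → IsCharacter H ψ → indFun H ψ ≠ χ := by
  induction n using Nat.strong_induction_on with
  | _ n ih =>
  intro G _ _ _ N _ hn χ hχ hhom H0 ψ0 hNH0 hH0 hψ0 hind0
  obtain ⟨H, hH, hH0H⟩ := (eq_top_or_exists_le_coatom H0).resolve_left hH0
  haveI := Fintype.ofFinite H
  obtain ⟨ψ, hψc, hind⟩ : ∃ ψ : H → ℂ, IsCharacter H ψ ∧ indFun H ψ = χ :=
    ⟨_, isCharacter_indFun _ (hψ0.comp (Subgroup.subgroupOfEquivOfLe hH0H).toMonoidHom),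
      (indFun_trans H0 H hH0H ψ0).trans hind0⟩
  have hψ : IsIrrCharacter H ψ := isIrr_of_indFun H hψc (hind ▸ hχ)
  clear hind0 hψ0 ψ0 hH0
  set L := H.normalCore with hL
  have hLH : L ≤ H := H.normalCore_le
  have hNL : N ≤ L := Subgroup.normal_le_normalCore.2 (hNH0.trans hH0H)
  obtain ⟨K, hKn, hLK, -, hKc⟩ := exists_chief_above (K := ⊤)
    (lt_of_le_of_lt hLH hH.1.lt_top)
  obtain ⟨hKK, p, hp, hpK, a, ha⟩ := exists_prime_of_chief hLK hKc
  have hKH : ¬ K ≤ H := fun h => hLK.not_ge (Subgroup.normal_le_normalCore.2 h)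
  have hsup : ∀ x : G, ∃ k ∈ K, ∃ h ∈ H, x = k * h := fun x => by
    have h1 : K ⊔ H = ⊤ := hH.2 _ (right_lt_sup.2 hKH)
    have h2 : x ∈ ((K ⊔ H : Subgroup G) : Set G) := by rw [h1]; trivial
    rw [Subgroup.normal_mul] at h2
    obtain ⟨k, hk, h, hh, rfl⟩ := h2
    exact ⟨k, hk, h, hh, rfl⟩
  have hKHL : K ⊓ H = L := by
    refine le_antisymm ?_ (le_inf hLK.le hLH)
    haveI : (K ⊓ H).Normal := ⟨fun x hx g => by
      obtain ⟨k, hk, h, hh, rfl⟩ := hsup g
      have h1 : h * x * h⁻¹ ∈ K ⊓ H :=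
        ⟨hKn.conj_mem x hx.1 h, H.mul_mem (H.mul_mem hh hx.2) (H.inv_mem hh)⟩
      have h2 := hKK (Subgroup.commutator_mem_commutator hk h1.1)
      rw [commutatorElement_def] at h2
      have h3 : k * h * x * (k * h)⁻¹ =
          k * (h * x * h⁻¹) * k⁻¹ * (h * x * h⁻¹)⁻¹ * (h * x * h⁻¹) := by group
      rw [h3]
      exact (K ⊓ H).mul_mem ⟨hLK.le h2, hLH h2⟩ h1⟩
    exact Subgroup.normal_le_normalCore.2 inf_le_right
  have hidx : H.index = L.relIndex K := by
    rw [← hKHL, Subgroup.inf_relIndex_left]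
    exact index_eq_relIndex H K hsup
  haveI := Fintype.ofFinite L
  haveI := Fintype.ofFinite K
  obtain ⟨φ, eL, hφ, heL⟩ := hhom L inferInstance hNL
  obtain ⟨θ, eK, hθ, heK⟩ := hhom K hKn (hNL.trans hLK.le)
  have hχψ : classInner (fun h : H => χ h) ψ ≠ 0 := by
    rw [← inner_indFun_right _ _ hχ.isClassFunction, hind, hχ.classInner_self]
    exact one_ne_zero
  obtain ⟨c, hc0, hc⟩ := exists_mul_of_constituent (Subgroup.inclusion hLH)
    (hχ.isCharacter.restrict H) hψ hχψ hφ heL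
  have heK0 : (eK : ℂ) ≠ 0 := fun h => hχ.apply_one_ne_zero (by
    have := heK 1
    rw [h, zero_mul] at this
    exact this)
  have hχθ : classInner (fun k : K => χ k) θ = eK := by
    rw [inner_of_mul hθ heK (y := 1) (fun l => by simp)]; simp
  obtain ⟨e, he0, he⟩ := exists_mul_of_constituent (Subgroup.inclusion hLK.le)
    (hχ.isCharacter.restrict K) hθ (hχθ ▸ heK0) hφ heL
  have heKc : eK = e * c := by
    haveI := Fintype.ofFinite (H.subgroupOf K)
    have h1 : (fun k : K => χ k) = indFun (H.subgroupOf K)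
        (fun x => ψ ⟨(x : K), Subgroup.mem_subgroupOf.mp x.2⟩) := by
      funext k
      rw [← hind]
      exact mackey_of_mul_eq H K hsup hψ.isClassFunction k
    rw [h1, inner_indFun_left _ _ hθ.isClassFunction] at hχθ
    let σ : L ≃ H.subgroupOf K :=
      { toFun := fun l => ⟨⟨l, hLK.le l.2⟩, hLH l.2⟩
        invFun := fun x => ⟨(x : K), hKHL.le ⟨(x : K).2, x.2⟩⟩
        left_inv := fun _ => rfl
        right_inv := fun _ => rfl }
    rw [← classInner_comp_equiv _ _ σ] at hχθ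
    have h2 := hχθ.symm.trans (inner_of_mul hφ (x := c) (y := e) hc he)
    rw [map_natCast, mul_comm] at h2
    exact_mod_cast h2
  have hee : e * e = H.index := by
    have h1 := congrFun hind 1
    have e1 := hc 1
    have e2 := he 1
    have e3 := heK 1
    rw [map_one] at e1 e2
    rw [indFun_one, e1, show χ 1 = _ from e3, e2, heKc, ← mul_assoc, ← mul_assoc] at h1
    have h2 : H.index * c = e * c * e := by
      exact_mod_cast mul_right_cancel₀ hφ.apply_one_ne_zero h1
    apply Nat.eq_of_mul_eq_mul_right hc0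
    rw [h2]; ring
  have hKtop : K < ⊤ := by
    refine lt_top_iff_ne_top.2 fun h => ?_
    rw [h, top_inf_eq] at hKHL
    obtain ⟨x, hxK, hxL⟩ := SetLike.exists_of_lt hLK
    let π := QuotientGroup.mk' L
    have h1 : (Subgroup.zpowers (π x)).comap π = ⊤ := hH.2 _ (lt_of_le_of_ne
      (fun y hy => by
        rw [hKHL] at hy
        rw [Subgroup.mem_comap, show π y = 1 from (QuotientGroup.eq_one_iff _).2 hy]
        exact Subgroup.one_mem _)
      fun h2 => hxL (hKHL ▸ h2 ▸ Subgroup.mem_zpowers _))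
    have h2 : Subgroup.zpowers (π x) = ⊤ := by
      rw [eq_top_iff]
      intro y _
      obtain ⟨y, rfl⟩ := QuotientGroup.mk'_surjective _ y
      exact (h1 ▸ Subgroup.mem_top y : y ∈ (Subgroup.zpowers (π x)).comap π)
    have h3 : e * e ∣ p := by
      rw [hee, hKHL, Subgroup.index_eq_card, ← Subgroup.card_top, ← h2, Nat.card_zpowers]
      apply orderOf_dvd_of_pow_eq_one
      rw [← map_pow]
      exact (QuotientGroup.eq_one_iff _).2 (hpK x hxK)
    have h4 : e = 1 := by
      rcases (Nat.dvd_prime hp).1 h3 with h5 | h5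
      · exact Nat.eq_one_of_mul_eq_one_right h5
      · rcases (Nat.dvd_prime hp).1 (Dvd.intro _ h5) with h6 | h6
        · exact h6
        · rw [h6] at h5
          have := hp.one_lt
          nlinarith
    rw [h4] at hee
    exact hH.1 (Subgroup.index_eq_one.1 hee.symm)
  obtain ⟨M, hMn, hKM, -, hMc⟩ := exists_chief_above (K := ⊤) hKtop
  obtain ⟨-, q, hq, hqM, b, hb⟩ := exists_prime_of_chief hKM hMc
  have hML : ¬ M ⊓ H ≤ L := fun h1 => by
    refine hKM.not_ge fun x hx => ?_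
    obtain ⟨k, hk, h, hh, rfl⟩ := hsup x
    exact K.mul_mem hk (hLK.le (h1 ⟨(M.mul_mem_cancel_left (hKM.le hk)).1 hx, hh⟩))
  have hpq : p ≠ q := by
    rintro rfl
    exact hML <| false_of_same_prime (M := M) hH hp (fun x hx => ⟨2, by
      rw [sq, pow_mul]; exact hpK _ (hqM x hx)⟩) (by
        rw [hidx, ha]
        refine dvd_pow_self p fun h0 => ?_
        rw [h0, pow_zero, Subgroup.relIndex_eq_one] at ha
        exact hLK.not_ge ha)
  have hinv := (NEmb.ofNormal K).invariant_of_res_eq_mul hχ.isClassFunction heK0 heK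
  obtain ⟨Γ, _, _, Z, _, ⟨C⟩⟩ := exists_cover' (NEmb.ofNormal K) hθ hinv
  haveI := Fintype.ofFinite Γ
  haveI := C.finite_Z
  obtain ⟨β, hβ, hβ1, hβ2⟩ := C.exists_factor hθ hχ (hχθ ▸ heK0)
  have hk : ∀ k, β (C.ι k) = β 1 := fun k => by
    have := hβ1 (k, 1) 1
    simpa [Cover.embNZ_f, Cover.nu_apply] using this
  have hprod : β * C.hat = fun γ => χ (C.π γ) := funext fun γ => (hβ2 γ).symm
  have hne : IsIrrCharacter Γ (β * C.hat) := hprod ▸ hχ.comp_of_surjective C.π C.π_surj
  set H' := H.comap C.π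
  haveI := Fintype.ofFinite H'
  have hψ' : IsIrrCharacter H' (fun x : H' => ψ ⟨C.π x, x.2⟩) :=
    hψ.comp_of_surjective (C.π.subgroupComap H) (C.π.subgroupComap_surjective_of_surjective H C.π_surj)
  have hind' : indFun H' (fun x : H' => ψ ⟨C.π x, x.2⟩) = β * C.hat := by
    rw [hprod, indFun_comap C.π C.π_surj, hind]
  let j : L →* H' := (C.ι.comp (Subgroup.inclusion hLK.le)).codRestrict H' fun l => by
    change C.π (C.ι _) ∈ H
    rw [C.π_ι]; exact hLH l.2
  have hπj : ∀ l, C.π (j l) = l := fun l => C.π_ι _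
  have hsupN : ∀ γ : Γ, ∃ k, ∃ t : H', γ = C.ι k * t := fun γ => by
    obtain ⟨k, hk, h, hh, h1⟩ := hsup (C.π γ)
    refine ⟨⟨k, hk⟩, ⟨(C.ι ⟨k, hk⟩)⁻¹ * γ, ?_⟩, by simp⟩
    change C.π _ ∈ H
    rw [map_mul, map_inv, C.π_ι, h1]
    simpa using hh
  have hc' : ∀ l, (fun x : H' => ψ ⟨C.π x, x.2⟩) (j l) = c * φ l := fun l => by
    rw [← hc]
    exact congrArg ψ (Subtype.ext (hπj l))
  have he' : ∀ l, C.hat (j l) = e * φ l := fun l => by rw [← he]; exact C.hat_ι _
  have hβd : β 1 = (e * c : ℕ) := by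
    have h1 := hβ2 1
    rw [map_one, C.hat_one, show χ 1 = _ from heK 1, heKc] at h1
    exact (mul_right_cancel₀ hθ.apply_one_ne_zero h1).symm
  have hΘH := irr_res C.ι C.embN.instNormalRange H' j hsupN hβ C.isChar hk (fun l => hk _) hψ'
    hne hind' hφ hc0 hc' he' hβd
  set M' := M.comap C.π
  haveI := Fintype.ofFinite (M'.subgroupOf H')
  let E := NEmb.ofNormal (M'.subgroupOf H')
  obtain ⟨X0, hX0, hX0'⟩ := exists_irr_under_hom E.f hΘH
  by_cases hT : E.inertia X0 = ⊤
  · obtain ⟨b', -, -, hb'⟩ := E.clifford_of_invariant_nat hΘH hX0 (E.inertia_eq_top_iff.1 hT) hX0'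
    let f0 : L × Z →* Γ := C.embNZ.f.comp ((Subgroup.inclusion hLK.le).prodMap (MonoidHom.id Z))
    have hf0 : ∀ x, C.π (f0 x) = x.1 := fun x => by
      change C.π (C.ι _ * C.ζ _) = _
      rw [map_mul, C.π_ι, C.π_ζ, mul_one]; rfl
    let f : L × Z →* M'.subgroupOf H' :=
      (f0.codRestrict H' fun x => by
        change C.π _ ∈ H; rw [hf0]; exact hLH x.1.2).codRestrict _ fun x => by
          change C.π (f0 x) ∈ M; rw [hf0]; exact hKM.le (hLK.le x.1.2)
    have hfi : Function.Injective f := fun x y h => by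
      have h1 := C.embNZ.inj (congrArg (fun u : M'.subgroupOf H' => ((u : H') : Γ)) h)
      have h2 := congrArg Prod.fst h1
      have h3 := congrArg Prod.snd h1
      exact Prod.ext (Subgroup.inclusion_injective hLK.le h2) h3
    have hfr : ∀ u, u ∈ f.range ↔ C.π (u : H') ∈ L := fun u => by
      constructor
      · rintro ⟨x, rfl⟩
        change C.π (f0 x) ∈ L
        rw [hf0]; exact x.1.2
      · intro hu
        obtain ⟨z, hz⟩ := C.ker ((C.ι ⟨_, hLK.le hu⟩)⁻¹ * (u : H')) (by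
          rw [map_mul, map_inv, C.π_ι]; simp)
        refine ⟨(⟨_, hu⟩, z), Subtype.ext (Subtype.ext ?_)⟩
        change C.ι ⟨_, hLK.le hu⟩ * C.ζ z = _
        rw [hz, mul_inv_cancel_left]
    have hfn : f.range.Normal := ⟨fun u hu g => by
      rw [hfr] at hu ⊢
      simpa using (inferInstance : L.Normal).conj_mem _ hu (C.π (g : H'))⟩
    haveI := Fintype.ofFinite (L × Z)
    have h1 := index_eq_one H' M' C.isChar
      ((C.isChar.restrict M').isIrr_of_comp (C.ι.codRestrict M' fun k => by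
        change C.π _ ∈ M; rw [C.π_ι]; exact hKM.le k.2) (by
          simpa only [MonoidHom.codRestrict_apply, C.hat_ι] using hθ))
      hX0 hb' (NEmb.ofHom f hfi hfn) (hφ.prod (isIrrCharacter_linear C.lam)) (e := e)
      (fun x => by
        change C.hat (C.ι _ * C.ζ x.2) = _
        rw [← C.central, C.hat_ζ, C.hat_ι]
        change _ * θ (Subgroup.inclusion hLK.le x.1) = _
        rw [he]; ring)
      (by
        haveI := Fact.mk hq
        have hP : IsPGroup q ((M'.subgroupOf H') ⧸ f.range) := fun y => by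
          obtain ⟨y, rfl⟩ := QuotientGroup.mk_surjective y
          refine ⟨1, ?_⟩
          rw [pow_one, ← QuotientGroup.mk_pow, QuotientGroup.eq_one_iff, hfr]
          simp only [SubmonoidClass.coe_pow, map_pow]
          exact hKHL.le ⟨hqM _ y.2, H.pow_mem (y : H').2 q⟩
        obtain ⟨s, hs⟩ := hP.exists_card_eq
        change (Nat.card ((M'.subgroupOf H') ⧸ f.range)).Coprime e
        rw [hs]
        refine Nat.Coprime.pow_left _ ((Nat.Prime.coprime_iff_not_dvd hq).2 fun h => hpq ?_)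
        have h2 : q ∣ p ^ a := by rw [← ha, ← hidx, ← hee]; exact h.mul_right _
        exact ((Nat.prime_dvd_prime_iff_eq hq hp).1 (hq.dvd_of_dvd_pow h2)).symm)
      (by
        rw [hee, ← index_eq_relIndex H' M' (fun γ => by
          obtain ⟨k, t, h⟩ := hsupN γ
          exact ⟨_, by change C.π _ ∈ M; rw [C.π_ι]; exact hKM.le k.2, t, t.2, h⟩),
          Subgroup.index_comap_of_surjective _ C.π_surj])
      (fun u hu => by
        by_contra hcon
        push Not at hcon
        refine hu ((hfr u).2 fun g => ?_)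
        obtain ⟨g, rfl⟩ := C.π_surj g
        have h2 : C.π _ ∈ H := hcon g
        simpa only [map_mul, map_inv] using h2)
    rw [Subgroup.index_eq_one] at h1
    refine hML fun x hx => ?_
    obtain ⟨γ, rfl⟩ := C.π_surj x
    exact (hfr ⟨⟨γ, hx.2⟩, hx.1⟩).1 (by
      change _ ∈ (NEmb.ofHom f hfi hfn).f.range
      rw [h1]; trivial)
  · obtain ⟨X, hX, hXi, -⟩ := E.exists_indFun_eq_of_inertia_le hX0 _
      (E.f_mem_inertia hX0.isClassFunction) le_rfl hΘH hX0'
    have hMT : ∀ t : H', C.π t ∈ M → t ∈ E.inertia X0 := fun t ht =>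
      E.f_mem_inertia hX0.isClassFunction ⟨t, ht⟩
    obtain ⟨S, η, hKS, hS, hη, hηi⟩ := exists_induced C.ι C.embN.instNormalRange H' j hsupN hβ
      C.isChar hk (fun l => hk _) hψ' hne hind' hφ hc' he' hβd (K.comap C.π)
      (fun k => by change C.π _ ∈ K; rw [C.π_ι]; exact k.2)
      (fun γ hγ => by
        obtain ⟨k, t, rfl⟩ := hsupN γ
        refine ⟨k, t, ?_, rfl⟩
        refine ((K.comap C.π).mul_mem_cancel_left ?_).1 hγ
        change C.π _ ∈ K; rw [C.π_ι]; exact k.2)
      _ hT (fun t ht => hMT t (hKM.le ht))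
      (fun l => hMT _ (by rw [hπj]; exact hKM.le (hLK.le l.2))) hX hXi
    haveI : Group.IsSolvable Γ := by
      haveI : Group.IsSolvable Z := Group.isSolvable_of_comm fun a b =>
        C.ζ_inj (by rw [map_mul, map_mul, C.central])
      exact Group.isSolvable_of_ker_le_range C.ζ C.π fun γ hγ => C.ker γ hγ
    refine ih (K.comap C.π).index ?_ Γ (K.comap C.π) rfl _ hne ?_ S η hKS hS hη hηi
    · rw [Subgroup.index_comap_of_surjective _ C.π_surj, ← hn]
      exact Subgroup.index_strictAnti (lt_of_le_of_lt hNL hLK)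
    · intro W hW hKW
      haveI := hW
      obtain ⟨ϑ, s, hϑ, hs⟩ := hhom (W.map C.π) (hW.map _ C.π_surj)
        (hNL.trans (hLK.le.trans fun x hx => by
          obtain ⟨γ, rfl⟩ := C.π_surj x
          exact ⟨γ, hKW hx, rfl⟩))
      refine ⟨fun w => ϑ (C.π.subgroupMap W w), s,
        hϑ.comp_of_surjective _ (C.π.subgroupMap_surjective W), fun w => ?_⟩
      rw [hprod]
      exact hs (C.π.subgroupMap W w)

/-- Berger's theorem, relative form. -/
theorem berger {G : Type*} [Group G] [Fintype G] [Group.IsSolvable G] (N : Subgroup G) [N.Normal]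
    {χ : G → ℂ} (hχ : IsIrrCharacter G χ) (h : Hom χ N) (H : Subgroup G) (ψ : H → ℂ)
    (hNH : N ≤ H) (hH : H ≠ ⊤) (hψ : IsCharacter H ψ) : indFun H ψ ≠ χ :=
  berger_aux _ G N rfl χ hχ h H ψ hNH hH hψ

end Cfsg.Agent.H7.Bg
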