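import Cfsg.Agent.H5.Brauer1

/-! The Brauer lift of a modular representation is a generalized character. -/

set_option autoImplicit false

open Polynomial Module
open scoped ComplexConjugate

namespace Cfsg.Agent.H7.CU

section cp
variable {R V : Type*} [Field R] [AddCommGroup V] [Module R V] [FiniteDimensional R V]

open Module.Basis in
theorem charpoly_eq_mul (W : Submodule R V) (e : V →ₗ[R] V) (he : W ≤ W.comap e) :
    e.charpoly = (e.restrict he).charpoly * (W.mapQ W e he).charpoly := by
  let m := Module.Free.ChooseBasisIndex R W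
  let bW : Basis m R W := Module.Free.chooseBasis R W
  let n := Module.Free.ChooseBasisIndex R (V ⧸ W)
  let bQ : Basis n R (V ⧸ W) := Module.Free.chooseBasis R (V ⧸ W)
  let b := sumQuot bW bQ
  let A : Matrix m m R := LinearMap.toMatrix bW bW (e.restrict he)
  let B : Matrix m n R := Matrix.of fun i l ↦
    ((sumQuot bW bQ).repr (e ((sumQuot bW bQ) (Sum.inr l)))) (Sum.inl i)
  let D : Matrix n n R := LinearMap.toMatrix bQ bQ (W.mapQ W e he)
  suffices LinearMap.toMatrix b b e = Matrix.fromBlocks A B 0 D by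
    rw [← LinearMap.charpoly_toMatrix e b, this, ← LinearMap.charpoly_toMatrix _ bW,
      ← LinearMap.charpoly_toMatrix _ bQ, Matrix.charpoly_fromBlocks_zero₂₁]
  ext u v
  cases u with
  | inl i =>
    cases v with
    | inl k =>
      simp only [b, sumQuot_inl, Matrix.fromBlocks_apply₁₁, A, LinearMap.toMatrix_apply]
      apply sumQuot_repr_inl_of_mem
    | inr l => simp [b, LinearMap.toMatrix_apply, Matrix.fromBlocks_apply₁₂, B]
  | inr j =>
    cases v with
    | inl k =>
      suffices W.mkQ (e (bW k)) = 0 by simp [LinearMap.toMatrix_apply, b, this]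
      rw [← LinearMap.mem_ker, Submodule.ker_mkQ]
      exact he (Submodule.coe_mem (bW k))
    | inr l =>
      simp only [LinearMap.toMatrix_apply, sumQuot_repr_inr,
        Matrix.fromBlocks_apply₂₂, b, D]
      rw [← sumQuot_inr bW bQ l, W.mapQ_apply]
      simp

theorem charpoly_mul_comm (a b : End R V) : (a * b).charpoly = (b * a).charpoly := by
  let B := Module.Free.chooseBasis R V
  rw [← LinearMap.charpoly_toMatrix _ B, ← LinearMap.charpoly_toMatrix (b * a) B, LinearMap.toMatrix_mul,
    LinearMap.toMatrix_mul, Matrix.charpoly_mul_comm]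

end cp

section br
variable {K U : Type*} [Field K] [IsAlgClosed K] [AddCommGroup U] [Module K U] [FiniteDimensional K U]

theorem roots_charpoly_smul (a : End K U) {c : K} (hc : c ≠ 0) :
    (c • a).charpoly.roots = a.charpoly.roots.map (c * ·) := by
  have h : (c • a).charpoly = ((a.charpoly.roots.map (c * ·)).map fun x => X - C x).prod := by
    refine Polynomial.funext fun t => ?_
    have h1 : algebraMap K (End K U) t - c • a = c • (algebraMap K (End K U) (c⁻¹ * t) - a) := by
      rw [smul_sub, Algebra.algebraMap_eq_smul_one, Algebra.algebraMap_eq_smul_one, smul_smul,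
        ← mul_assoc, mul_inv_cancel₀ hc, one_mul]
    rw [LinearMap.eval_charpoly, h1, LinearMap.det_smul, ← LinearMap.eval_charpoly]
    have h2 := (IsAlgClosed.splits a.charpoly).eq_prod_roots_of_monic a.charpoly_monic
    have h3 : a.charpoly.roots.card = finrank K U := by
      rw [IsAlgClosed.card_roots_eq_natDegree, a.charpoly_natDegree]
    conv_lhs => rw [h2]
    rw [eval_multiset_prod, eval_multiset_prod, Multiset.map_map, Multiset.map_map, Multiset.map_map, ← h3,
      ← Multiset.prod_replicate, ← Multiset.map_const', ← Multiset.prod_map_mul]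
    congr 1
    refine Multiset.map_congr rfl fun x _ => ?_
    simp only [Function.comp, eval_sub, eval_X, eval_C]
    rw [mul_sub, ← mul_assoc, mul_inv_cancel₀ hc, one_mul]
  rw [h, roots_multiset_prod_X_sub_C]

/-- the Brauer lift -/
noncomputable def br (θ : K →* ℂ) (a : End K U) : ℂ := (a.charpoly.roots.map θ).sum

theorem br_smul (θ : K →* ℂ) (a : End K U) {c : K} (hc : c ≠ 0) : br θ (c • a) = θ c * br θ a := by
  rw [br, roots_charpoly_smul a hc, Multiset.map_map, br, ← Multiset.sum_map_mul_left]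
  simp

omit [IsAlgClosed K] in
theorem br_one (θ : K →* ℂ) : br θ (1 : End K U) = finrank K U := by
  rw [br, LinearMap.charpoly_one, ← C_1, roots_pow, roots_X_sub_C]
  simp [Multiset.map_nsmul, Multiset.sum_nsmul]

omit [IsAlgClosed K] in
theorem br_eq_add (θ : K →* ℂ) (W : Submodule K U) (a : End K U) (h : W ≤ W.comap a) :
    br θ a = br θ (a.restrict h) + br θ (W.mapQ W a h) := by
  rw [br, charpoly_eq_mul W a h, roots_mul (mul_ne_zero (LinearMap.charpoly_monic _).ne_zero
    (LinearMap.charpoly_monic _).ne_zero), Multiset.map_add, Multiset.sum_add]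
  rfl

end br

universe u

theorem sum_br_int {K : Type*} [Field K] [IsAlgClosed K] (θ : K →* ℂ) {e : ℕ}
    (hθ : ∀ x : K, x ^ e = 1 → θ x = 1 → x = 1) {L : Type*} [Group L] [Fintype L] [Group.IsNilpotent L]
    (hL : ∀ g : L, g ^ e = 1) (μ : L →* ℂ) (n : ℕ) :
    ∀ (U : Type u) [AddCommGroup U] [Module K U] [FiniteDimensional K U] (ρ : Representation K L U),
      finrank K U = n → ∃ m : ℤ, ∑ l, br θ (ρ l) * μ l = Nat.card L * m := by
  induction n using Nat.strong_induction_on with
  | _ n ih =>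
  intro U _ _ _ ρ hn
  by_cases hW : ∃ W : Submodule K U, W ≠ ⊥ ∧ W ≠ ⊤ ∧ ∀ g, W ≤ W.comap (ρ g)
  · obtain ⟨W, h1, h2, h3⟩ := hW
    have h4 := W.finrank_quotient_add_finrank
    have h5 : finrank K W < n := hn ▸ Submodule.finrank_lt h2
    have h6 : 0 < finrank K W := Nat.pos_of_ne_zero fun h => h1 (Submodule.finrank_eq_zero.1 h)
    obtain ⟨m1, hm1⟩ := ih _ h5 W (ρ.subrepresentation W h3) rfl
    obtain ⟨m2, hm2⟩ := ih (finrank K (U ⧸ W)) (by omega) (U ⧸ W) (ρ.quotient W h3) rfl
    refine ⟨m1 + m2, ?_⟩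
    push_cast
    rw [mul_add, ← hm1, ← hm2, ← Finset.sum_add_distrib]
    refine Finset.sum_congr rfl fun l _ => ?_
    rw [br_eq_add θ W (ρ l) (h3 l), add_mul]
    rfl
  push Not at hW
  rcases subsingleton_or_nontrivial U with hU | hU
  · refine ⟨0, ?_⟩
    have : ∀ l, br θ (ρ l) = 0 := fun l => by
      rw [show ρ l = 1 from Subsingleton.elim _ _, br_one, finrank_zero_of_subsingleton]; simp
    simp [this]
  have hinj : ∀ c d : K, c • (1 : End K U) = d • 1 → c = d := fun c d h => by
    obtain ⟨v, hv⟩ := exists_ne (0 : U)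
    have := LinearMap.congr_fun h v
    simp only [LinearMap.smul_apply, End.one_apply] at this
    exact smul_left_injective K hv this
  have hne : ∀ (l : L) (c : K), ρ l = c • 1 → c ≠ 0 := fun l c h hc => by
    have : (ρ l⁻¹ * ρ l) = 1 := by rw [← map_mul, inv_mul_cancel, map_one]
    rw [h, hc, zero_smul, mul_zero] at this
    exact zero_ne_one this
  let N : Subgroup L :=
    { carrier := {l | ∃ c : K, ρ l = c • 1 ∧ θ c * μ l = 1}
      one_mem' := ⟨1, by simp, by simp⟩
      mul_mem' := by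
        rintro a b ⟨c, h1, h2⟩ ⟨d, h3, h4⟩
        refine ⟨c * d, by rw [map_mul, h1, h3, smul_mul_smul_comm, mul_one], ?_⟩
        rw [map_mul, map_mul, mul_mul_mul_comm, h2, h4, mul_one]
      inv_mem' := by
        rintro a ⟨c, h1, h2⟩
        have hc := hne a c h1
        refine ⟨c⁻¹, ?_, ?_⟩
        · have : (ρ a⁻¹ * ρ a) = 1 := by rw [← map_mul, inv_mul_cancel, map_one]
          rw [h1, mul_smul_comm, mul_one] at this
          rw [← this, smul_smul, inv_mul_cancel₀ hc, one_smul]
        · have : (θ c⁻¹ * μ a⁻¹) * (θ c * μ a) = 1 := by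
            rw [mul_mul_mul_comm, ← map_mul, ← map_mul, inv_mul_cancel₀ hc, inv_mul_cancel, map_one, map_one,
              mul_one]
          rwa [h2, mul_one] at this }
  have hN : N.Normal := ⟨by
    rintro a ⟨c, h1, h2⟩ g
    refine ⟨c, ?_, ?_⟩
    · rw [map_mul, map_mul, h1, mul_smul_comm, mul_one, smul_mul_assoc, ← map_mul, mul_inv_cancel, map_one]
    · rw [map_mul, map_mul, mul_right_comm (μ g), ← map_mul, mul_inv_cancel, map_one, one_mul, h2]⟩
  by_cases hT : N = ⊤
  · refine ⟨finrank K U, ?_⟩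
    have : ∀ l, br θ (ρ l) * μ l = finrank K U := fun l => by
      obtain ⟨c, h1, h2⟩ : l ∈ N := hT ▸ Subgroup.mem_top l
      rw [h1, br_smul θ _ (hne l c h1), br_one, mul_right_comm, h2, one_mul]
    simp [this]
  refine ⟨0, ?_⟩
  have : Nontrivial (L ⧸ N) := QuotientGroup.nontrivial_iff.2 hT
  obtain ⟨⟨z, hz⟩, hz1⟩ := Subgroup.ne_bot_iff_exists_ne_one.1 (Group.IsNilpotent.center_ne_bot (L ⧸ N))
  obtain ⟨z, rfl⟩ := QuotientGroup.mk_surjective z
  have hzN : z ∉ N := fun h => hz1 (Subtype.ext ((QuotientGroup.eq_one_iff z).2 h))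
  have hcomm : ∀ l, ρ z * ρ l = ρ l * ρ z := fun l => by
    have h1 : (l * z)⁻¹ * (z * l) ∈ N := by
      rw [← QuotientGroup.eq, QuotientGroup.mk_mul, QuotientGroup.mk_mul]
      exact Subgroup.mem_center_iff.1 hz _
    obtain ⟨c, h2, h3⟩ := h1
    have h4 : μ ((l * z)⁻¹ * (z * l)) = 1 := by
      rw [map_mul, map_mul μ z, mul_comm (μ z), ← map_mul, ← map_mul, inv_mul_cancel, map_one]
    have h5 : c ^ e = 1 := hinj _ _ (by
      have := congrArg (· ^ e) h2
      simp only [← map_pow, hL, map_one, _root_.smul_pow, one_pow] at this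
      rw [← this, one_smul])
    rw [h4, mul_one] at h3
    rw [hθ c h5 h3, one_smul] at h2
    rw [← map_mul, ← map_mul, ← mul_one (ρ (l * z)), ← h2, ← map_mul, mul_inv_cancel_left]
  obtain ⟨c, hc⟩ := End.exists_eigenvalue (ρ z)
  have h1 : End.eigenspace (ρ z) c = ⊤ := by
    by_contra h
    obtain ⟨g, hg⟩ := hW _ hc h
    refine hg fun v hv => ?_
    rw [Submodule.mem_comap, End.mem_eigenspace_iff, ← End.mul_apply, hcomm, End.mul_apply,
      End.mem_eigenspace_iff.1 hv, map_smul]
  have h2 : ρ z = c • 1 := LinearMap.ext fun v => End.mem_eigenspace_iff.1 (h1 ▸ Submodule.mem_top)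
  have h3 : θ c * μ z ≠ 1 := fun h => hzN ⟨c, h2, h⟩
  have h4 : ∑ l, br θ (ρ l) * μ l = (θ c * μ z) * ∑ l, br θ (ρ l) * μ l := by
    rw [Finset.mul_sum, ← Equiv.sum_comp (Equiv.mulLeft z)]
    refine Finset.sum_congr rfl fun l _ => ?_
    rw [Equiv.coe_mulLeft, map_mul, map_mul, h2, smul_mul_assoc, one_mul, br_smul θ _ (hne z c h2)]
    ring
  have h5 : (1 - θ c * μ z) * ∑ l, br θ (ρ l) * μ l = 0 := by rw [sub_mul, ← h4, one_mul, sub_self]
  rw [(mul_eq_zero.1 h5).resolve_left (sub_ne_zero.2 h3.symm)]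
  simp

theorem isGen_br {K : Type*} [Field K] [IsAlgClosed K] (θ : K →* ℂ) {e : ℕ}
    (hθ : ∀ x : K, x ^ e = 1 → θ x = 1 → x = 1) {G : Type*} [Group G] [Finite G] (hG : ∀ g : G, g ^ e = 1)
    {U : Type u} [AddCommGroup U] [Module K U] [FiniteDimensional K U] (ρ : Representation K G U) :
    IsGeneralizedCharacter G fun g => br θ (ρ g) := by
  have := Fintype.ofFinite G
  have hc : IsClassFunction G fun g => br θ (ρ g) := fun g h => by
    simp only [br]
    congr 3
    rw [map_mul, charpoly_mul_comm, ← map_mul, inv_mul_cancel_left]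
  refine H4.Cfsg.IsClassFunction.isGen_of_int hc fun χ hχ => ?_
  have key : ∀ η ∈ H5.linSpan (fun E : Subgroup G => ∃ p : ℕ, p.Prime ∧ IsElementary p E),
      ∃ n : ℤ, classInner (fun g => br θ (ρ g)) η = n := by
    intro η hη
    induction hη using Submodule.span_induction with
    | mem f hf =>
      obtain ⟨E, ⟨p, hp, hE⟩, lam, rfl⟩ := hf
      have := Fintype.ofFinite E
      have := H5.isNilpotent_of_isElementary hp hE
      rw [H5.inner_indFun_right _ _ hc]
      obtain ⟨m, hm⟩ := sum_br_int θ hθ (L := E) (fun g => Subtype.ext (hG g))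
        ((starRingEnd ℂ).toMonoidHom.comp ((Units.coeHom ℂ).comp lam)) _ U (ρ.comp E.subtype) rfl
      refine ⟨m, ?_⟩
      rw [classInner, inv_mul_eq_iff_eq_mul₀ (H5.card_ne_zero_C E), ← hm]
      rfl
    | zero => exact ⟨0, by rw [H4.classInner_zero_right]; simp⟩
    | add x y _ _ hx hy =>
      obtain ⟨a, ha⟩ := hx
      obtain ⟨b, hb⟩ := hy
      exact ⟨a + b, by rw [H4.classInner_add_right, ha, hb]; simp⟩
    | smul c x _ hx =>
      obtain ⟨a, ha⟩ := hx
      exact ⟨c * a, by rw [H4.classInner_zsmul_right, ha]; simp⟩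
  exact key χ (H5.brauer_induction (H4.Cfsg.IsIrrCharacter.isGen hχ))

end Cfsg.Agent.H7.CU
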