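import Cfsg.Agent.H7.CU1
import Cfsg.Agent.H28.Elu1

/-! The primitive part `del b` of a function of the characteristic polynomial. -/

set_option autoImplicit false

open Polynomial Module
open scoped ComplexConjugate

namespace Cfsg.Agent.H7.CU

open H28

open Classical in
theorem isGen_fixed_sum {G X : Type*} [Group G] [Finite G] [MulAction G X] [Fintype X] (f : G → X → ℂ)
    (hf : ∀ g h x, g • h • x = h • x → f (h⁻¹ * g * h) x = f g (h • x))
    (hg : ∀ x, IsGeneralizedCharacter (MulAction.stabilizer G x) fun s => f s x) :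
    IsGeneralizedCharacter G fun g => ∑ x with g • x = x, f g x := by
  have := Fintype.ofFinite G
  have := Fintype.ofFinite (MulAction.orbitRel.Quotient G X)
  have : (fun g => ∑ x with g • x = x, f g x) = ∑ ω : MulAction.orbitRel.Quotient G X,
      indFun (MulAction.stabilizer G ω.out) (fun s => f s ω.out) := by
    ext g
    rw [Finset.sum_apply, Finset.sum_filter, ← Finset.sum_fiberwise (g := fun z : X => (Quotient.mk'' z :
      MulAction.orbitRel.Quotient G X))]
    refine Finset.sum_congr rfl fun ω _ => ?_
    rw [H5.indFun_apply]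
    have h1 : ∀ y : G, extendByZero (MulAction.stabilizer G ω.out) (fun s => f s ω.out) (y⁻¹ * g * y) =
        (fun z : X => if g • z = z then f g z else 0) (y • ω.out) := by
      intro y
      have : y⁻¹ * g * y ∈ MulAction.stabilizer G ω.out ↔ g • y • ω.out = y • ω.out := by
        rw [MulAction.mem_stabilizer_iff, mul_smul, mul_smul, inv_smul_eq_iff]
      rw [H5.extendByZero_eq_dite]
      by_cases h : g • y • ω.out = y • ω.out
      · rw [dif_pos (this.2 h)]
        simp only [if_pos h]
        exact hf g y _ h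
      · rw [dif_neg (mt this.1 h)]
        simp only [if_neg h]
    simp only [h1]
    rw [H5.sum_smul_eq ω.out (fun z : X => if g • z = z then f g z else 0), ← mul_assoc,
      inv_mul_cancel₀ (H5.card_ne_zero_C _), one_mul]
    refine Finset.sum_congr ?_ fun _ _ => rfl
    ext z
    simp only [Finset.mem_filter, Finset.mem_univ, true_and]
    rw [← MulAction.orbitRel_apply, ← Quotient.eq'', Quotient.out_eq']
  rw [this]
  exact H4.isGen_sum _ _ fun ω _ => H5.isGeneralizedCharacter_indFun _ (hg _)

variable {F : Type*} [Field F] [Finite F]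

section
variable {V W : Type*} [AddCommGroup V] [Module F V] [FiniteDimensional F V]
  [AddCommGroup W] [Module F W] [FiniteDimensional F W]

theorem finite_submodule : Finite (Submodule F V) :=
  have := Module.finite_of_finite F (M := V)
  inferInstance

/-- the invariant subspaces -/
noncomputable def ivs (a : End F V) : Finset (Submodule F V) :=
  have := finite_submodule (F := F) (V := V)
  (Set.toFinite {U | Iv a U}).toFinset

@[simp] theorem mem_ivs {a : End F V} {U : Submodule F V} : U ∈ ivs a ↔ Iv a U := by simp [ivs]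

theorem sum_ivs_sim {a : End F V} {b : End F W} (h : Sim b a) (f : Multiset (PP F) → ℂ) :
    ∑ U ∈ ivs a, f (edOn a U) = ∑ U ∈ ivs b, f (edOn b U) := by
  obtain ⟨e, he⟩ := h
  have he' : ∀ v, e.symm (a v) = b (e.symm v) := fun v => e.injective (by simp [he])
  symm
  refine Finset.sum_nbij' (fun U => U.map (e : W →ₗ[F] V)) (fun U => U.map (e.symm : V →ₗ[F] W)) ?_ ?_ ?_ ?_ ?_
  · intro U hU
    exact mem_ivs.2 (edOn_map e he (mem_ivs.1 hU)).1
  · intro U hU
    exact mem_ivs.2 (edOn_map e.symm he' (mem_ivs.1 hU)).1
  · intro U _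
    simp [← Submodule.map_comp]
  · intro U _
    simp [← Submodule.map_comp]
  · intro U hU
    rw [(edOn_map e he (mem_ivs.1 hU)).2]

end

open Classical in
/-- the primitive part -/
noncomputable def del (b : F[X] → ℂ) (M : Multiset (PP F)) : ℂ :=
  b (M.map PP.poly).prod - ∑ U ∈ ((ivs (model M)).erase ⊤).attach, del b (edOn (model M) U.1)
termination_by tdg M
decreasing_by
  have h := Finset.mem_erase.1 U.2
  rw [tdg_edOn (mem_ivs.1 h.2)]
  conv_rhs => rw [← ed_model M, tdg_ed]
  exact Submodule.finrank_lt h.1

section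
variable {V : Type*} [AddCommGroup V] [Module F V] [FiniteDimensional F V]

theorem sum_del (b : F[X] → ℂ) (a : End F V) : ∑ U ∈ ivs a, del b (edOn a U) = b a.charpoly := by
  classical
  rw [sum_ivs_sim (sim_model_ed a).symm, ← Finset.add_sum_erase _ _ (mem_ivs.2 (iv_top _)), edOn_top, ed_model,
    del, Finset.sum_attach ((ivs (model (ed a))).erase ⊤) (fun U => del b (edOn (model (ed a)) U)),
    charpoly_eq_prod_ed, sub_add_cancel]

open Classical in
theorem del_ed (b : F[X] → ℂ) (a : End F V) :
    del b (ed a) = b a.charpoly - ∑ U ∈ (ivs a).erase ⊤, del b (edOn a U) := by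
  rw [← sum_del b a, ← Finset.add_sum_erase _ _ (mem_ivs.2 (iv_top _)), edOn_top, add_sub_cancel_right]

theorem del_zero {b : F[X] → ℂ} (hb : b 1 = 0) : del b 0 = 0 := by
  have h := sum_del b (0 : End F PUnit.{1})
  have h1 : ivs (0 : End F PUnit.{1}) = {⊥} := by
    ext U
    simp only [mem_ivs, Finset.mem_singleton]
    rw [Subsingleton.elim U ⊥]
    simp [iv_bot]
  rw [h1, Finset.sum_singleton, edOn_bot] at h
  rw [h, LinearMap.charpoly_zero, finrank_zero_of_subsingleton, pow_zero, hb]

omit [Finite F] in
theorem map_eq_iff_iv {G : Type*} [Group G] (ρ : Representation F G V) (g : G) (U : Submodule F V) :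
    U.map (ρ g) = U ↔ Iv (ρ g) U := by
  refine ⟨fun h => iv_iff.1 h.le, fun h => Submodule.eq_of_le_of_finrank_eq (iv_iff.2 h) ?_⟩
  exact (Submodule.equivMapOfInjective _ (ρ.apply_bijective g).1 U).finrank_eq.symm

end

universe u v

theorem isGen_del (b : F[X] → ℂ) (P : ∀ (G : Type v) [Group G], Prop)
    (hP : ∀ (G : Type v) [Group G] (H : Subgroup G), P G → P H)
    (hb : ∀ (G : Type v) [Group G] [Finite G], P G → ∀ (V : Type u) [AddCommGroup V] [Module F V]
      [FiniteDimensional F V] (ρ : Representation F G V), IsGeneralizedCharacter G fun g => b (ρ g).charpoly)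
    (n : ℕ) : ∀ (G : Type v) [Group G] [Finite G], P G → ∀ (V : Type u) [AddCommGroup V] [Module F V]
      [FiniteDimensional F V] (ρ : Representation F G V), finrank F V = n →
      IsGeneralizedCharacter G fun g => del b (ed (ρ g)) := by
  classical
  induction n using Nat.strong_induction_on with
  | _ n ih =>
  intro G _ _ hG V _ _ _ ρ hn
  have := finite_submodule (F := F) (V := V)
  have := Fintype.ofFinite (Submodule F V)
  let _ : MulAction G (Submodule F V) :=
    { smul := fun g U => U.map (ρ g)
      one_smul := fun U => by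
        change U.map (ρ 1) = U
        rw [map_one]; exact Submodule.map_id U
      mul_smul := fun g h U => by
        change U.map (ρ (g * h)) = (U.map (ρ h)).map (ρ g)
        rw [map_mul]; exact Submodule.map_comp _ _ _ }
  have hs : ∀ (g : G) (U : Submodule F V), g • U = U.map (ρ g) := fun _ _ => rfl
  have h1 := isGen_fixed_sum (G := G) (X := Submodule F V)
    (fun g U => if U = ⊤ then 0 else del b (edOn (ρ g) U)) ?_ ?_
  · have h2 := H4.Cfsg.IsGeneralizedCharacter.sub (hb G hG V ρ) h1
    convert h2 using 1
    ext g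
    rw [del_ed, Pi.sub_apply]
    congr 1
    symm
    rw [← Finset.sum_erase (a := ⊤) (f := fun U => if U = ⊤ then 0 else del b (edOn (ρ g) U)) _ (if_pos rfl)]
    refine Finset.sum_congr ?_ fun U hU => ?_
    · ext U
      simp [hs, map_eq_iff_iv]
    · rw [if_neg (Finset.mem_erase.1 hU).1]
  · intro g h U hU
    let e : V ≃ₗ[F] V := LinearEquiv.ofBijective (ρ h) (ρ.apply_bijective h)
    have he : ∀ w, e (ρ (h⁻¹ * g * h) w) = ρ g (e w) := fun w => by
      change (ρ h * ρ (h⁻¹ * g * h)) w = (ρ g * ρ h) w
      rw [← map_mul, ← map_mul, mul_assoc, mul_inv_cancel_left]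
    have h2 : Iv (ρ (h⁻¹ * g * h)) U := by
      rw [← map_eq_iff_iv, ← hs, mul_smul, mul_smul, hU, inv_smul_smul]
    have h3 : U = ⊤ ↔ h • U = ⊤ := by
      have : h • (⊤ : Submodule F V) = ⊤ := by rw [hs, map_eq_iff_iv]; exact iv_top _
      conv_rhs => rw [← this]
      exact (smul_left_cancel_iff h).symm
    simp only [← h3]
    split_ifs
    · rfl
    · rw [← (edOn_map e he h2).2]; rfl
  · intro U
    by_cases hU : U = ⊤
    · simp only [if_pos hU]; exact H4.isGen_zero
    simp only [if_neg hU]
    have h2 : ∀ s : MulAction.stabilizer G U, Iv (ρ s) U := fun s => (map_eq_iff_iv ρ _ U).1 s.2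
    have := ih _ (hn ▸ Submodule.finrank_lt hU) (MulAction.stabilizer G U) (hP G _ hG) U
      (Representation.subrepresentation (ρ.comp (Subgroup.subtype _)) U h2) rfl
    convert this using 3 with s
    rw [edOn_eq (h2 s)]
    rfl

end Cfsg.Agent.H7.CU
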