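import Cfsg.Agent.H7.CU2

/-! The primitive part is cuspidal. -/

set_option autoImplicit false

open Polynomial Module

namespace Cfsg.Agent.H7.CU

open H28

theorem card_fiber_mul {A B : Type*} [AddCommGroup A] [AddCommGroup B] [Finite A] (φ : A →+ B)
    (h : Function.Surjective φ) (y : B) : Nat.card {x // φ x = y} * Nat.card B = Nat.card A := by
  rw [AddSubgroup.card_eq_card_quotient_mul_card_addSubgroup φ.ker, mul_comm,
    Nat.card_congr (QuotientAddGroup.quotientKerEquivOfSurjective φ h).toEquiv]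
  congr 1
  exact Nat.card_congr (φ.fiberEquivKerOfSurjective h y)

variable {F : Type*} [Field F]

section
variable {V W : Type*} [AddCommGroup V] [Module F V] [AddCommGroup W] [Module F W]

theorem exists_factor {Q : Type*} [AddCommGroup Q] [Module F Q] (f : W →ₗ[F] Q) (g : W →ₗ[F] V)
    (h : ∀ w, f w = 0 → g w = 0) : ∃ k : Q →ₗ[F] V, ∀ w, k (f w) = g w := by
  obtain ⟨s, hs⟩ := f.rangeRestrict.exists_rightInverse_of_surjective f.range_rangeRestrict
  obtain ⟨k, hk⟩ := LinearMap.exists_extend (g ∘ₗ s)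
  refine ⟨k, fun w => ?_⟩
  have h1 := LinearMap.congr_fun hk (f.rangeRestrict w)
  have h2 := congrArg Subtype.val (LinearMap.congr_fun hs (f.rangeRestrict w))
  have h3 := h (s (f.rangeRestrict w) - w) (by rw [map_sub, sub_eq_zero]; exact h2)
  rw [map_sub, sub_eq_zero] at h3
  exact h1.trans h3

/-- the nilradical of the stabilizer of a subspace -/
def rad (U : Submodule F V) : Submodule F (End F V) where
  carrier := {n | (∀ v, n v ∈ U) ∧ ∀ v ∈ U, n v = 0}
  add_mem' := fun {a b} ha hb => ⟨fun v => U.add_mem (ha.1 v) (hb.1 v), fun v hv => by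
    rw [LinearMap.add_apply, ha.2 v hv, hb.2 v hv, add_zero]⟩
  zero_mem' := ⟨fun _ => U.zero_mem, fun _ _ => rfl⟩
  smul_mem' := fun c a ha => ⟨fun v => U.smul_mem c (ha.1 v), fun v hv => by
    rw [LinearMap.smul_apply, ha.2 v hv, smul_zero]⟩

theorem mem_rad {U : Submodule F V} {n : End F V} : n ∈ rad U ↔ (∀ v, n v ∈ U) ∧ ∀ v ∈ U, n v = 0 := Iff.rfl

theorem exists_rad_ext (U U₀ : Submodule F V) (g : U →ₗ[F] V) (hg : ∀ w, g w ∈ U₀)
    (hg0 : ∀ w : U, (w : V) ∈ U₀ → g w = 0) : ∃ n ∈ rad U₀, ∀ w : U, n w = g w := by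
  obtain ⟨k, hk⟩ := exists_factor (U₀.mkQ ∘ₗ U.subtype) (g.codRestrict U₀ hg) fun w hw =>
    Subtype.ext (hg0 w ((Submodule.Quotient.mk_eq_zero _).1 hw))
  refine ⟨U₀.subtype ∘ₗ k ∘ₗ U₀.mkQ, ⟨fun v => (k _).2, fun v hv => ?_⟩, fun w => congrArg Subtype.val (hk w)⟩
  simp [(Submodule.Quotient.mk_eq_zero _).2 hv]

theorem iv_add_rad {a n : End F V} {U : Submodule F V} (h : Iv a U) (hn : n ∈ rad U) : Iv (a + n) U :=
  fun x hx => U.add_mem (h x hx) (hn.1 x)

theorem restrict_add_rad {a n : End F V} {U : Submodule F V} (h : Iv a U) (hn : n ∈ rad U) :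
    (a + n).restrict (iv_add_rad h hn) = a.restrict h :=
  LinearMap.ext fun x => Subtype.ext (show a x + n x = a x by rw [hn.2 x x.2, add_zero])

theorem iv_congr {a a' : End F V} {U : Submodule F V} (h : ∀ x ∈ U, a x = a' x) : Iv a U ↔ Iv a' U :=
  forall₂_congr fun x hx => by rw [h x hx]

theorem card_compl (U₀ : Submodule F V) (S : Submodule F (V ⧸ U₀)) :
    Nat.card {U : Submodule F V // Disjoint U U₀ ∧ U.map U₀.mkQ = S} = Nat.card (S →ₗ[F] U₀) := by
  obtain ⟨s, hs⟩ := U₀.mkQ.exists_rightInverse_of_surjective U₀.range_mkQ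
  have hs' : ∀ x, U₀.mkQ (s x) = x := LinearMap.congr_fun hs
  have hj : ∀ (φ : S →ₗ[F] U₀) (x : S), U₀.mkQ (s x + φ x) = x := fun φ x => by
    rw [map_add, hs', Submodule.mkQ_apply, (Submodule.Quotient.mk_eq_zero _).2 (φ x).2, add_zero]
  symm
  refine Nat.card_congr (Equiv.ofBijective (fun φ => ⟨LinearMap.range (s ∘ₗ S.subtype + U₀.subtype ∘ₗ φ), ?_, ?_⟩)
    ⟨fun φ ψ h => ?_, ?_⟩)
  · rw [Submodule.disjoint_def]
    rintro _ ⟨x, rfl⟩ hx
    have h1 := (hj φ x).symm.trans ((Submodule.Quotient.mk_eq_zero _).2 hx)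
    rw [show x = 0 from Subtype.ext h1, map_zero]
  · ext y
    constructor
    · rintro ⟨_, ⟨x, rfl⟩, rfl⟩
      exact (hj φ x).symm ▸ x.2
    · intro hy
      exact ⟨_, ⟨⟨y, hy⟩, rfl⟩, hj φ ⟨y, hy⟩⟩
  · ext x
    have h1 : LinearMap.range (s ∘ₗ S.subtype + U₀.subtype ∘ₗ φ) =
      LinearMap.range (s ∘ₗ S.subtype + U₀.subtype ∘ₗ ψ) := congrArg Subtype.val h
    obtain ⟨y, hy⟩ : (s ∘ₗ S.subtype + U₀.subtype ∘ₗ φ) x ∈ LinearMap.range (s ∘ₗ S.subtype + U₀.subtype ∘ₗ ψ) :=
      h1 ▸ LinearMap.mem_range_self _ _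
    have hy' : s y + ψ y = s x + φ x := hy
    have h2 : y = x := Subtype.ext (by rw [← hj ψ y, hy', hj])
    rw [h2] at hy'
    exact (add_left_cancel hy').symm
  · rintro ⟨U, h1, rfl⟩
    let e := LinearEquiv.ofBijective (U₀.mkQ.submoduleMap U) ⟨fun x y h => Subtype.ext (by
      have h2 : U₀.mkQ x = U₀.mkQ y := congrArg Subtype.val h
      rw [← sub_eq_zero]
      exact Submodule.disjoint_def.1 h1 _ (U.sub_mem x.2 y.2) ((Submodule.Quotient.eq _).1 h2)),
      LinearMap.submoduleMap_surjective _ _⟩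
    have he : ∀ x, U₀.mkQ (e.symm x) = x := fun x => congrArg Subtype.val (e.apply_symm_apply x)
    refine ⟨(U.subtype ∘ₗ e.symm.toLinearMap - s ∘ₗ Submodule.subtype _).codRestrict U₀ fun x =>
      (Submodule.Quotient.eq U₀).1 ((he x).trans (hs' x).symm), Subtype.ext ?_⟩
    change LinearMap.range _ = U
    rw [LinearMap.subtype_comp_codRestrict, add_sub_cancel, LinearMap.range_comp, LinearEquiv.range,
      Submodule.map_top, Submodule.range_subtype]

/-- the projection of a complementary subspace -/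
noncomputable def cplEquiv {U U₀ : Submodule F V} (h1 : Disjoint U U₀) : U ≃ₗ[F] U.map U₀.mkQ :=
  LinearEquiv.ofBijective (U₀.mkQ.submoduleMap U) ⟨fun x y h => Subtype.ext (by
    have h2 : U₀.mkQ x = U₀.mkQ y := congrArg Subtype.val h
    rw [← sub_eq_zero]
    exact Submodule.disjoint_def.1 h1 _ (U.sub_mem x.2 y.2) ((Submodule.Quotient.eq _).1 h2)),
    LinearMap.submoduleMap_surjective _ _⟩

theorem card_iv_rad [Finite V] {a : End F V} {U U₀ : Submodule F V} (h0 : Iv a U₀) (h1 : Disjoint U U₀)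
    (h2 : Iv (U₀.mapQ U₀ a h0) (U.map U₀.mkQ)) :
    Nat.card {n : rad U₀ // Iv (a + n.1) U} * Nat.card (U.map U₀.mkQ →ₗ[F] U₀) = Nat.card (rad U₀) := by
  have : Finite (End F V) := Finite.of_injective _ DFunLike.coe_injective
  let R : rad U₀ →+ (U →ₗ[F] U₀) :=
    { toFun := fun n => (n.1 ∘ₗ U.subtype).codRestrict U₀ fun w => n.2.1 w
      map_zero' := rfl
      map_add' := fun _ _ => rfl }
  have hR : Function.Surjective R := fun g => by
    obtain ⟨n, hn, h⟩ := exists_rad_ext U U₀ (U₀.subtype ∘ₗ g) (fun w => (g w).2) fun w hw => by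
      rw [show w = 0 from Subtype.ext (Submodule.disjoint_def.1 h1 _ w.2 hw), map_zero]
    exact ⟨⟨n, hn⟩, LinearMap.ext fun w => Subtype.ext (h w)⟩
  let e := cplEquiv h1
  have he : ∀ x, U₀.mkQ (e.symm x) = x := fun x => congrArg Subtype.val (e.apply_symm_apply x)
  let c : U →ₗ[F] U₀ := (U.subtype ∘ₗ e.symm.toLinearMap ∘ₗ (U₀.mapQ U₀ a h0).restrict h2 ∘ₗ e.toLinearMap -
    a ∘ₗ U.subtype).codRestrict U₀ fun x => (Submodule.Quotient.eq _).1 (he _)
  rw [← card_fiber_mul R hR c, Nat.card_congr (e.symm.arrowCongr (LinearEquiv.refl F U₀)).toEquiv]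
  congr 1
  refine Nat.card_congr (Equiv.subtypeEquivRight fun n => ⟨fun h => ?_, fun h x hx => ?_⟩)
  · ext x
    have h3 : (a + n.1) x - (c x + a x) ∈ U₀ := by
      rw [LinearMap.add_apply, add_comm (a x), add_sub_add_right_eq_sub]
      exact U₀.sub_mem (n.2.1 _) (c x).2
    have h4 : (c x : V) + a x ∈ U := by
      change (_ - a x) + a x ∈ U
      rw [sub_add_cancel]
      exact (e.symm _).2
    have h5 := Submodule.disjoint_def.1 h1 _ (U.sub_mem (h x x.2) h4) h3
    rw [LinearMap.add_apply, add_comm (a x), add_sub_add_right_eq_sub, sub_eq_zero] at h5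
    exact h5
  · have h3 : n.1 x = c ⟨x, hx⟩ := congrArg Subtype.val (LinearMap.congr_fun h ⟨x, hx⟩)
    rw [LinearMap.add_apply, h3]
    change a x + (_ - a x) ∈ U
    rw [add_sub_cancel]
    exact (e.symm _).2

variable [FiniteDimensional F V] [FiniteDimensional F W]

theorem edOn_congr {a a' : End F V} {U : Submodule F V} (h : ∀ x ∈ U, a x = a' x) : edOn a U = edOn a' U := by
  by_cases h1 : Iv a U
  · rw [edOn_eq h1, edOn_eq ((iv_congr h).1 h1)]
    congr 1
    exact LinearMap.ext fun x => Subtype.ext (h x x.2)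
  · rw [edOn, dif_neg h1, edOn, dif_neg (mt (iv_congr h).2 h1)]

theorem charpoly_add_rad {a n : End F V} {U : Submodule F V} (h : Iv a U) (hn : n ∈ rad U) :
    (a + n).charpoly = a.charpoly := by
  rw [charpoly_eq_mul U a h, charpoly_eq_mul U (a + n) (iv_add_rad h hn)]
  congr 2
  · exact restrict_add_rad h hn
  · refine LinearMap.ext fun x => ?_
    obtain ⟨x, rfl⟩ := U.mkQ_surjective x
    refine (Submodule.Quotient.eq _).2 ?_
    rw [LinearMap.add_apply, add_sub_cancel_left]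
    exact hn.1 x

theorem edOn_map_inj {a : End F V} {b : End F W} (j : W →ₗ[F] V) (hj : Function.Injective j)
    (h : ∀ w, j (b w) = a (j w)) {U : Submodule F W} (hU : Iv b U) :
    Iv a (U.map j) ∧ edOn a (U.map j) = edOn b U := by
  have := edOn_range (a := a) (b := b.restrict hU) (j ∘ₗ U.subtype) (hj.comp U.injective_subtype) fun w => h w
  rwa [LinearMap.range_comp, Submodule.range_subtype, ← edOn_eq] at this

theorem edOn_cpl {a n : End F V} {U U₀ : Submodule F V} (h0 : Iv a U₀) (hn : n ∈ rad U₀) (h1 : Disjoint U U₀)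
    (h2 : Iv (a + n) U) : Iv (U₀.mapQ U₀ a h0) (U.map U₀.mkQ) ∧
      edOn (U₀.mapQ U₀ a h0) (U.map U₀.mkQ) = edOn (a + n) U := by
  have := edOn_range (a := U₀.mapQ U₀ a h0) (b := (a + n).restrict h2) (U₀.mkQ ∘ₗ U.subtype)
    (fun x y h => (cplEquiv h1).injective (Subtype.ext h)) fun w => by
      refine (Submodule.Quotient.eq _).2 ?_
      change a w + n w - a w ∈ U₀
      rw [add_sub_cancel_left]
      exact hn.1 w
  rwa [LinearMap.range_comp, Submodule.range_subtype, ← edOn_eq] at this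

variable [Finite F]

theorem finite_end : Finite (End F V) := Module.finite_of_finite F

noncomputable scoped instance instFintypeEnd : Fintype (End F V) := @Fintype.ofFinite _ finite_end

open Classical in
/-- the nilradical as a finite set -/
noncomputable def rads (U : Submodule F V) : Finset (End F V) := Finset.univ.filter (· ∈ rad U)

@[simp] theorem mem_rads {U : Submodule F V} {n : End F V} : n ∈ rads U ↔ n ∈ rad U := by simp [rads]

theorem card_rads (U : Submodule F V) : (rads U).card = Nat.card (rad U) := by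
  rw [← Nat.card_eq_finsetCard]
  exact Nat.card_congr (Equiv.subtypeEquivRight fun _ => mem_rads)

theorem card_rads_ne (U : Submodule F V) : ((rads U).card : ℂ) ≠ 0 :=
  Nat.cast_ne_zero.2 (Finset.card_pos.2 ⟨0, mem_rads.2 (rad U).zero_mem⟩).ne'

open Classical in
theorem sum_ivs_le {a : End F V} {U₀ : Submodule F V} (h0 : Iv a U₀) (f : Multiset (PP F) → ℂ) :
    ∑ U ∈ ivs a with U ≤ U₀, f (edOn a U) = ∑ U ∈ ivs (a.restrict h0), f (edOn (a.restrict h0) U) := by
  symm
  refine Finset.sum_nbij' (fun U => U.map U₀.subtype) (fun U => U.comap U₀.subtype) ?_ ?_ ?_ ?_ ?_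
  · intro U hU
    exact Finset.mem_filter.2 ⟨mem_ivs.2 (edOn_map_inj (a := a) U₀.subtype U₀.injective_subtype (fun _ => rfl)
      (mem_ivs.1 hU)).1, Submodule.map_subtype_le _ _⟩
  · intro U hU
    exact mem_ivs.2 fun x hx => mem_ivs.1 (Finset.mem_filter.1 hU).1 _ hx
  · intro U _
    exact Submodule.comap_map_eq_of_injective U₀.injective_subtype U
  · intro U hU
    simp only [Submodule.map_comap_subtype]
    exact inf_eq_right.2 (Finset.mem_filter.1 hU).2
  · intro U hU
    rw [(edOn_map_inj (a := a) U₀.subtype U₀.injective_subtype (fun _ => rfl) (mem_ivs.1 hU)).2]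

open Classical in
theorem sum_ivs_cpl {a : End F V} {U₀ : Submodule F V} (h0 : Iv a U₀) (f : Multiset (PP F) → ℂ) :
    ∑ n ∈ rads U₀, ∑ U ∈ ivs (a + n) with Disjoint U U₀, f (edOn (a + n) U) =
      (rads U₀).card * ∑ S ∈ ivs (U₀.mapQ U₀ a h0), f (edOn (U₀.mapQ U₀ a h0) S) := by
  have := finite_submodule (F := F) (V := V)
  have := Fintype.ofFinite (Submodule F V)
  have := Module.finite_of_finite F (M := V)
  rw [Finset.mul_sum]
  have h1 : ∀ n ∈ rads U₀, ∑ U ∈ ivs (a + n) with Disjoint U U₀, f (edOn (a + n) U) =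
      ∑ S ∈ ivs (U₀.mapQ U₀ a h0), ∑ U with Disjoint U U₀ ∧ U.map U₀.mkQ = S,
        if Iv (a + n) U then f (edOn (U₀.mapQ U₀ a h0) S) else 0 := fun n hn => by
    rw [← Finset.sum_fiberwise_of_maps_to (g := fun U => U.map U₀.mkQ) (t := ivs (U₀.mapQ U₀ a h0))]
    · refine Finset.sum_congr rfl fun S _ => ?_
      rw [← Finset.sum_filter]
      refine Finset.sum_congr (by ext; simp; tauto) fun U hU => ?_
      simp only [Finset.mem_filter] at hU
      rw [← hU.1.2.2, (edOn_cpl h0 (mem_rads.1 hn) hU.1.2.1 hU.2).2]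
    · intro U hU
      simp only [Finset.mem_filter, mem_ivs] at hU ⊢
      exact (edOn_cpl h0 (mem_rads.1 hn) hU.2 hU.1).1
  rw [Finset.sum_congr rfl h1, Finset.sum_comm]
  refine Finset.sum_congr rfl fun S hS => ?_
  rw [Finset.sum_comm]
  have hc : (Nat.card (S →ₗ[F] U₀) : ℂ) ≠ 0 := by
    have := Module.finite_of_finite F (M := S →ₗ[F] U₀)
    exact Nat.cast_ne_zero.2 Nat.card_pos.ne'
  have h2 : ∀ U ∈ Finset.univ.filter fun U : Submodule F V => Disjoint U U₀ ∧ U.map U₀.mkQ = S,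
      (∑ n ∈ rads U₀, if Iv (a + n) U then f (edOn (U₀.mapQ U₀ a h0) S) else 0) =
      (Nat.card (S →ₗ[F] U₀) : ℂ)⁻¹ * ((rads U₀).card * f (edOn (U₀.mapQ U₀ a h0) S)) := fun U hU => by
    obtain ⟨h3, rfl⟩ := (Finset.mem_filter.1 hU).2
    rw [← Finset.sum_filter, Finset.sum_const, nsmul_eq_mul, card_rads, ← card_iv_rad h0 h3 (mem_ivs.1 hS),
      eq_inv_mul_iff_mul_eq₀ hc, ← Nat.card_eq_finsetCard]
    have : Nat.card ((rads U₀).filter fun n => Iv (a + n) U) = Nat.card {n : rad U₀ // Iv (a + n.1) U} :=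
      Nat.card_congr ⟨fun n => ⟨⟨n.1, mem_rads.1 (Finset.mem_filter.1 n.2).1⟩, (Finset.mem_filter.1 n.2).2⟩,
        fun n => ⟨n.1.1, Finset.mem_filter.2 ⟨mem_rads.2 n.1.2, n.2⟩⟩, fun _ => rfl, fun _ => rfl⟩
    rw [this]
    push_cast
    ring
  rw [Finset.sum_congr rfl h2, Finset.sum_const, nsmul_eq_mul, ← mul_assoc, ← Nat.card_eq_finsetCard]
  have : Nat.card (Finset.univ.filter fun U : Submodule F V => Disjoint U U₀ ∧ U.map U₀.mkQ = S) =
      Nat.card (S →ₗ[F] U₀) := by
    rw [← card_compl]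
    exact Nat.card_congr (Equiv.subtypeEquivRight fun _ => by simp)
  rw [this, mul_inv_cancel₀ hc, one_mul]

open Classical in
theorem sum_mixed {a : End F V} {U U₀ : Submodule F V} (f : Multiset (PP F) → ℂ)
    (ih : ∀ c : End F U, Iv c (U₀.comap U.subtype) → ∑ m ∈ rads (U₀.comap U.subtype), f (ed (c + m)) = 0)
    (h0 : Iv a U₀) : ∑ n ∈ rads U₀ with Iv (a + n) U, f (edOn (a + n) U) = 0 := by
  refine mul_left_cancel₀ (card_rads_ne (U₀.comap U.subtype)) ?_
  have h1 : ∀ m ∈ rads (U₀.comap U.subtype), ∑ n ∈ rads U₀ with Iv (a + n) U, f (edOn (a + n) U) =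
      ∑ n ∈ rads U₀ with Iv (a + n) U, if h : Iv (a + n) U then f (ed ((a + n).restrict h + m)) else 0 := by
    intro m hm
    rw [mem_rads] at hm
    obtain ⟨k, hk, hk'⟩ := exists_rad_ext U U₀ (U.subtype ∘ₗ m) (fun w => hm.1 w) fun w hw => by
      simp [hm.2 w hw]
    have hkU : ∀ x ∈ U, k x ∈ U := fun x hx => (hk' ⟨x, hx⟩).symm ▸ (m _).2
    symm
    refine Finset.sum_nbij' (fun n => n + k) (fun n => n - k) ?_ ?_ ?_ ?_ ?_
    · intro n hn
      simp only [Finset.mem_filter, mem_rads] at hn ⊢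
      exact ⟨add_mem hn.1 hk, fun x hx => by rw [← add_assoc]; exact U.add_mem (hn.2 x hx) (hkU x hx)⟩
    · intro n hn
      simp only [Finset.mem_filter, mem_rads] at hn ⊢
      exact ⟨sub_mem hn.1 hk, fun x hx => by rw [← add_sub_assoc]; exact U.sub_mem (hn.2 x hx) (hkU x hx)⟩
    · intro n _; simp
    · intro n _; simp
    · intro n hn
      have h2 := (Finset.mem_filter.1 hn).2
      have h3 : Iv (a + (n + k)) U := fun x hx => by rw [← add_assoc]; exact U.add_mem (h2 x hx) (hkU x hx)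
      rw [dif_pos h2, edOn_eq h3]
      congr 2
      refine LinearMap.ext fun x => Subtype.ext ?_
      change a x + n x + m x = a x + (n x + k x)
      rw [hk', add_assoc]
      rfl
  rw [← nsmul_eq_mul, ← Finset.sum_const, Finset.sum_congr rfl h1, Finset.sum_comm, mul_zero]
  refine Finset.sum_eq_zero fun n hn => ?_
  have h2 := Finset.mem_filter.1 hn
  simp only [dif_pos h2.2]
  exact ih _ fun x hx => iv_add_rad h0 (mem_rads.1 h2.1) _ hx

end

universe u

theorem cusp [Finite F] {b : F[X] → ℂ} (hb : ∀ f g : F[X], f.Monic → g.Monic → b (f * g) = b f + b g) (k : ℕ) :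
    ∀ (V : Type u) [AddCommGroup V] [Module F V] [FiniteDimensional F V], finrank F V = k →
      ∀ (U₀ : Submodule F V), U₀ ≠ ⊥ → U₀ ≠ ⊤ → ∀ a : End F V, Iv a U₀ →
      ∑ n ∈ rads U₀, del b (ed (a + n)) = 0 := by
  classical
  have hb1 : b 1 = 0 := by simpa using hb 1 1 monic_one monic_one
  induction k using Nat.strong_induction_on with
  | _ k ih =>
  intro V _ _ _ hk U₀ h1 h2 a h0
  have := finite_submodule (F := F) (V := V)
  have := Fintype.ofFinite (Submodule F V)
  have key : ∀ n ∈ rads U₀, b a.charpoly = del b (ed (a + n)) + b (a.restrict h0).charpoly +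
      ∑ U ∈ ivs (a + n) with Disjoint U U₀, del b (edOn (a + n) U) +
      ∑ U with U ≠ ⊤ ∧ ¬ U ≤ U₀ ∧ ¬ Disjoint U U₀, if Iv (a + n) U then del b (edOn (a + n) U) else 0 := by
    intro n hn
    rw [mem_rads] at hn
    have e1 : b (a.restrict h0).charpoly = ∑ U ∈ ivs (a + n) with U ≤ U₀, del b (edOn (a + n) U) := by
      rw [sum_ivs_le (iv_add_rad h0 hn), sum_del, restrict_add_rad h0 hn]
    have e2 : del b (ed (a + n)) = ∑ U ∈ ivs (a + n) with U = ⊤, del b (edOn (a + n) U) := by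
      rw [Finset.filter_eq', if_pos (mem_ivs.2 (iv_top _)), Finset.sum_singleton, edOn_top]
    have e3 : (∑ U with U ≠ ⊤ ∧ ¬ U ≤ U₀ ∧ ¬ Disjoint U U₀, if Iv (a + n) U then del b (edOn (a + n) U) else 0) =
        ∑ U ∈ ivs (a + n) with U ≠ ⊤ ∧ ¬ U ≤ U₀ ∧ ¬ Disjoint U U₀, del b (edOn (a + n) U) := by
      rw [← Finset.sum_filter]
      exact Finset.sum_congr (by ext; simp; tauto) fun _ _ => rfl
    rw [e1, e2, e3, ← charpoly_add_rad h0 hn, ← sum_del b (a + n)]
    simp only [Finset.sum_filter, ← Finset.sum_add_distrib]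
    refine Finset.sum_congr rfl fun U _ => ?_
    by_cases c1 : U = ⊤
    · subst c1
      simp [h1, h2]
    by_cases c2 : U = ⊥
    · subst c2
      simp [edOn_bot, del_zero hb1]
    by_cases c3 : U ≤ U₀
    · have : ¬ Disjoint U U₀ := fun h => c2 (h.eq_bot_of_le c3)
      simp [c1, c3, this]
    by_cases c4 : Disjoint U U₀ <;> simp [c1, c3, c4]
  have h3 := Finset.sum_congr rfl key
  rw [Finset.sum_add_distrib, Finset.sum_add_distrib, Finset.sum_add_distrib, sum_ivs_cpl h0, sum_del,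
    Finset.sum_comm, Finset.sum_eq_zero (s := Finset.univ.filter _), Finset.sum_const, Finset.sum_const,
    charpoly_eq_mul U₀ a h0, hb _ _ (LinearMap.charpoly_monic _) (LinearMap.charpoly_monic _)] at h3
  · simp only [nsmul_eq_mul] at h3
    linear_combination -h3
  · intro U hU
    obtain ⟨c1, c2, c3⟩ := (Finset.mem_filter.1 hU).2
    rw [← Finset.sum_filter]
    refine sum_mixed (del b) (ih _ (hk ▸ Submodule.finrank_lt c1) U rfl _ (fun h => c3 ?_) fun h => c2 ?_) h0
    · exact Submodule.disjoint_iff_comap_eq_bot.2 h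
    · exact Submodule.comap_subtype_eq_top.1 h

section
variable {V : Type*} [AddCommGroup V] [Module F V] [FiniteDimensional F V] [Finite F]

open Classical in
theorem vanish {b : F[X] → ℂ} (hb : ∀ f g : F[X], f.Monic → g.Monic → b (f * g) = b f + b g)
    {U₀ : Submodule F V} (h1 : U₀ ≠ ⊥) (h2 : U₀ ≠ ⊤) (φ : End F V → ℂ)
    (hφ : ∀ a n, Iv a U₀ → n ∈ rad U₀ → φ (a + n) = φ a) :
    ∑ a with Iv a U₀, del b (ed a) * φ a = 0 := by
  refine mul_left_cancel₀ (card_rads_ne U₀) ?_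
  have h3 : ∀ n ∈ rads U₀, ∑ a with Iv a U₀, del b (ed a) * φ a =
      ∑ a with Iv a U₀, del b (ed (a + n)) * φ a := by
    intro n hn
    rw [mem_rads] at hn
    symm
    refine Finset.sum_nbij' (fun a => a + n) (fun a => a - n) ?_ ?_ ?_ ?_ ?_
    · intro a ha
      simp only [Finset.mem_filter, Finset.mem_univ, true_and] at ha ⊢
      exact iv_add_rad ha hn
    · intro a ha
      simp only [Finset.mem_filter, Finset.mem_univ, true_and, sub_eq_add_neg] at ha ⊢
      exact iv_add_rad ha (neg_mem hn)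
    · intro a _; simp
    · intro a _; simp
    · intro a ha
      rw [hφ a n (Finset.mem_filter.1 ha).2 hn]
  rw [← nsmul_eq_mul, ← Finset.sum_const, Finset.sum_congr rfl h3, Finset.sum_comm, mul_zero]
  refine Finset.sum_eq_zero fun a ha => ?_
  rw [← Finset.sum_mul, cusp hb _ V rfl U₀ h1 h2 a (Finset.mem_filter.1 ha).2, zero_mul]

end

end Cfsg.Agent.H7.CU
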