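import Cfsg.Agent.H7.CU3

/-! Cyclic vectors and the values of the primitive part on cyclic endomorphisms. -/

set_option autoImplicit false

open Polynomial Module

namespace Cfsg.Agent.H7.CU

open H28

variable {F : Type*} [Field F]

section
variable {V : Type*} [AddCommGroup V] [Module F V]

/-- evaluation at a vector -/
noncomputable def ev (a : End F V) (v : V) : F[X] →ₗ[F] V := LinearMap.applyₗ v ∘ₗ (aeval a).toLinearMap

theorem ev_apply (a : End F V) (v : V) (p : F[X]) : ev a v p = aeval a p v := rfl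

/-- the cyclic subspace -/
noncomputable def cs (a : End F V) (v : V) : Submodule F V := LinearMap.range (ev a v)

theorem iv_cs (a : End F V) (v : V) : Iv a (cs a v) := by
  rintro _ ⟨p, rfl⟩
  exact ⟨X * p, by simp [ev_apply]⟩

theorem mem_cs (a : End F V) (v : V) : v ∈ cs a v := ⟨1, by simp [ev_apply]⟩

theorem cs_congr {a a' : End F V} {U : Submodule F V} (h : Iv a U) (h' : ∀ x ∈ U, a x = a' x) {v : V} (hv : v ∈ U) :
    cs a v = cs a' v := by
  have : ev a v = ev a' v := LinearMap.ext fun p =>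
    (intertwine_aeval (a := a.restrict h) (b := a) U.subtype (fun _ => rfl) p ⟨v, hv⟩).symm.trans
      (intertwine_aeval (a := a.restrict h) (b := a') U.subtype (fun x => h' x x.2) p ⟨v, hv⟩)
  rw [cs, cs, this]

theorem exists_lift {a : End F V} {v : V} {d : F[X]} (h : aeval a d v = 0) :
    ∃ j : AdjoinRoot d →ₗ[F] V, (∀ p, j (AdjoinRoot.mk d p) = aeval a p v) ∧ (∀ x, j (cyc d x) = a (j x)) ∧
      LinearMap.range j = cs a v := by
  obtain ⟨j, hj⟩ := exists_factor (AdjoinRoot.mkₐ d).toLinearMap (ev a v) fun p hp => by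
    obtain ⟨r, rfl⟩ := AdjoinRoot.mk_eq_zero.1 hp
    rw [ev_apply, mul_comm, map_mul, End.mul_apply, h, map_zero]
  have hj' : ∀ p, j (AdjoinRoot.mk d p) = aeval a p v := hj
  refine ⟨j, hj', fun x => ?_, ?_⟩
  · obtain ⟨p, rfl⟩ := AdjoinRoot.mk_surjective x
    rw [cyc_apply, ← AdjoinRoot.mk_X, ← map_mul, hj', hj']
    simp
  · ext x
    constructor
    · rintro ⟨y, rfl⟩
      obtain ⟨p, rfl⟩ := AdjoinRoot.mk_surjective y
      exact ⟨p, (hj' p).symm⟩
    · rintro ⟨p, rfl⟩
      exact ⟨_, hj' p⟩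

end

open Classical in
/-- the elementary divisors of the cyclic endomorphism -/
noncomputable def edc (h : F[X]) : Multiset (PP F) :=
  if hh : h ≠ 0 then have := finite_adjoinRoot hh; ed (cyc h) else 0

theorem edc_eq {h : F[X]} (hh : h ≠ 0) [FiniteDimensional F (AdjoinRoot h)] : edc h = ed (cyc h) := dif_pos hh

theorem edc_inj {h h' : F[X]} (hm : h.Monic) (hm' : h'.Monic) (e : edc h = edc h') : h = h' := by
  have := finite_adjoinRoot hm.ne_zero
  have := finite_adjoinRoot hm'.ne_zero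
  rw [edc_eq hm.ne_zero, edc_eq hm'.ne_zero] at e
  rw [← charpoly_cyc hm, ← charpoly_cyc hm', charpoly_eq_prod_ed, e, ← charpoly_eq_prod_ed]

variable {V : Type*} [AddCommGroup V] [Module F V] [FiniteDimensional F V]

theorem edOn_cs {a : End F V} {v : V} {d : F[X]} (hd : d ≠ 0) (h : ∀ p, aeval a p v = 0 ↔ d ∣ p) :
    edOn a (cs a v) = edc d := by
  have := finite_adjoinRoot hd
  obtain ⟨j, h1, h2, h3⟩ := exists_lift ((h d).2 dvd_rfl)
  rw [← h3, edc_eq hd]
  refine (edOn_range j ((injective_iff_map_eq_zero j).2 fun x hx => ?_) h2).2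
  obtain ⟨p, rfl⟩ := AdjoinRoot.mk_surjective x
  exact AdjoinRoot.mk_eq_zero.2 ((h p).1 ((h1 p).symm.trans hx))

theorem exists_equiv_of_cs {a : End F V} {v : V} (h : cs a v = ⊤) :
    ∃ e : AdjoinRoot a.charpoly ≃ₗ[F] V, e 1 = v ∧ ∀ x, e (cyc a.charpoly x) = a (e x) := by
  have := finite_adjoinRoot a.charpoly_monic.ne_zero
  obtain ⟨j, h1, h2, h3⟩ := exists_lift (a := a) (v := v) (d := a.charpoly) (by rw [a.aeval_self_charpoly]; rfl)
  have h4 : Function.Surjective j := LinearMap.range_eq_top.1 (h3.trans h)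
  refine ⟨LinearEquiv.ofBijective j ⟨(LinearMap.injective_iff_surjective_of_finrank_eq_finrank ?_).2 h4, h4⟩, ?_, h2⟩
  · rw [finrank_adjoinRoot, a.charpoly_natDegree]
  · change j 1 = v
    simpa using h1 1

theorem ed_of_cs {a : End F V} {v : V} (h : cs a v = ⊤) : ed a = edc a.charpoly := by
  have := finite_adjoinRoot a.charpoly_monic.ne_zero
  obtain ⟨e, -, he⟩ := exists_equiv_of_cs h
  rw [edc_eq a.charpoly_monic.ne_zero]
  exact (Sim.ed_eq ⟨e, he⟩).symm

theorem card_cyclic_pairs {h : F[X]} (hm : h.Monic) (hd : h.natDegree = finrank F V) :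
    Nat.card {p : End F V × V // cs p.1 p.2 = ⊤ ∧ p.1.charpoly = h} = Nat.card (V ≃ₗ[F] V) := by
  have := finite_adjoinRoot hm.ne_zero
  obtain ⟨e₀⟩ := FiniteDimensional.nonempty_linearEquiv_of_finrank_eq ((finrank_adjoinRoot h).trans hd)
  have h1 : Nat.card (V ≃ₗ[F] V) = Nat.card (AdjoinRoot h ≃ₗ[F] V) :=
    Nat.card_congr ⟨fun e => e₀.trans e, fun e => e₀.symm.trans e, fun e => by ext; simp, fun e => by ext; simp⟩
  have h2 : ∀ (e : AdjoinRoot h ≃ₗ[F] V) (p : F[X]), e (AdjoinRoot.mk h p) = aeval (e.conj (cyc h)) p (e 1) :=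
    fun e p => by
      have := intertwine_aeval (a := cyc h) (b := e.conj (cyc h)) e.toLinearMap
        (fun v => by simp [LinearEquiv.conj_apply]) p 1
      rw [aeval_cyc_apply, mul_one] at this
      exact this
  rw [h1]
  symm
  refine Nat.card_congr (Equiv.ofBijective (fun e => ⟨(e.conj (cyc h), e 1), ?_, ?_⟩) ⟨fun e e' he => ?_, ?_⟩)
  · refine eq_top_iff.2 fun x _ => ?_
    obtain ⟨x, rfl⟩ := e.surjective x
    obtain ⟨p, rfl⟩ := AdjoinRoot.mk_surjective x
    exact ⟨p, (h2 e p).symm⟩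
  · rw [LinearEquiv.charpoly_conj, charpoly_cyc hm]
  · ext x
    obtain ⟨p, rfl⟩ := AdjoinRoot.mk_surjective x
    have h3 := Prod.ext_iff.1 (congrArg Subtype.val he)
    rw [h2, h2]
    exact congrArg₂ (fun (a : End F V) (v : V) => aeval a p v) h3.1 h3.2
  · rintro ⟨⟨a, v⟩, h3, h4⟩
    dsimp only at h3 h4
    subst h4
    obtain ⟨e, h5, h6⟩ := exists_equiv_of_cs h3
    refine ⟨e, Subtype.ext (Prod.ext ?_ h5)⟩
    ext x
    simp [LinearEquiv.conj_apply, h6]

variable [Finite F]

theorem finite_mon (d : ℕ) : {p : F[X] | p.Monic ∧ p.natDegree = d}.Finite := by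
  have : Finite {p : F[X] // p.Monic ∧ p.natDegree = d} :=
    Finite.of_equiv _ ((monicEquivDegreeLT d).trans (degreeLTEquiv F d).toEquiv).symm
  exact Set.finite_coe_iff.1 this

variable (F) in
/-- monic polynomials of given degree -/
noncomputable def mon (d : ℕ) : Finset F[X] := (finite_mon d).toFinset

@[simp] theorem mem_mon {d : ℕ} {p : F[X]} : p ∈ mon F d ↔ p.Monic ∧ p.natDegree = d := by simp [mon]

open Classical in
/-- monic divisors -/
noncomputable def dv (h : F[X]) : Finset F[X] :=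
  ((Finset.range (h.natDegree + 1)).biUnion (mon F)).filter (· ∣ h)

theorem mem_dv {h d : F[X]} (hh : h ≠ 0) : d ∈ dv h ↔ d.Monic ∧ d ∣ h := by
  simp only [dv, Finset.mem_filter, Finset.mem_biUnion, Finset.mem_range, mem_mon]
  exact ⟨fun ⟨⟨_, _, h1, _⟩, h2⟩ => ⟨h1, h2⟩,
    fun ⟨h1, h2⟩ => ⟨⟨_, Nat.lt_succ_of_le (natDegree_le_of_dvd h2 hh), h1, rfl⟩, h2⟩⟩

theorem sum_dv (b : F[X] → ℂ) {h : F[X]} (hm : h.Monic) : ∑ d ∈ dv h, del b (edc d) = b h := by
  classical
  have := finite_adjoinRoot hm.ne_zero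
  have key : ∀ d ∈ dv h, edOn (cyc h) (cs (cyc h) (AdjoinRoot.mk h (h /ₘ d))) = edc d := fun d hd => by
    obtain ⟨h1, c, rfl⟩ := (mem_dv hm.ne_zero).1 hd
    refine edOn_cs h1.ne_zero fun p => ?_
    rw [mul_divByMonic_cancel_left _ h1, aeval_cyc_apply, ← map_mul, AdjoinRoot.mk_eq_zero,
      mul_dvd_mul_iff_right (right_ne_zero_of_mul hm.ne_zero)]
  conv_rhs => rw [← charpoly_cyc hm, ← sum_del b (cyc h)]
  refine Finset.sum_bij (fun d _ => cs (cyc h) (AdjoinRoot.mk h (h /ₘ d))) (fun d _ => mem_ivs.2 (iv_cs _ _))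
    (fun d hd d' hd' e => ?_) (fun U hU => ?_) fun d hd => by rw [key d hd]
  · refine edc_inj ((mem_dv hm.ne_zero).1 hd).1 ((mem_dv hm.ne_zero).1 hd').1 ?_
    rw [← key d hd, ← key d' hd', e]
  · rw [mem_ivs] at hU
    let I : Ideal F[X] :=
      { carrier := {p | AdjoinRoot.mk h p ∈ U}
        add_mem' := fun {p r} hp hr => by
          simp only [Set.mem_ofPred_eq, map_add] at hp hr ⊢
          exact U.add_mem hp hr
        zero_mem' := by simp
        smul_mem' := fun r p hp => by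
          have := hU.aeval r _ hp
          rw [aeval_cyc_apply, ← map_mul] at this
          exact this }
    have hI : ∀ p, AdjoinRoot.mk h p ∈ U ↔ Submodule.IsPrincipal.generator I ∣ p := fun p =>
      Submodule.IsPrincipal.mem_iff_generator_dvd I (x := p)
    set g := Submodule.IsPrincipal.generator I
    have h1 : g ∣ h := (hI h).1 (by simp)
    have h2 : g ≠ 0 := ne_zero_of_dvd_ne_zero hm.ne_zero h1
    have h3 : ∀ p, normalize g ∣ p ↔ g ∣ p := fun p => normalize_dvd_iff
    obtain ⟨d, hd⟩ := (h3 h).2 h1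
    have h4 : d.Monic := (monic_normalize h2).of_mul_monic_left (hd ▸ hm)
    refine ⟨d, (mem_dv hm.ne_zero).2 ⟨h4, hd ▸ dvd_mul_left _ _⟩, ?_⟩
    have h5 : h /ₘ d = normalize g := by
      conv_lhs => rw [hd, mul_comm]
      exact mul_divByMonic_cancel_left _ h4
    rw [h5]
    ext x
    obtain ⟨p, rfl⟩ := AdjoinRoot.mk_surjective x
    rw [hI, ← h3]
    constructor
    · rintro ⟨r, hr⟩
      rw [ev_apply, aeval_cyc_apply, ← map_mul, AdjoinRoot.mk_eq_mk] at hr
      have := dvd_sub (dvd_mul_left (normalize g) r) (((h3 h).2 h1).trans hr)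
      simpa using this
    · rintro ⟨r, rfl⟩
      exact ⟨r, by rw [ev_apply, aeval_cyc_apply, ← map_mul, mul_comm]⟩

open Classical in
theorem sum_eq_cyclic {b : F[X] → ℂ} (hb : ∀ f g : F[X], f.Monic → g.Monic → b (f * g) = b f + b g)
    (ψ : F[X] → ℂ) {v : V} (hv : v ≠ 0) : ∑ a : End F V, del b (ed a) * ψ a.charpoly =
      ∑ a : End F V with cs a v = ⊤, del b (ed a) * ψ a.charpoly := by
  have := finite_submodule (F := F) (V := V)
  have := Fintype.ofFinite (Submodule F V)
  rw [← Finset.sum_fiberwise (g := fun a => cs a v), Finset.sum_eq_single ⊤ (fun U _ hU => ?_) (by simp)]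
  by_cases h1 : U = ⊥
  · refine Finset.sum_eq_zero fun a ha => absurd ?_ hv
    have := mem_cs a v
    rwa [(Finset.mem_filter.1 ha).2, h1, Submodule.mem_bot] at this
  rw [← vanish hb h1 hU (fun a => if cs a v = U then ψ a.charpoly else 0) fun a n ha hn => ?_]
  · simp only [mul_ite, mul_zero, ← Finset.sum_filter, Finset.filter_filter]
    refine Finset.sum_congr ?_ fun _ _ => rfl
    ext a
    simp only [Finset.mem_filter, Finset.mem_univ, true_and]
    exact ⟨fun h => ⟨h ▸ iv_cs a v, h⟩, fun h => h.2⟩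
  · rw [charpoly_add_rad ha hn]
    by_cases h2 : v ∈ U
    · rw [← cs_congr (a' := a + n) ha (fun x hx => by simp [hn.2 x hx]) h2]
    · rw [if_neg fun h : cs (a + n) v = U => h2 (h ▸ mem_cs _ v), if_neg fun h : cs a v = U => h2 (h ▸ mem_cs _ v)]

theorem gv_trick [Nontrivial V] {b : F[X] → ℂ} (hb : ∀ f g : F[X], f.Monic → g.Monic → b (f * g) = b f + b g)
    (ψ : F[X] → ℂ) : ((Nat.card V : ℂ) - 1) * ∑ a : End F V, del b (ed a) * ψ a.charpoly =
      Nat.card (V ≃ₗ[F] V) * ∑ h ∈ mon F (finrank F V), del b (edc h) * ψ h := by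
  classical
  have := Module.finite_of_finite F (M := V)
  have := Fintype.ofFinite V
  have h1 : ((Nat.card V : ℂ) - 1) * ∑ a : End F V, del b (ed a) * ψ a.charpoly =
      ∑ v : V, ∑ a : End F V with cs a v = ⊤, del b (ed a) * ψ a.charpoly := by
    symm
    rw [← Finset.sum_erase (a := (0 : V)) Finset.univ, ← Finset.sum_congr rfl fun v hv => sum_eq_cyclic hb ψ (Finset.mem_erase.1 hv).1,
      Finset.sum_const, Finset.card_erase_of_mem (Finset.mem_univ _), nsmul_eq_mul, Finset.card_univ,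
      Nat.cast_sub Fintype.card_pos, Nat.card_eq_fintype_card, Nat.cast_one]
    refine Finset.sum_eq_zero fun a ha => ?_
    have h2 : cs a 0 = ⊥ := by
      rw [cs, LinearMap.range_eq_bot]
      exact LinearMap.ext fun p => by simp [ev_apply]
    exact absurd (h2.symm.trans (Finset.mem_filter.1 ha).2) bot_ne_top
  have h2 : ∑ v : V, ∑ a : End F V with cs a v = ⊤, del b (ed a) * ψ a.charpoly =
      ∑ p : End F V × V with cs p.1 p.2 = ⊤, del b (ed p.1) * ψ p.1.charpoly := by
    simp only [Finset.sum_filter]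
    rw [Fintype.sum_prod_type_right]
  rw [h1, h2, Finset.mul_sum, ← Finset.sum_fiberwise_of_maps_to (g := fun p => p.1.charpoly) (t := mon F (finrank F V))
    fun p _ => mem_mon.2 ⟨p.1.charpoly_monic, p.1.charpoly_natDegree⟩]
  refine Finset.sum_congr rfl fun h hh => ?_
  rw [mem_mon] at hh
  rw [Finset.sum_congr rfl (g := fun _ => del b (edc h) * ψ h), Finset.sum_const, nsmul_eq_mul,
    ← card_cyclic_pairs hh.1 hh.2, ← Nat.card_eq_finsetCard]
  · congr 2
    exact Nat.card_congr (Equiv.subtypeEquivRight fun _ => by simp)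
  · intro p hp
    simp only [Finset.mem_filter] at hp
    rw [ed_of_cs hp.1.2, hp.2]

end Cfsg.Agent.H7.CU
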