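import Cfsg.Agent.H7.CU4

/-! The values on cyclic endomorphisms for the Brauer lift; the norm and the degree. -/

set_option autoImplicit false

open Polynomial Module
open scoped ComplexConjugate

namespace Cfsg.Agent.H7.CU

open H28

variable {F : Type*} [Field F]

local notation "K" => AlgebraicClosure F
local notation "ι" => algebraMap F (AlgebraicClosure F)

/-- sum over the roots -/
noncomputable def bb (θ : K → ℂ) (f : F[X]) : ℂ := ((f.map ι).roots.map θ).sum

theorem bb_mul (θ : K → ℂ) (f g : F[X]) (hf : f.Monic) (hg : g.Monic) : bb θ (f * g) = bb θ f + bb θ g := by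
  rw [bb, Polynomial.map_mul, roots_mul (mul_ne_zero (hf.map _).ne_zero (hg.map _).ne_zero), Multiset.map_add,
    Multiset.sum_add]
  rfl

theorem bb_pow (θ : K → ℂ) (f : F[X]) (k : ℕ) : bb θ (f ^ k) = k * bb θ f := by
  rw [bb, Polynomial.map_pow, roots_pow, Multiset.map_nsmul, Multiset.sum_nsmul, nsmul_eq_mul]
  rfl

theorem mem_roots_iff {f : F[X]} (hf : f ≠ 0) (α : K) : α ∈ (f.map ι).roots ↔ minpoly F α ∣ f := by
  rw [mem_roots (Polynomial.map_ne_zero hf), IsRoot, eval_map_algebraMap]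
  exact ⟨minpoly.dvd F α, fun h => aeval_eq_zero_of_dvd_aeval_eq_zero h (minpoly.aeval F α)⟩

theorem mp_int (α : K) : IsIntegral F α := Algebra.IsIntegral.isIntegral α

open Classical in
/-- the von Mangoldt type function -/
noncomputable def lam (θ : K → ℂ) (d : F[X]) : ℂ :=
  ∑ α ∈ (d.map ι).roots.toFinset with ∃ j, d = minpoly F α ^ j, θ α

variable [Finite F]

open Classical in
theorem card_dv_pow {h : F[X]} (hm : h.Monic) (α : K) :
    ((dv h).filter fun d => α ∈ (d.map ι).roots ∧ ∃ j, d = minpoly F α ^ j).card = (h.map ι).roots.count α := by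
  have hi := minpoly.irreducible (mp_int α)
  have hmo := minpoly.monic (mp_int α)
  obtain ⟨m, r, h1, h2⟩ := WfDvdMonoid.max_power_factor hm.ne_zero hi
  have hr : r ≠ 0 := right_ne_zero_of_mul (h2 ▸ hm.ne_zero)
  have h3 : ((minpoly F α).map ι).roots.count α = 1 :=
    le_antisymm (count_roots_le_one (PerfectField.separable_of_irreducible hi).map α)
      (Multiset.one_le_count_iff_mem.2 ((mem_roots_iff hmo.ne_zero α).2 dvd_rfl))
  have h4 : (h.map ι).roots.count α = m := by
    rw [h2, Polynomial.map_mul, roots_mul (mul_ne_zero (Polynomial.map_ne_zero (pow_ne_zero _ hmo.ne_zero))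
      (Polynomial.map_ne_zero hr)), Multiset.count_add, Polynomial.map_pow, roots_pow, Multiset.count_nsmul, h3,
      Multiset.count_eq_zero_of_notMem (mt (mem_roots_iff hr α).1 h1)]
    simp
  have h5 : Function.Injective fun j : ℕ => minpoly F α ^ j := fun i j hij => by
    have := congrArg natDegree hij
    simp only [natDegree_pow] at this
    exact Nat.eq_of_mul_eq_mul_right hi.natDegree_pos this
  rw [h4]
  have : ((dv h).filter fun d => α ∈ (d.map ι).roots ∧ ∃ j, d = minpoly F α ^ j) =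
      (Finset.Ioc 0 m).image fun j => minpoly F α ^ j := by
    ext d
    simp only [Finset.mem_filter, mem_dv hm.ne_zero, Finset.mem_image, Finset.mem_Ioc]
    constructor
    · rintro ⟨⟨-, h6⟩, h7, j, rfl⟩
      refine ⟨j, ⟨Nat.pos_of_ne_zero ?_, ?_⟩, rfl⟩
      · rintro rfl
        simp at h7
      · by_contra h8
        have := (pow_dvd_pow (minpoly F α) (Nat.succ_le_of_lt (not_le.1 h8))).trans h6
        rw [h2, pow_succ, mul_dvd_mul_iff_left (pow_ne_zero _ hmo.ne_zero)] at this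
        exact h1 this
    · rintro ⟨j, ⟨h6, h7⟩, rfl⟩
      exact ⟨⟨hmo.pow _, h2 ▸ (pow_dvd_pow _ h7).mul_right _⟩,
        (mem_roots_iff (pow_ne_zero _ hmo.ne_zero) α).2 (dvd_pow_self _ h6.ne'), j, rfl⟩
  rw [this, Finset.card_image_of_injective _ h5]
  simp

theorem sum_lam (θ : K → ℂ) {h : F[X]} (hm : h.Monic) : ∑ d ∈ dv h, lam θ d = bb θ h := by
  classical
  have h1 : ∀ d ∈ dv h, lam θ d = ∑ α ∈ (h.map ι).roots.toFinset,
      if α ∈ (d.map ι).roots ∧ ∃ j, d = minpoly F α ^ j then θ α else 0 := fun d hd => by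
    obtain ⟨h2, h3⟩ := (mem_dv hm.ne_zero).1 hd
    rw [lam, ← Finset.sum_filter]
    refine Finset.sum_congr ?_ fun _ _ => rfl
    ext α
    simp only [Finset.mem_filter, Multiset.mem_toFinset, mem_roots_iff h2.ne_zero, mem_roots_iff hm.ne_zero]
    exact ⟨fun h => ⟨h.1.trans h3, h⟩, fun h => h.2⟩
  rw [Finset.sum_congr rfl h1, Finset.sum_comm, bb, Finset.sum_multiset_map_count]
  refine Finset.sum_congr rfl fun α _ => ?_
  rw [← Finset.sum_filter, Finset.sum_const, card_dv_pow hm]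

theorem del_edc (θ : K → ℂ) (n : ℕ) : ∀ h : F[X], h.Monic → h.natDegree = n → del (bb θ) (edc h) = lam θ h := by
  classical
  induction n using Nat.strong_induction_on with
  | _ n ih =>
  intro h hm hn
  have h1 := (sum_dv (bb θ) hm).trans (sum_lam θ hm).symm
  have h2 : h ∈ dv h := (mem_dv hm.ne_zero).2 ⟨hm, dvd_rfl⟩
  rw [← Finset.add_sum_erase _ _ h2, ← Finset.add_sum_erase _ _ h2, Finset.sum_congr rfl (g := lam θ)] at h1
  · exact add_right_cancel h1
  · intro d hd
    obtain ⟨h3, h4⟩ := Finset.mem_erase.1 hd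
    obtain ⟨h4, h5⟩ := (mem_dv hm.ne_zero).1 h4
    refine ih _ (lt_of_le_of_ne (hn ▸ natDegree_le_of_dvd h5 hm.ne_zero) fun h6 => h3 ?_) d h4 rfl
    exact (eq_of_monic_of_dvd_of_natDegree_le h4 hm h5 (h6.trans hn.symm).ge).symm

theorem deg_dvd_iff (α : K) (n : ℕ) : (minpoly F α).natDegree ∣ n ↔ α ^ Nat.card F ^ n = α := by
  rw [(minpoly.irreducible (mp_int α)).natDegree_dvd_iff_dvd_X_pow_card_pow_sub_X, minpoly.dvd_iff]
  simp [sub_eq_zero]

theorem roots_minpoly (α : K) : ((minpoly F α).map ι).roots =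
    (Finset.range (minpoly F α).natDegree).val.map fun j => α ^ Nat.card F ^ j := by
  have := Fintype.ofFinite F
  let φ := FiniteField.frobeniusAlgEquivOfAlgebraic F K
  have hφ : ∀ j x, (φ ^ j) x = x ^ Nat.card F ^ j := fun j x => by
    rw [AlgEquiv.coe_pow, FiniteField.coe_frobeniusAlgEquivOfAlgebraic_iterate, Nat.card_eq_fintype_card]
  have hmo := minpoly.monic (mp_int α)
  symm
  refine Multiset.eq_of_le_of_card_le ((Multiset.le_iff_subset ?_).2 fun β hβ => ?_) ?_
  · refine Multiset.Nodup.map_on (fun i hi j hj hij => ?_) (Finset.range _).nodup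
    wlog h : i ≤ j generalizing i j
    · exact (this j hj i hi hij.symm (le_of_not_ge h)).symm
    obtain ⟨k, rfl⟩ := Nat.exists_eq_add_of_le h
    rw [← hφ, ← hφ, pow_add, AlgEquiv.mul_apply, (φ ^ i).injective.eq_iff, hφ, eq_comm, ← deg_dvd_iff] at hij
    have : i + k < (minpoly F α).natDegree := by simpa using hj
    rw [Nat.eq_zero_of_dvd_of_lt hij (by omega), add_zero]
  · obtain ⟨j, -, rfl⟩ := Multiset.mem_map.1 hβ
    rw [mem_roots (hmo.map _).ne_zero, IsRoot, eval_map_algebraMap, ← hφ, aeval_algHom_apply, minpoly.aeval,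
      map_zero]
  · rw [Multiset.card_map, Finset.card_val, Finset.card_range]
    exact (card_roots' _).trans (natDegree_map _).le

theorem bb_minpoly_pow (θ : K → ℂ) {α : K} {n : ℕ} (h : α ^ Nat.card F ^ n = α) :
    bb θ (minpoly F α ^ (n / (minpoly F α).natDegree)) = ∑ j ∈ Finset.range n, θ (α ^ Nat.card F ^ j) := by
  obtain ⟨m, rfl⟩ := (deg_dvd_iff α n).2 h
  rw [Nat.mul_div_cancel_left _ (minpoly.irreducible (mp_int α)).natDegree_pos, bb_pow, bb, roots_minpoly,
    Multiset.map_map]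
  clear h
  induction m with
  | zero => simp
  | succ m ih =>
    rw [Nat.mul_succ, Finset.sum_range_add, ← ih, Nat.cast_succ, add_mul, one_mul]
    congr 1
    refine Finset.sum_congr rfl fun j _ => ?_
    rw [pow_add, pow_mul, (deg_dvd_iff α _).1 (dvd_mul_right _ _)]
    rfl

theorem one_lt_q : 1 < Nat.card F := Finite.one_lt_card

open Classical in
theorem sum_mon_lam (θ : K → ℂ) (ψ : F[X] → ℂ) {n : ℕ} (hn : 0 < n) :
    ∑ h ∈ mon F n, lam θ h * (if h.coeff 0 = 0 then 0 else ψ h) =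
      ∑ α ∈ nthRootsFinset (Nat.card F ^ n - 1) (1 : K), θ α * ψ (minpoly F α ^ (n / (minpoly F α).natDegree)) := by
  have hq : 1 < Nat.card F ^ n := Nat.one_lt_pow hn.ne' one_lt_q
  have hN : ∀ α : K, α ∈ nthRootsFinset (Nat.card F ^ n - 1) (1 : K) ↔ α ≠ 0 ∧ (minpoly F α).natDegree ∣ n := by
    intro α
    rw [mem_nthRootsFinset (by omega), deg_dvd_iff]
    obtain ⟨N, hN⟩ : ∃ N, Nat.card F ^ n = N + 1 + 1 := ⟨Nat.card F ^ n - 2, by omega⟩
    rw [hN, Nat.add_sub_cancel, pow_succ α (N + 1)]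
    constructor
    · intro h
      exact ⟨by rintro rfl; simp at h, by rw [h, one_mul]⟩
    · intro h
      exact mul_right_cancel₀ h.1 (by rw [h.2, one_mul])
  have hP : ∀ α : K, (minpoly F α).natDegree ∣ n →
      (minpoly F α ^ (n / (minpoly F α).natDegree)).natDegree = n := fun α h => by
    rw [natDegree_pow, Nat.div_mul_cancel h]
  symm
  rw [← Finset.sum_fiberwise_of_maps_to (g := fun α => minpoly F α ^ (n / (minpoly F α).natDegree)) (t := mon F n)
    fun α hα => mem_mon.2 ⟨(minpoly.monic (mp_int α)).pow _, hP α ((hN α).1 hα).2⟩]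
  refine Finset.sum_congr rfl fun h hh => ?_
  obtain ⟨h1, h2⟩ := mem_mon.1 hh
  have h3 : ∀ α : K, α ∈ (h.map ι).roots → α = 0 → h.coeff 0 = 0 := fun α hα h0 => by
    rw [mem_roots_iff h1.ne_zero, h0, minpoly.zero, X_dvd_iff] at hα
    exact hα
  split_ifs with h0
  · rw [mul_zero]
    refine Finset.sum_eq_zero fun α hα => ?_
    obtain ⟨h4, h5⟩ := Finset.mem_filter.1 hα
    rw [← h5, coeff_zero_eq_eval_zero, eval_pow, ← coeff_zero_eq_eval_zero] at h0
    exact absurd (pow_eq_zero_iff'.1 h0).1 (minpoly.coeff_zero_ne_zero (mp_int α) ((hN α).1 h4).1)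
  rw [lam, Finset.sum_mul]
  refine Finset.sum_congr ?_ fun α hα => ?_
  · ext α
    simp only [Finset.mem_filter, hN, Multiset.mem_toFinset]
    constructor
    · rintro ⟨⟨-, h5⟩, h6⟩
      refine ⟨(mem_roots_iff h1.ne_zero α).2 (h6 ▸ dvd_pow_self _ fun h7 => ?_), _, h6.symm⟩
      rw [← h6, h7] at h2
      simp at h2
      omega
    · rintro ⟨h4, j, rfl⟩
      rw [natDegree_pow] at h2
      refine ⟨⟨fun h5 => h0 (h3 α h4 h5), h2 ▸ dvd_mul_left _ _⟩, ?_⟩
      rw [← h2, Nat.mul_div_cancel _ (minpoly.irreducible (mp_int α)).natDegree_pos]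
  · obtain ⟨-, j, rfl⟩ := Finset.mem_filter.1 hα
    rw [natDegree_pow] at h2
    rw [← h2, Nat.mul_div_cancel _ (minpoly.irreducible (mp_int α)).natDegree_pos]

omit [Finite F] in
open Classical in
theorem sum_roots_hom (φ : K →* ℂ) {N : ℕ} {ζ : K} (hζ : IsPrimitiveRoot ζ N) (hN : 0 < N) :
    ∑ α ∈ nthRootsFinset N (1 : K), φ α = if φ ζ = 1 then (N : ℂ) else 0 := by
  have : NeZero N := ⟨hN.ne'⟩
  split_ifs with h
  · rw [Finset.sum_congr rfl (g := fun _ => 1), Finset.sum_const, hζ.card_nthRootsFinset]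
    · simp
    · intro α hα
      obtain ⟨i, -, rfl⟩ := hζ.eq_pow_of_pow_eq_one ((mem_nthRootsFinset hN _).1 hα)
      rw [map_pow, h, one_pow]
  · have h0 : ζ ≠ 0 := hζ.ne_zero hN.ne'
    have h1 : ∑ α ∈ nthRootsFinset N (1 : K), φ ζ * φ α = ∑ α ∈ nthRootsFinset N (1 : K), φ α := by
      refine Finset.sum_nbij' (fun α => ζ * α) (fun α => ζ⁻¹ * α) ?_ ?_ ?_ ?_ ?_
      · intro α hα
        rw [mem_nthRootsFinset hN] at hα ⊢
        rw [mul_pow, hα, hζ.pow_eq_one, mul_one]
      · intro α hα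
        rw [mem_nthRootsFinset hN] at hα ⊢
        rw [mul_pow, hα, inv_pow, hζ.pow_eq_one, inv_one, mul_one]
      · intro α _; simp [h0]
      · intro α _; simp [h0]
      · intro α _; rw [map_mul]
    rw [← Finset.mul_sum] at h1
    have h2 : (φ ζ - 1) * ∑ α ∈ nthRootsFinset N (1 : K), φ α = 0 := by rw [sub_mul, h1, one_mul, sub_self]
    exact (mul_eq_zero.1 h2).resolve_left (sub_ne_zero.2 h)

variable {V : Type*} [AddCommGroup V] [Module F V] [FiniteDimensional F V]

open Classical in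
theorem sum_del_conj_del (θ θ' : K → ℂ) (ψ : F[X] → ℂ) :
    ∑ a : End F V, del (bb θ) (ed a) * (ψ a.charpoly * conj (del (bb θ') (ed a))) =
      ∑ a : End F V, del (bb θ) (ed a) * (ψ a.charpoly * conj (bb θ' a.charpoly)) := by
  have := finite_submodule (F := F) (V := V)
  have := Fintype.ofFinite (Submodule F V)
  have h1 : ∀ a : End F V, del (bb θ) (ed a) * (ψ a.charpoly * conj (bb θ' a.charpoly)) =
      ∑ U : Submodule F V, if Iv a U then del (bb θ) (ed a) * (ψ a.charpoly * conj (del (bb θ') (edOn a U)))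
        else 0 := fun a => by
    rw [← sum_del (bb θ') a, map_sum, Finset.mul_sum, Finset.mul_sum, ← Finset.sum_filter]
    exact Finset.sum_congr (by ext; simp) fun _ _ => rfl
  symm
  rw [Finset.sum_congr rfl fun a _ => h1 a, Finset.sum_comm, Finset.sum_eq_single ⊤ (fun U _ hU => ?_) (by simp)]
  · simp [iv_top, edOn_top]
  by_cases h2 : U = ⊥
  · subst h2
    simp [edOn_bot, del_zero (b := bb θ') (by simp [bb])]
  rw [← Finset.sum_filter]
  refine vanish (bb_mul θ) h2 hU _ fun a n ha hn => ?_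
  rw [charpoly_add_rad ha hn, edOn_congr (a := a + n) (a' := a) fun x hx => by simp [hn.2 x hx]]

open Classical in
theorem norm_formula [Nontrivial V] (θ θ' : K →* ℂ) {ζ : K}
    (hζ : IsPrimitiveRoot ζ (Nat.card F ^ finrank F V - 1)) :
    ∑ a : End F V, (if a.charpoly.coeff 0 = 0 then 0 else del (bb θ) (ed a) * conj (del (bb θ') (ed a))) =
      Nat.card (V ≃ₗ[F] V) *
        ∑ j ∈ Finset.range (finrank F V), if θ ζ * conj (θ' (ζ ^ Nat.card F ^ j)) = 1 then 1 else 0 := by
  have hn : 0 < finrank F V := finrank_pos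
  have hq : 1 < Nat.card F ^ finrank F V := Nat.one_lt_pow hn.ne' one_lt_q
  have hN : ((Nat.card F ^ finrank F V - 1 : ℕ) : ℂ) ≠ 0 := Nat.cast_ne_zero.2 (by omega)
  have h1 := sum_del_conj_del (V := V) θ θ' fun h => if h.coeff 0 = 0 then 0 else 1
  have h2 := gv_trick (V := V) (bb_mul θ) fun h => if h.coeff 0 = 0 then 0 else conj (bb θ' h)
  simp only [ite_mul, zero_mul, one_mul] at h1
  have h3 : ∑ h ∈ mon F (finrank F V), del (bb θ) (edc h) * (if h.coeff 0 = 0 then 0 else conj (bb θ' h)) =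
      ∑ h ∈ mon F (finrank F V), lam θ h * (if h.coeff 0 = 0 then 0 else conj (bb θ' h)) :=
    Finset.sum_congr rfl fun h hh => by rw [del_edc θ _ h (mem_mon.1 hh).1 rfl]
  rw [← h1, h3, sum_mon_lam θ (fun h => conj (bb θ' h)) hn, Module.natCard_eq_pow_finrank («K» := F),
    ← Nat.cast_one, ← Nat.cast_sub hq.le] at h2
  simp only [mul_ite, mul_zero] at h2
  refine mul_left_cancel₀ hN (h2.trans ?_)
  rw [mul_left_comm]
  congr 1
  rw [Finset.sum_congr rfl (g := fun α => ∑ j ∈ Finset.range (finrank F V), θ α * conj (θ' (α ^ Nat.card F ^ j))),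
    Finset.sum_comm, Finset.mul_sum]
  · refine Finset.sum_congr rfl fun j _ => ?_
    have := sum_roots_hom (θ * ((starRingEnd ℂ).toMonoidHom.comp (θ'.comp (powMonoidHom (Nat.card F ^ j))))) hζ
      (by omega)
    simp only [mul_ite, mul_one, mul_zero]
    exact this
  · intro α hα
    rw [bb_minpoly_pow, map_sum, Finset.mul_sum]
    rw [mem_nthRootsFinset (by omega)] at hα
    conv_lhs => rw [← Nat.sub_add_cancel hq.le, pow_succ, hα, one_mul]

end Cfsg.Agent.H7.CU
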