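import Cfsg.Agent.H7.CU5

/-! The degree of the cuspidal function, and the construction of faithful lifts. -/

set_option autoImplicit false

open Polynomial Module
open scoped ComplexConjugate

namespace Cfsg.Agent.H7.CU

open H28

universe u

section deg
variable {F : Type u} [Field F] [Finite F]

omit [Finite F] in
theorem finrank_map_mkQ {V : Type*} [AddCommGroup V] [Module F V] [FiniteDimensional F V] {L U : Submodule F V}
    (h : L ≤ U) : finrank F U = finrank F (U.map L.mkQ) + finrank F L := by
  have := LinearMap.finrank_range_add_finrank_ker (L.mkQ ∘ₗ U.subtype)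
  rw [LinearMap.range_comp, Submodule.range_subtype, LinearMap.ker_comp, Submodule.ker_mkQ,
    (Submodule.comapSubtypeEquivOfLe h).finrank_eq] at this
  exact this.symm

theorem sum_line {V : Type*} [AddCommGroup V] [Module F V] [FiniteDimensional F V] {v : V} (hv : v ≠ 0)
    (dg : ℕ → ℂ) : ∑ U ∈ ivs (1 : End F V), dg (finrank F U) =
      ∑ S ∈ ivs (1 : End F (V ⧸ F ∙ v)), (dg (finrank F S + 1) + Nat.card F ^ finrank F S * dg (finrank F S)) := by
  classical
  have h0 : finrank F (F ∙ v) = 1 := finrank_span_singleton hv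
  rw [← Finset.sum_fiberwise_of_maps_to (g := fun U => U.map (F ∙ v).mkQ) (t := ivs (1 : End F (V ⧸ F ∙ v)))
    fun U _ => mem_ivs.2 fun _ h => h]
  refine Finset.sum_congr rfl fun S _ => ?_
  rw [← Finset.sum_filter_add_sum_filter_not (p := fun U => v ∈ U)]
  congr 1
  · rw [Finset.sum_eq_single_of_mem (S.comap (F ∙ v).mkQ)]
    · rw [finrank_map_mkQ (L := F ∙ v) (Submodule.le_comap_mkQ _ _), h0,
        Submodule.map_comap_eq_of_surjective (Submodule.mkQ_surjective _)]
    · simp only [Finset.mem_filter, mem_ivs]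
      exact ⟨⟨fun _ h => h, Submodule.map_comap_eq_of_surjective (Submodule.mkQ_surjective _) _⟩,
        Submodule.le_comap_mkQ _ _ (Submodule.mem_span_singleton_self v)⟩
    · intro U hU h
      simp only [Finset.mem_filter] at hU
      refine absurd ?_ h
      rw [← hU.1.2, Submodule.comap_map_mkQ, sup_eq_right.2 ((Submodule.span_singleton_le_iff_mem _ _).2 hU.2)]
  · rw [Finset.sum_congr rfl (g := fun _ => dg (finrank F S)), Finset.sum_const, nsmul_eq_mul,
      ← Nat.card_eq_finsetCard]
    · congr 1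
      have h1 : Nat.card (S →ₗ[F] (F ∙ v)) = Nat.card F ^ finrank F S := by
        rw [Module.natCard_eq_pow_finrank (K := F), Module.finrank_linearMap, h0, mul_one]
      rw [← Nat.cast_pow, ← h1, ← card_compl]
      congr 1
      refine Nat.card_congr (Equiv.subtypeEquivRight fun U => ?_)
      simp only [Finset.mem_filter, mem_ivs, Submodule.disjoint_span_singleton' hv]
      exact ⟨fun h => ⟨h.2, h.1.2⟩, fun h => ⟨⟨fun _ h => h, h.2⟩, h.1⟩⟩
    · intro U hU
      simp only [Finset.mem_filter] at hU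
      rw [← hU.1.2, (cplEquiv ((Submodule.disjoint_span_singleton' hv).2 hU.2)).finrank_eq]

theorem deg_rec (dg : ℕ → ℂ) (h : ∀ (V : Type u) [AddCommGroup V] [Module F V] [FiniteDimensional F V],
    ∑ U ∈ ivs (1 : End F V), dg (finrank F U) = finrank F V) (m : ℕ) :
    dg (m + 1) + (Nat.card F ^ m - 1) * dg m = if m = 0 then 1 else 0 := by
  classical
  induction m using Nat.strong_induction_on with
  | _ m ih =>
  let v : Fin (m + 1) → F := fun _ => 1
  have hv : v ≠ 0 := fun h => one_ne_zero (congrFun h 0)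
  have h0 : finrank F ((Fin (m + 1) → F) ⧸ F ∙ v) = m := by
    have := (F ∙ v).finrank_quotient_add_finrank
    rw [finrank_span_singleton hv, finrank_fin_fun] at this
    omega
  have h1 := sum_line (F := F) hv dg
  have h2 := h ((Fin (m + 1) → F) ⧸ F ∙ v)
  rw [h, finrank_fin_fun] at h1
  rw [h0] at h2
  have h3 : ∑ S ∈ ivs (1 : End F ((Fin (m + 1) → F) ⧸ F ∙ v)),
      (dg (finrank F S + 1) + (Nat.card F ^ finrank F S - 1) * dg (finrank F S)) = 1 := by
    simp only [sub_mul, one_mul, ← add_sub_assoc, Finset.sum_sub_distrib, ← h1, h2]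
    simp
  rw [← Finset.add_sum_erase _ _ (mem_ivs.2 (iv_top _)), finrank_top, h0, Finset.sum_congr rfl
    (g := fun S => if S = ⊥ then 1 else 0), Finset.sum_ite_eq'] at h3
  · split_ifs at h3 with h4
    · rw [if_neg]
      · linear_combination h3
      · rintro rfl
        have := finrank_zero_iff.1 h0
        exact (Finset.mem_erase.1 h4).1 (Subsingleton.elim _ _)
    · rw [if_pos]
      · linear_combination h3
      · by_contra h5
        have := nontrivial_of_finrank_pos (h0 ▸ Nat.pos_of_ne_zero h5)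
        exact h4 (Finset.mem_erase.2 ⟨bot_ne_top, mem_ivs.2 (iv_bot _)⟩)
  · intro S hS
    rw [ih _ ((Submodule.finrank_lt (Finset.mem_erase.1 hS).1).trans_eq h0)]
    simp [Submodule.finrank_eq_zero]

theorem del_one (θ : AlgebraicClosure F →* ℂ) (m : ℕ) :
    del (bb θ) (ed (1 : End F (Fin (m + 1) → F))) = ∏ i ∈ Finset.Ico 1 (m + 1), (1 - (Nat.card F : ℂ) ^ i) := by
  have h := deg_rec (F := F) (fun k => del (bb θ) (ed (1 : End F (Fin k → F)))) fun V _ _ _ => by
    have h1 := sum_del (bb θ) (1 : End F V)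
    have h2 : bb θ (1 : End F V).charpoly = finrank F V := by
      rw [LinearMap.charpoly_one, bb_pow, bb]
      simp [← C_1, -map_one, roots_X_sub_C]
      simp
    rw [← h2, ← h1]
    refine Finset.sum_congr rfl fun U hU => ?_
    rw [edOn_eq (mem_ivs.1 hU)]
    congr 1
    exact Sim.ed_eq ⟨(Module.finBasis F U).equivFun.symm, fun _ => rfl⟩
  induction m with
  | zero => simpa using h 0
  | succ m ih =>
    have := h (m + 1)
    rw [Finset.prod_Ico_succ_top (by omega), ← ih]
    simp only [Nat.succ_ne_zero, if_false] at this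
    linear_combination this

end deg

theorem exists_extend_div {A B D : Type*} [CommGroup A] [CommGroup B]
    [CommGroup D] (hdiv : ∀ k : ℕ, k ≠ 0 → ∀ d : D, ∃ e : D, e ^ k = d) (i : A →* B)
    (hi : Function.Injective i) (f : A →* D) : ∃ g : B →* D, ∀ k, g (i k) = f k := by
  classical
  let _ : RootableBy D ℕ := rootableByOfPowLeftSurj D ℕ (fun {n} hn d => hdiv n hn d)
  let _ : DivisibleBy (Additive D) ℕ :=
    divisibleByOfSMulRightSurj (Additive D) ℕ (fun {n} hn d => hdiv n hn d.toMul)
  let _ : DivisibleBy (Additive D) ℤ := AddGroup.divisibleByIntOfDivisibleByNat _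
  obtain ⟨g, hg⟩ := (Module.Baer.of_divisible (Additive D)).extension_property_addMonoidHom
    (MonoidHom.toAdditive i) hi (MonoidHom.toAdditive f)
  exact ⟨AddMonoidHom.toMultiplicative g, fun k => DFunLike.congr_fun hg (Additive.ofMul k)⟩

theorem exists_faithful (K : Type*) [Field K] {e : ℕ} (he : e ≠ 0) :
    ∃ θ : K →* ℂ, ∀ x : K, x ^ e = 1 → θ x = 1 → x = 1 := by
  classical
  have : NeZero e := ⟨he⟩
  have : NeZero (Nat.card (rootsOfUnity e K)) := ⟨Nat.card_pos.ne'⟩
  let φ := mulEquivOfCyclicCardEq (G := rootsOfUnity e K) (G' := rootsOfUnity (Nat.card (rootsOfUnity e K)) ℂ)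
    (Complex.card_rootsOfUnity _).symm
  obtain ⟨g, hg⟩ := exists_extend_div (D := ℂˣ) (fun k hk d => by
      obtain ⟨z, hz⟩ := IsAlgClosed.exists_pow_nat_eq (d : ℂ) (Nat.pos_of_ne_zero hk)
      have h0 : z ≠ 0 := by
        rintro rfl
        exact d.ne_zero (by rw [← hz, zero_pow hk])
      exact ⟨Units.mk0 z h0, Units.ext (by simpa using hz)⟩)
    (rootsOfUnity e K).subtype (Subgroup.subtype_injective _) ((Subgroup.subtype _).comp φ.toMonoidHom)
  refine ⟨{ toFun := fun x => if h : x = 0 then 0 else g (Units.mk0 x h)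
            map_one' := by simp
            map_mul' := fun x y => ?_ }, fun x hx h => ?_⟩
  · by_cases hx : x = 0
    · simp [hx]
    by_cases hy : y = 0
    · simp [hy]
    rw [dif_neg (mul_ne_zero hx hy), dif_neg hx, dif_neg hy, Units.mk0_mul, map_mul, Units.val_mul]
  · have h0 : x ≠ 0 := by
      rintro rfl
      simp [he] at hx
    have h1 : Units.mk0 x h0 ∈ rootsOfUnity e K := (mem_rootsOfUnity' _ _).2 hx
    have h2 : g (Units.mk0 x h0) = 1 := Units.ext (by simpa [h0] using h)
    have h3 : φ ⟨_, h1⟩ = 1 := Subtype.ext ((hg ⟨_, h1⟩).symm.trans h2)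
    rw [map_eq_one_iff φ φ.injective] at h3
    exact congrArg (fun y : rootsOfUnity e K => ((y : Kˣ) : K)) h3

end Cfsg.Agent.H7.CU
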