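import Cfsg.Agent.H7.CU6

/-! Cuspidal characters of the general linear group. -/

set_option autoImplicit false

open Polynomial Module
open scoped ComplexConjugate MatrixGroups TensorProduct

namespace Cfsg.Agent.H7.CU

open H28

universe u

variable {F : Type u} [Field F] [Fintype F] [DecidableEq F]

local notation "K" => AlgebraicClosure F

/-- the natural representation -/
noncomputable def nat (F : Type u) [Field F] (n : ℕ) : Representation F (GL (Fin n) F) (Fin n → F) :=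
  (Matrix.toLinAlgEquiv' : Matrix (Fin n) (Fin n) F ≃ₐ[F] _).toMulEquiv.toMonoidHom.comp (Units.coeHom _)

omit [Fintype F] [DecidableEq F] in
theorem nat_apply {n : ℕ} (g : GL (Fin n) F) : nat F n g = Matrix.toLinAlgEquiv' (g : Matrix (Fin n) (Fin n) F) := rfl

omit [Fintype F] [DecidableEq F] in
theorem isUnit_iff_coeff {V : Type*} [AddCommGroup V] [Module F V] [FiniteDimensional F V] (a : End F V) :
    IsUnit a ↔ a.charpoly.coeff 0 ≠ 0 := by
  rw [LinearMap.isUnit_iff_isUnit_det, isUnit_iff_ne_zero, LinearMap.det_eq_sign_charpoly_coeff, mul_ne_zero_iff]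
  simp

theorem sum_gl {n : ℕ} (f : End F (Fin n → F) → ℂ) [∀ a : End F (Fin n → F), Decidable (a.charpoly.coeff 0 = 0)] :
    ∑ g : GL (Fin n) F, f (nat F n g) = ∑ a : End F (Fin n → F), if a.charpoly.coeff 0 = 0 then 0 else f a := by
  rw [Finset.sum_congr rfl fun (a : End F (Fin n → F)) _ => (ite_not (a.charpoly.coeff 0 = 0) (f a) 0).symm,
    ← Finset.sum_filter]
  refine Finset.sum_bij (fun g _ => nat F n g) (fun g _ => ?_) (fun g _ g' _ h => ?_) (fun a ha => ?_) fun _ _ => rfl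
  · exact Finset.mem_filter.2 ⟨Finset.mem_univ _, (isUnit_iff_coeff _).1 ((Group.isUnit g).map _)⟩
  · exact Units.ext (Matrix.toLinAlgEquiv'.injective h)
  · obtain ⟨a, rfl⟩ := (isUnit_iff_coeff a).2 (Finset.mem_filter.1 ha).2
    exact ⟨Matrix.GeneralLinearGroup.toLin.symm a, Finset.mem_univ _,
      congrArg Units.val (Matrix.GeneralLinearGroup.toLin.apply_symm_apply a)⟩

omit [Fintype F] [DecidableEq F] in
theorem card_gl (n : ℕ) : Nat.card (GL (Fin n) F) = Nat.card ((Fin n → F) ≃ₗ[F] (Fin n → F)) :=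
  Nat.card_congr (Matrix.GeneralLinearGroup.toLin.trans
    (LinearMap.GeneralLinearGroup.generalLinearEquiv F (Fin n → F))).toEquiv

/-- the cuspidal class function -/
noncomputable def cu (n : ℕ) (θ : K →* ℂ) (g : GL (Fin n) F) : ℂ := (-1) ^ (n - 1) * del (bb θ) (ed (nat F n g))

theorem isGen_cu (n : ℕ) (θ : K →* ℂ) {e : ℕ} (hθ : ∀ x : K, x ^ e = 1 → θ x = 1 → x = 1)
    (he : ∀ g : GL (Fin n) F, g ^ e = 1) : IsGeneralizedCharacter (GL (Fin n) F) (cu n θ) := by
  have h := isGen_del.{u, u} (bb θ) (fun G _ => ∀ g : G, g ^ e = 1) (fun G _ H h g => Subtype.ext (h g))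
    (fun G _ _ hG V _ _ _ ρ => by
      have := isGen_br θ hθ hG (U := K ⊗[F] V) ((End.baseChangeHom F K V).toMonoidHom.comp ρ)
      convert this using 2 with g
      rw [bb, br, ← LinearMap.charpoly_baseChange]
      rfl) _ _ he _ (nat F n) rfl
  have h2 := H4.Cfsg.IsGeneralizedCharacter.intCast_smul h ((-1) ^ (n - 1))
  convert h2 using 1
  ext g
  simp [cu]

open Classical in
theorem inner_cu {n : ℕ} (hn : 0 < n) (θ θ' : K →* ℂ) {ζ : K} (hζ : IsPrimitiveRoot ζ (Nat.card F ^ n - 1)) :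
    classInner (cu n θ) (cu n θ') =
      ∑ j ∈ Finset.range n, if θ ζ * conj (θ' (ζ ^ Nat.card F ^ j)) = 1 then 1 else 0 := by
  have : Nonempty (Fin n) := ⟨⟨0, hn⟩⟩
  have h := norm_formula (V := Fin n → F) θ θ' (ζ := ζ) (by rwa [finrank_fin_fun])
  have h' := @sum_gl F _ _ _ n (fun a => del (bb θ) (ed a) * conj (del (bb θ') (ed a)))
    (fun _ => Classical.propDecidable _)
  rw [finrank_fin_fun, ← h', ← card_gl] at h
  rw [classInner, inv_mul_eq_iff_eq_mul₀ (H5.card_ne_zero_C _), ← h]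
  refine Finset.sum_congr rfl fun g _ => ?_
  simp only [cu, map_mul, map_pow, map_neg, map_one]
  rw [mul_mul_mul_comm, ← mul_pow]
  simp

omit [DecidableEq F] in
theorem cu_one {n : ℕ} (hn : 0 < n) (θ : K →* ℂ) :
    cu n θ 1 = ∏ i ∈ Finset.Ico 1 n, ((Fintype.card F : ℂ) ^ i - 1) := by
  obtain ⟨m, rfl⟩ := Nat.exists_eq_succ_of_ne_zero hn.ne'
  rw [cu, map_one, del_one, Nat.card_eq_fintype_card]
  conv_lhs => rw [show m.succ - 1 = (Finset.Ico 1 (m + 1)).card by simp, ← Finset.prod_const,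
    ← Finset.prod_mul_distrib]
  simp

open Classical in
theorem cu_cusp {n : ℕ} (θ : K →* ℂ) {m : ℕ} (h0 : 0 < m) (h1 : m < n) :
    (∑ g : GL (Fin n) F, if (∀ i j : Fin n, ¬ (i.val < m ∧ m ≤ j.val) →
      (g : Matrix (Fin n) (Fin n) F) i j = (1 : Matrix (Fin n) (Fin n) F) i j) then cu n θ g else 0) = 0 := by
  let U : Submodule F (Fin n → F) :=
    { carrier := {v | ∀ i : Fin n, m ≤ i.val → v i = 0}
      add_mem' := fun {a b} ha hb i hi => by simp [ha i hi, hb i hi]
      zero_mem' := fun _ _ => rfl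
      smul_mem' := fun c a ha i hi => by simp [ha i hi] }
  have hU : ∀ v, v ∈ U ↔ ∀ i : Fin n, m ≤ i.val → v i = 0 := fun _ => Iff.rfl
  have hb : U ≠ ⊥ := fun h => by
    have : (Pi.single ⟨0, h0.trans h1⟩ 1 : Fin n → F) ∈ U := fun i hi =>
      Pi.single_eq_of_ne (fun h => by rw [h] at hi; exact absurd hi (by simpa using h0.ne')) _
    rw [h, Submodule.mem_bot] at this
    simpa using congrFun this ⟨0, h0.trans h1⟩
  have ht : U ≠ ⊤ := fun h => by
    have : (fun _ => 1 : Fin n → F) ∈ U := h ▸ Submodule.mem_top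
    exact one_ne_zero (this ⟨m, h1⟩ le_rfl)
  have key : ∀ g : GL (Fin n) F, (∀ i j : Fin n, ¬ (i.val < m ∧ m ≤ j.val) →
      (g : Matrix (Fin n) (Fin n) F) i j = (1 : Matrix (Fin n) (Fin n) F) i j) ↔ nat F n g - 1 ∈ rad U := by
    intro g
    have h2 : ∀ v, (nat F n g - 1) v = ((g : Matrix (Fin n) (Fin n) F) - 1).mulVec v := fun v => by
      simp [nat_apply, Matrix.sub_mulVec]
    simp only [mem_rad, h2, hU]
    constructor
    · intro h
      refine ⟨fun v i hi => ?_, fun v hv => _root_.funext fun i => ?_⟩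
      · rw [Matrix.mulVec, dotProduct]
        refine Finset.sum_eq_zero fun j _ => ?_
        simp [h i j (by omega)]
      · rw [Matrix.mulVec, dotProduct]
        refine Finset.sum_eq_zero fun j _ => ?_
        by_cases hj : m ≤ j.val
        · simp [hv j hj]
        · simp [h i j (by omega)]
    · intro h i j hij
      rw [← sub_eq_zero, ← Matrix.sub_apply]
      by_cases hi : m ≤ i.val
      · simpa using h.1 (Pi.single j 1) i hi
      · have := congrFun (h.2 (Pi.single j 1) fun k hk => Pi.single_eq_of_ne (by rintro rfl; omega) _) i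
        simpa using this
  simp only [key, cu]
  rw [sum_gl fun a => if a - 1 ∈ rad U then (-1) ^ (n - 1) * del (bb θ) (ed a) else 0]
  have h3 := cusp (bb_mul θ) _ (Fin n → F) rfl U hb ht 1 fun _ h => h
  have h4 : ∀ a : End F (Fin n → F), a - 1 ∈ rad U → a.charpoly.coeff 0 ≠ 0 := fun a ha => by
    have := charpoly_add_rad (a := 1) (fun _ h => h) ha
    rw [add_sub_cancel] at this
    rw [this, ← isUnit_iff_coeff]
    exact isUnit_one
  refine Eq.trans ?_ (mul_zero ((-1 : ℂ) ^ (n - 1)))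
  conv_rhs => rw [← h3, Finset.mul_sum, rads, Finset.sum_filter]
  rw [← Equiv.sum_comp (Equiv.addLeft 1)]
  refine Finset.sum_congr rfl fun a _ => ?_
  by_cases h5 : a ∈ rad U
  · have := h4 (1 + a) (by simpa using h5)
    simp [h5, this]
  · simp [h5]

theorem exists_family {n : ℕ} (hn : 0 < n) : ∃ θ : (ZMod (Nat.card F ^ n - 1))ˣ → K →* ℂ,
    (∀ u, IsGeneralizedCharacter (GL (Fin n) F) (cu n (θ u))) ∧ ∀ u u', classInner (cu n (θ u)) (cu n (θ u')) =
      ∑ j ∈ Finset.range n, if (u : ZMod (Nat.card F ^ n - 1)) = (Nat.card F : ZMod (Nat.card F ^ n - 1)) ^ j * u' then 1 else 0 := by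
  classical
  set N := Nat.card F ^ n - 1 with hN
  have hq : 1 < Nat.card F ^ n := Nat.one_lt_pow hn.ne' one_lt_q
  have hN0 : N ≠ 0 := by omega
  have he : N * Nat.card (GL (Fin n) F) ≠ 0 := mul_ne_zero hN0 Nat.card_pos.ne'
  set e := N * Nat.card (GL (Fin n) F) with he'
  have : NeZero e := ⟨he⟩
  obtain ⟨θ₀, h0⟩ := exists_faithful K he
  choose w hw using ZMod.unitsMap_surjective (n := N) (m := e) (dvd_mul_right _ _)
  let k : (ZMod N)ˣ → ℕ := fun u => (w u : ZMod e).val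
  have hk : ∀ u, (k u).Coprime e := fun u => ZMod.val_coe_unit_coprime _
  have hk' : ∀ u, (k u : ZMod N) = u := fun u => by
    rw [← hw u, ZMod.unitsMap_val, hw, ZMod.natCast_val]
  have : NeZero (N : K) := ⟨by
    have : ((Nat.card F : ℕ) : K) = 0 := by
      rw [← map_natCast (algebraMap F K), Nat.card_eq_fintype_card, FiniteField.cast_card_eq_zero, map_zero]
    rw [hN, Nat.cast_sub hq.le, Nat.cast_pow, this, zero_pow hn.ne']
    simp⟩
  obtain ⟨ζ, hζ⟩ := HasEnoughRootsOfUnity.exists_primitiveRoot K N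
  refine ⟨fun u => θ₀.comp (powMonoidHom (k u)), fun u => isGen_cu n _ (e := e) (fun x hx h => ?_) fun g => ?_,
    fun u u' => ?_⟩
  · have h1 : x ^ k u = 1 := h0 _ (by rw [← pow_mul, mul_comm, pow_mul, hx, one_pow]) h
    have := pow_gcd_eq_one.2 ⟨h1, hx⟩
    rwa [hk u, pow_one] at this
  · rw [he', mul_comm, pow_mul, pow_card_eq_one', one_pow]
  rw [inner_cu hn _ _ hζ]
  refine Finset.sum_congr rfl fun j _ => if_congr ?_ rfl rfl
  have hp : ∀ i, (ζ ^ i) ^ e = 1 := fun i => by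
    rw [← pow_mul, mul_comm, pow_mul, he', pow_mul, hζ.pow_eq_one, one_pow, one_pow]
  have h1 : ∀ i, θ₀ (ζ ^ i) * conj (θ₀ (ζ ^ i)) = 1 := fun i => by
    rw [Complex.mul_conj, Complex.normSq_eq_norm_sq,
      Complex.norm_eq_one_of_pow_eq_one (n := e) (by rw [← map_pow, hp, map_one]) he]
    simp
  have h2 : ∀ i i', θ₀ (ζ ^ i) = θ₀ (ζ ^ i') → ζ ^ i = ζ ^ i' := fun i i' h => by
    have h3 : ζ ^ i' ≠ 0 := pow_ne_zero _ (hζ.ne_zero hN0)
    have h4 : θ₀ (ζ ^ i') ≠ 0 := left_ne_zero_of_mul_eq_one (h1 i')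
    rw [← div_eq_one_iff_eq h3]
    refine h0 _ (by rw [div_pow, hp, hp, div_one]) (mul_right_cancel₀ h4 ?_)
    rw [← map_mul, div_mul_cancel₀ _ h3, h, one_mul]
  change θ₀ (ζ ^ k u) * conj (θ₀ ((ζ ^ Nat.card F ^ j) ^ k u')) = 1 ↔ _
  rw [← pow_mul, ← hk' u, ← hk' u', ← Nat.cast_pow, ← Nat.cast_mul, ZMod.natCast_eq_natCast_iff]
  conv_rhs => rw [hζ.eq_orderOf, ← (hζ.isOfFinOrder hN0).pow_eq_pow_iff_modEq]
  constructor
  · intro h
    exact h2 _ _ (mul_right_cancel₀ (right_ne_zero_of_mul_eq_one h) (h.trans (h1 _).symm))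
  · intro h
    rw [h, h1]

open Classical in
theorem main (n : ℕ) (hn : 2 ≤ n) : Nat.totient (Fintype.card F ^ n - 1) / n ≤
    Nat.card {χ : IrrCharacter (GL (Fin n) F) //
      (χ : GL (Fin n) F → ℂ) 1 = ∏ i ∈ Finset.Ico 1 n, ((Fintype.card F : ℂ) ^ i - 1) ∧
      ∀ m : ℕ, 0 < m → m < n → (∑ g : GL (Fin n) F, if (∀ i j : Fin n, ¬ (i.val < m ∧ m ≤ j.val) →
        (g : Matrix (Fin n) (Fin n) F) i j = (1 : Matrix (Fin n) (Fin n) F) i j)
        then (χ : GL (Fin n) F → ℂ) g else 0) = 0} := by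
  have hn0 : 0 < n := by omega
  obtain ⟨θ, h1, h2⟩ := exists_family (F := F) hn0
  have hq : 1 < Nat.card F ^ n := Nat.one_lt_pow hn0.ne' one_lt_q
  have : NeZero (Nat.card F ^ n - 1) := ⟨by omega⟩
  have h3 : ∀ u, classInner (cu n (θ u)) (cu n (θ u)) = 1 := fun u => by
    rw [h2, Finset.sum_eq_single 0 (fun j hj h0 => if_neg fun h => ?_) (by simp [hn0.ne'])]
    · simp
    have h4 : ((Nat.card F ^ j : ℕ) : ZMod (Nat.card F ^ n - 1)) = (1 : ℕ) := by
      rw [Nat.cast_pow, Nat.cast_one]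
      exact (u.mul_left_inj).1 (h.symm.trans (one_mul _).symm)
    have h5 : 1 < Nat.card F ^ j := Nat.one_lt_pow h0 one_lt_q
    have h6 : Nat.card F ^ j < Nat.card F ^ n := Nat.pow_lt_pow_right one_lt_q (Finset.mem_range.1 hj)
    rw [eq_comm, ZMod.natCast_eq_natCast_iff, Nat.modEq_iff_dvd' h5.le] at h4
    have := Nat.le_of_dvd (by omega) h4
    omega
  have h4 : ∀ u, IsIrrCharacter (GL (Fin n) F) (cu n (θ u)) := fun u =>
    H4.Cfsg.IsGeneralizedCharacter.isIrr_of_pos (h1 u) (h3 u) (by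
      rw [cu_one hn0]
      have : ∏ i ∈ Finset.Ico 1 n, ((Fintype.card F : ℂ) ^ i - 1) =
          ((∏ i ∈ Finset.Ico 1 n, ((Fintype.card F : ℝ) ^ i - 1) : ℝ) : ℂ) := by push_cast; rfl
      rw [this, Complex.ofReal_re]
      refine Finset.prod_nonneg fun i _ => sub_nonneg.2 (one_le_pow₀ ?_)
      exact_mod_cast Fintype.card_pos)
  set S := {χ : IrrCharacter (GL (Fin n) F) //
      (χ : GL (Fin n) F → ℂ) 1 = ∏ i ∈ Finset.Ico 1 n, ((Fintype.card F : ℂ) ^ i - 1) ∧
      ∀ m : ℕ, 0 < m → m < n → (∑ g : GL (Fin n) F, if (∀ i j : Fin n, ¬ (i.val < m ∧ m ≤ j.val) →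
        (g : Matrix (Fin n) (Fin n) F) i j = (1 : Matrix (Fin n) (Fin n) F) i j)
        then (χ : GL (Fin n) F → ℂ) g else 0) = 0}
  let f : (ZMod (Nat.card F ^ n - 1))ˣ → S := fun u => ⟨⟨_, h4 u⟩, cu_one hn0 _, fun m h0 h1 => cu_cusp _ h0 h1⟩
  have := Fintype.ofFinite S
  have h5 := Finset.card_le_mul_card_image_of_maps_to (f := f) (s := Finset.univ) (t := Finset.univ)
    (fun _ _ => Finset.mem_univ _) n fun b _ => by
      rcases (Finset.univ.filter fun a => f a = b).eq_empty_or_nonempty with h | ⟨u', hu'⟩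
      · simp [h]
      rw [← Finset.card_image_of_injective _ Units.val_injective]
      refine le_trans (Finset.card_le_card (t := (Finset.range n).image
        fun j => (Nat.card F : ZMod (Nat.card F ^ n - 1)) ^ j * u') fun x hx => ?_)
        (Finset.card_image_le.trans (Finset.card_range n).le)
      obtain ⟨u, hu, rfl⟩ := Finset.mem_image.1 hx
      have h6 : cu n (θ u) = cu n (θ u') :=
        congrArg (fun s : S => s.1.1) ((Finset.mem_filter.1 hu).2.trans (Finset.mem_filter.1 hu').2.symm)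
      have h7 := h2 u u'
      rw [h6, h3] at h7
      obtain ⟨j, hj, h8⟩ := Finset.exists_ne_zero_of_sum_ne_zero (h7.symm.trans_ne one_ne_zero)
      exact Finset.mem_image.2 ⟨j, hj, (of_not_not fun h => h8 (if_neg h) : _ = _).symm⟩
  rw [Finset.card_univ, Finset.card_univ, ZMod.card_units_eq_totient, Nat.card_eq_fintype_card,
    ← Nat.card_eq_fintype_card (α := S)] at h5
  exact Nat.div_le_of_le_mul h5

end Cfsg.Agent.H7.CU
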