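import Cfsg.Agent.H7.Rank

/-!
# A sign-reversing involution on normal chains of `p`-subgroups
-/

set_option autoImplicit false
set_option linter.unusedSectionVars false
set_option linter.style.haveILetI false

namespace Cfsg.Agent.H7

open Cfsg Cfsg.Agent.H3
open scoped Pointwise

variable {G : Type*} [Group G] [Finite G] {p : ℕ} [Fact p.Prime]

theorem mem_normalizer_finsup {g : G} {s : Finset (Subgroup G)}
    (h : ∀ Q ∈ s, g ∈ Subgroup.normalizer (Q : Set G)) :
    g ∈ Subgroup.normalizer ((s.sup id : Subgroup G) : Set G) :=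
  Finset.sup_induction (p := fun X : Subgroup G => g ∈ Subgroup.normalizer (X : Set G))
    (Subgroup.le_normalizer_of_normal (Subgroup.mem_top g)) (fun _ ha _ hb => mem_normalizer_sup ha hb)
    h

theorem finsup_mem_of_chain {s : Finset (Subgroup G)} (h : ∀ Q ∈ s, ∀ R ∈ s, Q ≤ R ∨ R ≤ Q) :
    s.sup id = ⊥ ∨ s.sup id ∈ s := by
  refine Finset.sup_induction (p := fun X : Subgroup G => X = ⊥ ∨ X ∈ s) (Or.inl rfl) ?_
    fun _ hb => Or.inr hb
  rintro a (rfl | ha) b hb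
  · rwa [bot_sup_eq]
  rcases hb with rfl | hb
  · rw [sup_bot_eq]; exact Or.inr ha
  rcases h a ha b hb with h1 | h1
  · rw [sup_eq_right.2 h1]; exact Or.inr hb
  · rw [sup_eq_left.2 h1]; exact Or.inr ha

/-- the normal closure of `u` in `T` -/
def cV (u : G) (T : Subgroup G) : Subgroup G := Subgroup.closure {x | ∃ t ∈ T, t * u * t⁻¹ = x}

theorem mem_cV (u : G) (T : Subgroup G) : u ∈ cV u T :=
  Subgroup.subset_closure ⟨1, T.one_mem, by simp⟩

theorem cV_le {u : G} {T Q : Subgroup G} (hu : u ∈ Q) (h : T ≤ Subgroup.normalizer (Q : Set G)) :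
    cV u T ≤ Q := by
  refine (Subgroup.closure_le _).2 ?_
  rintro _ ⟨t, ht, rfl⟩
  exact (Subgroup.mem_normalizer_iff.1 (h ht) u).1 hu

theorem mem_normalizer_cV {u g t₀ : G} {T : Subgroup G} (hg : g ∈ Subgroup.normalizer (T : Set G))
    (ht₀ : t₀ ∈ T) (h : g * u * g⁻¹ = t₀ * u * t₀⁻¹) :
    g ∈ Subgroup.normalizer (cV u T : Set G) := by
  refine mem_normalizer_iff_conj_smul.2 (eq_of_conj_le ?_)
  refine Subgroup.map_le_iff_le_comap.2 ((Subgroup.closure_le _).2 ?_)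
  rintro _ ⟨t, ht, rfl⟩
  refine Subgroup.subset_closure ⟨g * t * g⁻¹ * t₀,
    T.mul_mem ((Subgroup.mem_normalizer_iff.1 hg t).1 ht) ht₀, ?_⟩
  change _ = g * (t * u * t⁻¹) * g⁻¹
  calc _ = g * t * g⁻¹ * (t₀ * u * t₀⁻¹) * (g * t * g⁻¹)⁻¹ := by group
    _ = _ := by rw [← h]; group

theorem sup_zpowers_eq_of_cV {u : G} {T A : Subgroup G} (hT : IsPGroup p T) (hu : u ∈ T)
    (hA : A ≤ T) (h : T ≤ A ⊔ cV u T) : T ≤ A ⊔ Subgroup.zpowers u := by
  rcases eq_top_or_exists_le_coatom ((A ⊔ Subgroup.zpowers u).subgroupOf T) with h1 | ⟨X, hX, h1⟩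
  · exact Subgroup.subgroupOf_eq_top.1 h1
  haveI := hT.isNilpotent
  haveI := Subgroup.NormalizerCondition.normal_of_coatom X
    Group.normalizerCondition_of_isNilpotent hX
  have h2 : T ≤ X.map T.subtype := h.trans (sup_le
    (fun a ha => ⟨⟨a, hA ha⟩, h1 (Subgroup.mem_sup_left ha :), rfl⟩)
    (cV_le ⟨⟨u, hu⟩, h1 (Subgroup.mem_sup_right (Subgroup.mem_zpowers u) :), rfl⟩ fun t ht =>
      (mem_normalizer_map_iff T.subtype_injective (x := ⟨t, ht⟩)).2
        (Subgroup.le_normalizer_of_normal (Subgroup.mem_top _))))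
  refine (hX.1 (eq_top_iff.2 fun x _ => ?_)).elim
  obtain ⟨y, hy, h3⟩ := h2 x.2
  rwa [← Subtype.ext h3]

/-- normal chains of nontrivial `p`-subgroups -/
structure IsNChain (p : ℕ) (s : Finset (Subgroup G)) : Prop where
  chain : ∀ Q ∈ s, ∀ R ∈ s, Q ≤ R ∨ R ≤ Q
  pgrp : ∀ Q ∈ s, Q ≠ ⊥ ∧ IsPGroup p Q
  norm : ∀ Q ∈ s, ∀ R ∈ s, R ≤ Subgroup.normalizer (Q : Set G)

/-- the stabilizer of a chain -/
abbrev cN (s : Finset (Subgroup G)) : Subgroup G :=
  ⨅ Q ∈ s, Subgroup.normalizer ((Q : Subgroup G) : Set G)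

theorem mem_cN {s : Finset (Subgroup G)} {g : G} :
    g ∈ cN s ↔ ∀ Q ∈ s, g ∈ Subgroup.normalizer (Q : Set G) := by
  simp only [Subgroup.mem_iInf]

theorem IsNChain.isPGroup {s : Finset (Subgroup G)} (h : IsNChain p s) :
    IsPGroup p (s.sup id : Subgroup G) := by
  rcases finsup_mem_of_chain h.chain with h1 | h1
  · rw [h1]; exact IsPGroup.of_bot
  · exact (h.pgrp _ h1).2

theorem IsNChain.sup_le {s : Finset (Subgroup G)} (h : IsNChain p s) : s.sup id ≤ cN s :=
  Finset.sup_le fun R hR _ hx => mem_cN.2 fun Q hQ => h.norm Q hQ R hR hx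

theorem cN_le_normalizer (s : Finset (Subgroup G)) :
    cN s ≤ Subgroup.normalizer ((s.sup id : Subgroup G) : Set G) :=
  fun _ hg => mem_normalizer_finsup (mem_cN.1 hg)

theorem centralizer_le_cN (s : Finset (Subgroup G)) :
    Subgroup.centralizer ((s.sup id : Subgroup G) : Set G) ≤ cN s := fun _ hg =>
  mem_cN.2 fun Q hQ => Subgroup.centralizer_le_normalizer _
    (Subgroup.centralizer_le (SetLike.coe_subset_coe.2 (Finset.le_sup (f := id) hQ)) hg)

theorem IsNChain.subset {s t : Finset (Subgroup G)} (h : IsNChain p s) (ht : t ⊆ s) :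
    IsNChain p t :=
  ⟨fun Q hQ R hR => h.chain Q (ht hQ) R (ht hR), fun Q hQ => h.pgrp Q (ht hQ),
    fun Q hQ R hR => h.norm Q (ht hQ) R (ht hR)⟩

/-- the top of a chain joined with `u` -/
def cT (u : G) (s : Finset (Subgroup G)) : Subgroup G := s.sup id ⊔ Subgroup.zpowers u

open Classical in
/-- the members of a chain not containing `u` -/
noncomputable def cF (u : G) (s : Finset (Subgroup G)) : Finset (Subgroup G) := s.filter (u ∉ ·)

theorem mem_cF {u : G} {s : Finset (Subgroup G)} {Q : Subgroup G} :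
    Q ∈ cF u s ↔ Q ∈ s ∧ u ∉ Q := by
  simp only [cF, Finset.mem_filter]

/-- the subgroup toggled by the involution -/
noncomputable def cR (u : G) (s : Finset (Subgroup G)) : Subgroup G :=
  (cF u s).sup id ⊔ cV u (cT u s)

theorem mem_cT (u : G) (s : Finset (Subgroup G)) : u ∈ cT u s :=
  Subgroup.mem_sup_right (Subgroup.mem_zpowers u)

theorem mem_cR (u : G) (s : Finset (Subgroup G)) : u ∈ cR u s :=
  Subgroup.mem_sup_right (mem_cV _ _)

theorem cR_le (u : G) (s : Finset (Subgroup G)) : cR u s ≤ cT u s :=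
  sup_le ((Finset.sup_mono fun _ h => (mem_cF.1 h).1).trans le_sup_left)
    (cV_le (mem_cT u s) Subgroup.le_normalizer)

theorem mem_normalizer_cR {u g t₀ : G} {s : Finset (Subgroup G)} (hg : g ∈ cN s)
    (hg' : g ∈ Subgroup.normalizer (cT u s : Set G)) (ht₀ : t₀ ∈ cT u s)
    (h : g * u * g⁻¹ = t₀ * u * t₀⁻¹) : g ∈ Subgroup.normalizer (cR u s : Set G) :=
  mem_normalizer_sup (mem_normalizer_finsup fun Q hQ => mem_cN.1 hg Q (mem_cF.1 hQ).1)
    (mem_normalizer_cV hg' ht₀ h)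

theorem cR_congr {u : G} {s t : Finset (Subgroup G)} (h : cT u s = cT u t)
    (h' : ∀ Q, u ∉ Q → (Q ∈ s ↔ Q ∈ t)) : cR u s = cR u t := by
  rw [cR, cR, h]
  congr 2
  ext Q
  simp only [mem_cF]
  exact and_congr_left (h' Q)

section
variable {u : G} {s : Finset (Subgroup G)} (h : IsNChain p s) (hu : u ∈ cN s)
  (hp : IsPGroup p (Subgroup.zpowers u))
include h hu

theorem IsNChain.cT_le : cT u s ≤ cN s := _root_.sup_le h.sup_le (Subgroup.zpowers_le.2 hu)

theorem IsNChain.cT_le_normalizer_cR : cT u s ≤ Subgroup.normalizer (cR u s : Set G) :=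
  fun _ ht => mem_normalizer_cR (h.cT_le hu ht) (Subgroup.le_normalizer ht) ht rfl

theorem IsNChain.cR_le_of_mem {Q : Subgroup G} (hQ : Q ∈ s) (huQ : u ∈ Q) : cR u s ≤ Q :=
  _root_.sup_le (Finset.sup_le fun R hR => (h.chain R (mem_cF.1 hR).1 Q hQ).resolve_right
    fun h1 => (mem_cF.1 hR).2 (h1 huQ))
    (cV_le huQ fun _ ht => mem_cN.1 (h.cT_le hu ht) Q hQ)

include hp

theorem IsNChain.isPGroup_cT : IsPGroup p (cT u s) :=
  h.isPGroup.to_sup_of_normal_left' hp (Subgroup.zpowers_le.2 (cN_le_normalizer s hu))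

theorem IsNChain.insert_cR [DecidableEq (Subgroup G)] (hu1 : u ≠ 1) :
    IsNChain p (insert (cR u s) s) := by
  have h1 : ∀ Q ∈ s, Q ≤ cR u s ∨ cR u s ≤ Q := fun Q hQ => by
    by_cases h2 : u ∈ Q
    · exact Or.inr (h.cR_le_of_mem hu hQ h2)
    · exact Or.inl ((Finset.le_sup (f := id) (mem_cF.2 ⟨hQ, h2⟩)).trans le_sup_left)
  refine ⟨?_, ?_, ?_⟩
  · simp only [Finset.forall_mem_insert]
    exact ⟨⟨Or.inl le_rfl, fun Q hQ => (h1 Q hQ).symm⟩, fun Q hQ => ⟨h1 Q hQ, h.chain Q hQ⟩⟩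
  · simp only [Finset.forall_mem_insert]
    exact ⟨⟨fun h2 => hu1 (Subgroup.mem_bot.1 (h2 ▸ mem_cR u s)),
      (h.isPGroup_cT hu hp).to_le (cR_le u s)⟩, h.pgrp⟩
  · simp only [Finset.forall_mem_insert]
    exact ⟨⟨Subgroup.le_normalizer, fun R hR => ((Finset.le_sup (f := id) hR).trans
      le_sup_left).trans (h.cT_le_normalizer_cR hu)⟩, fun Q hQ =>
        ⟨fun x hx => mem_cN.1 (h.cT_le hu (cR_le u s hx)) Q hQ, h.norm Q hQ⟩⟩

theorem IsNChain.cT_erase [DecidableEq (Subgroup G)] : cT u (s.erase (cR u s)) = cT u s := by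
  classical
  refine le_antisymm (sup_le_sup_right (Finset.sup_mono (Finset.erase_subset _ _)) _) ?_
  by_cases h1 : ∃ Q ∈ s.erase (cR u s), u ∈ Q
  · obtain ⟨Q, hQ, h2⟩ := h1
    refine sup_le_sup_right (Finset.sup_le fun R hR => ?_) _
    by_cases h3 : R = cR u s
    · exact (h3.le.trans (h.cR_le_of_mem hu (Finset.mem_of_mem_erase hQ) h2)).trans
        (Finset.le_sup (f := id) hQ)
    · exact Finset.le_sup (f := id) (Finset.mem_erase.2 ⟨h3, hR⟩)
  · refine (sup_zpowers_eq_of_cV (A := (cF u s).sup id) (h.isPGroup_cT hu hp)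
      (mem_cT u s) (le_sup_left.trans (cR_le u s)) ?_).trans (sup_le_sup_right
        (Finset.sup_mono fun Q hQ => Finset.mem_erase.2 ⟨fun h2 => (mem_cF.1 hQ).2
          (h2 ▸ mem_cR u s), (mem_cF.1 hQ).1⟩) _)
    refine _root_.sup_le (Finset.sup_le fun R hR => ?_) (Subgroup.zpowers_le.2 (mem_cR u s))
    by_cases h3 : R = cR u s
    · exact h3.le
    · exact (Finset.le_sup (f := id) (mem_cF.2 ⟨hR, fun h4 =>
        h1 ⟨R, Finset.mem_erase.2 ⟨h3, hR⟩, h4⟩⟩)).trans le_sup_left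

end

theorem cT_insert [DecidableEq (Subgroup G)] (u : G) (s : Finset (Subgroup G)) :
    cT u (insert (cR u s) s) = cT u s := by
  rw [cT, Finset.sup_insert, sup_assoc]
  exact sup_eq_right.2 (cR_le u s)

theorem CK_cN_insert [DecidableEq (Subgroup G)] (u : G) (s : Finset (Subgroup G)) :
    CK (cN (insert (cR u s) s)) (Subgroup.zpowers u) = CK (cN s) (Subgroup.zpowers u) := by
  refine le_antisymm (fun g hg => ⟨hg.1, mem_cN.2 fun Q hQ =>
    mem_cN.1 hg.2 Q (Finset.mem_insert_of_mem hQ)⟩) fun g hg => ⟨hg.1, mem_cN.2 ?_⟩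
  simp only [Finset.forall_mem_insert]
  exact ⟨mem_normalizer_cR hg.2 (mem_normalizer_sup (cN_le_normalizer s hg.2)
    (Subgroup.centralizer_le_normalizer _ hg.1)) (Subgroup.one_mem _) (by
      rw [mem_centralizer_iff_conj.1 hg.1 u (Subgroup.mem_zpowers u)]; simp), mem_cN.1 hg.2⟩

open Classical in
theorem sum_chain_eq_zero [Fintype (Finset (Subgroup G))] {u : G} (hu1 : u ≠ 1)
    (hp : IsPGroup p (Subgroup.zpowers u)) (F : Subgroup G → Subgroup G → ℤ) :
    ∑ s with IsNChain p s ∧ u ∈ cN s,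
      (-1) ^ s.card * F (CK (cN s) (Subgroup.zpowers u)) (cT u s) = 0 := by
  have h1 : ∀ s, cR u (insert (cR u s) s) = cR u s := fun s => cR_congr (cT_insert u s) fun Q hQ =>
    ⟨fun h => (Finset.mem_insert.1 h).resolve_left fun h2 => hQ (h2 ▸ mem_cR u s),
      Finset.mem_insert_of_mem⟩
  have h2 : ∀ s, IsNChain p s ∧ u ∈ cN s → cR u (s.erase (cR u s)) = cR u s := fun s hs =>
    cR_congr (hs.1.cT_erase hs.2 hp) fun Q hQ => ⟨Finset.mem_of_mem_erase,
      fun h => Finset.mem_erase.2 ⟨fun h2 => hQ (h2 ▸ mem_cR u s), h⟩⟩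
  have h3 : ∀ s, cR u s ∉ s → (-1) ^ s.card * F (CK (cN s) (Subgroup.zpowers u)) (cT u s) +
      (-1) ^ (insert (cR u s) s).card * F (CK (cN (insert (cR u s) s)) (Subgroup.zpowers u))
        (cT u (insert (cR u s) s)) = 0 := fun s hs => by
    rw [Finset.card_insert_of_notMem hs, cT_insert, CK_cN_insert]
    ring
  refine Finset.sum_involution (fun s _ => if cR u s ∈ s then s.erase (cR u s)
    else insert (cR u s) s) (fun s hs => ?_) (fun s _ _ => ?_) (fun s hs => ?_) fun s hs => ?_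
  · split_ifs with h
    · have h4 := h3 (s.erase (cR u s))
      rw [h2 s (Finset.mem_filter.1 hs).2, Finset.insert_erase h] at h4
      rw [add_comm, h4 (Finset.notMem_erase _ _)]
    · exact h3 s h
  · split_ifs with h
    · exact fun h4 => Finset.notMem_erase _ s (h4.symm.subset h)
    · exact fun h4 => h (h4.subset (Finset.mem_insert_self _ s))
  · obtain ⟨h4, h5⟩ := (Finset.mem_filter.1 hs).2
    refine Finset.mem_filter.2 ⟨Finset.mem_univ _, ?_⟩
    split_ifs with h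
    · exact ⟨h4.subset (Finset.erase_subset _ _),
        mem_cN.2 fun Q hQ => mem_cN.1 h5 Q (Finset.mem_of_mem_erase hQ)⟩
    · refine ⟨h4.insert_cR h5 hp hu1, mem_cN.2 ?_⟩
      simp only [Finset.forall_mem_insert]
      exact ⟨Subgroup.le_normalizer (mem_cR u s), mem_cN.1 h5⟩
  · by_cases h : cR u s ∈ s
    · simp only [if_pos h, h2 s (Finset.mem_filter.1 hs).2, Finset.notMem_erase, if_false,
        Finset.insert_erase h]
    · simp only [if_neg h, h1 s, Finset.mem_insert_self, if_true, Finset.erase_insert h]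

end Cfsg.Agent.H7
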