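import Mathlib

/-!
The Feit–Higman theorem, algebraic part: idempotents in a dihedral Hecke algebra.
-/

set_option autoImplicit false
set_option linter.dupNamespace false

namespace Cfsg.Agent.H7.FH

open Finset

/-- The alternating word `x y x …` with `k` letters. -/
def wd {R : Type*} [Monoid R] : R → R → ℕ → R
  | _, _, 0 => 1
  | x, y, k + 1 => x * wd y x k

/-- The reversed alternating word. -/
def rv {R : Type*} [Monoid R] : R → R → ℕ → R
  | _, _, 0 => 1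
  | x, y, k + 1 => rv y x k * x

section words
variable {R : Type*} [Monoid R]

theorem wd_two_mul (x y : R) (i : ℕ) : wd x y (2 * i) = (x * y) ^ i := by
  induction i with
  | zero => simp [wd]
  | succ i ih => rw [show 2 * (i + 1) = 2 * i + 1 + 1 by ring, wd, wd, ih, pow_succ', mul_assoc]

theorem mul_pow_swap (x y : R) (i : ℕ) : x * (y * x) ^ i = (x * y) ^ i * x := by
  induction i with
  | zero => simp
  | succ i ih => rw [pow_succ, ← mul_assoc, ih, pow_succ]; simp only [mul_assoc]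

theorem wd_odd (x y : R) (i : ℕ) : wd x y (2 * i + 1) = (x * y) ^ i * x := by
  rw [wd, wd_two_mul, mul_pow_swap]

theorem rv_two_mul (x y : R) (i : ℕ) : rv x y (2 * i) = (y * x) ^ i := by
  induction i with
  | zero => simp [rv]
  | succ i ih => rw [show 2 * (i + 1) = 2 * i + 1 + 1 by ring, rv, rv, ih, pow_succ, mul_assoc]

theorem rv_odd (x y : R) (i : ℕ) : rv x y (2 * i + 1) = (x * y) ^ i * x := by
  rw [rv, rv_two_mul]

end words

section casimir
variable {R A : Type*} [Ring R] [Algebra ℂ R] [Ring A] [Algebra ℂ A]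

/-- The element attached to a functional on a representation. -/
def ee (x y : R) (X Y : A) (m : ℕ) : (A →ₗ[ℂ] ℂ) →ₗ[ℂ] R where
  toFun g := ∑ k ∈ range m, (g (rv Y X k) • wd y x k + g (rv X Y (k + 1)) • wd x y (k + 1))
  map_add' g h := by
    simp only [LinearMap.add_apply, add_smul, ← sum_add_distrib]
    exact sum_congr rfl fun k _ => by abel
  map_smul' c g := by
    simp only [LinearMap.smul_apply, smul_eq_mul, RingHom.id_apply, smul_sum, smul_add, mul_smul]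

theorem ee_apply (x y : R) (X Y : A) (m : ℕ) (g : A →ₗ[ℂ] ℂ) : ee x y X Y m g =
    ∑ k ∈ range m, (g (rv Y X k) • wd y x k + g (rv X Y (k + 1)) • wd x y (k + 1)) := rfl

/-- Right translate of a functional. -/
def tr (g : A →ₗ[ℂ] ℂ) : A →ₗ[ℂ] (A →ₗ[ℂ] ℂ) where
  toFun M := g.comp (LinearMap.mulRight ℂ M)
  map_add' M N := by ext; simp [mul_add]
  map_smul' c M := by ext; simp

@[simp] theorem tr_apply (g : A →ₗ[ℂ] ℂ) (M N : A) : tr g M N = g (N * M) := rfl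

theorem mul_ee {x y : R} {X Y : A} {α : ℂ} (hx : x * x = α • x + 1) (hX : X * X = α • X + 1)
    (m : ℕ) (g : A →ₗ[ℂ] ℂ) : x * ee x y X Y m g = ee x y X Y m (tr g X) := by
  rw [ee_apply, ee_apply, mul_sum]
  refine sum_congr rfl fun k _ => ?_
  simp only [wd, rv, tr_apply, mul_add, mul_smul_comm, ← mul_assoc, hx, mul_assoc _ X X, hX,
    add_mul, smul_mul_assoc, one_mul, mul_one, map_add, map_smul, smul_eq_mul, add_smul, mul_smul,
    smul_add]
  rw [smul_comm α]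
  abel

theorem ee_swap {x y : R} {X Y : A} {m : ℕ} (hb : wd x y m = wd y x m)
    (hB : rv X Y m = rv Y X m) : ee x y X Y m = ee y x Y X m := by
  ext g
  rw [ee_apply, ee_apply, sum_add_distrib, sum_add_distrib]
  have h1 := sum_range_succ (fun k => g (rv Y X k) • wd y x k) m
  have h2 := sum_range_succ' (fun k => g (rv Y X k) • wd y x k) m
  have h3 := sum_range_succ (fun k => g (rv X Y k) • wd x y k) m
  have h4 := sum_range_succ' (fun k => g (rv X Y k) • wd x y k) m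
  rw [h1] at h2
  rw [h3, hb, hB] at h4
  simp only [wd, rv] at h2 h4 ⊢
  rw [eq_sub_of_add_eq h2, eq_sub_of_add_eq h4]
  abel

theorem wd_mul_ee {x y : R} {X Y : A} {α β : ℂ} (hx : x * x = α • x + 1) (hX : X * X = α • X + 1)
    (hy : y * y = β • y + 1) (hY : Y * Y = β • Y + 1) {m : ℕ} (hb : wd x y m = wd y x m)
    (hB : rv X Y m = rv Y X m) (k : ℕ) (g : A →ₗ[ℂ] ℂ) :
    wd x y k * ee x y X Y m g = ee x y X Y m (tr g (wd X Y k)) ∧
      wd y x k * ee x y X Y m g = ee x y X Y m (tr g (wd Y X k)) := by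
  induction k with
  | zero =>
    have : tr g 1 = g := by ext; simp
    simp [wd, this]
  | succ k ih =>
    constructor
    · rw [wd, mul_assoc, ih.2, mul_ee hx hX]
      congr 1; ext; simp [wd, mul_assoc]
    · rw [wd, mul_assoc, ih.1, ee_swap hb hB, mul_ee hy hY]
      congr 1; ext; simp [wd, mul_assoc]

theorem ee_mul_ee {x y : R} {X Y : A} {α β : ℂ} (hx : x * x = α • x + 1) (hX : X * X = α • X + 1)
    (hy : y * y = β • y + 1) (hY : Y * Y = β • Y + 1) {m : ℕ} (hb : wd x y m = wd y x m)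
    (hB : rv X Y m = rv Y X m) (f g : A →ₗ[ℂ] ℂ) :
    ee x y X Y m f * ee x y X Y m g = ee x y X Y m (tr g (ee X Y X Y m f)) := by
  rw [ee_apply x y X Y m f, ee_apply X Y X Y m f, sum_mul, map_sum, map_sum]
  refine sum_congr rfl fun k _ => ?_
  rw [add_mul, smul_mul_assoc, smul_mul_assoc, (wd_mul_ee hx hX hy hY hb hB k g).2,
    (wd_mul_ee hx hX hy hY hb hB (k + 1) g).1]
  simp only [map_add, map_smul]

theorem pow_formula {M : A} {ζ w : ℂ} (h : ζ * w = 1) (hM : M * M = (ζ + w) • M - 1) (i : ℕ) :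
    (ζ - w) • M ^ i = (ζ ^ i - w ^ i) • M - (ζ ^ i * w - w ^ i * ζ) • (1 : A) := by
  induction i with
  | zero => simp [sub_smul]
  | succ i ih =>
    rw [pow_succ, ← smul_mul_assoc, ih, sub_mul, smul_mul_assoc, smul_mul_assoc, hM, one_mul,
      smul_sub, smul_smul, sub_right_comm, ← sub_smul]
    congr 2
    · ring
    · linear_combination (w ^ i - ζ ^ i) * h

end casimir

section rep

/-- The first generator in the two-dimensional representation. -/
noncomputable def mX (u : ℂ) : Matrix (Fin 2) (Fin 2) ℂ := !![u, 0; 0, -u⁻¹]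

/-- The second generator in the two-dimensional representation. -/
def mY (β y : ℂ) : Matrix (Fin 2) (Fin 2) ℂ := !![y, y * (β - y) + 1; 1, β - y]

theorem mX_sq {u : ℂ} (hu : u ≠ 0) : mX u * mX u = (u - u⁻¹) • mX u + 1 := by
  ext i j
  fin_cases i <;> fin_cases j <;> simp [mX, Matrix.mul_apply, Fin.sum_univ_two] <;> field_simp <;>
    ring

theorem mY_sq (β y : ℂ) : mY β y * mY β y = β • mY β y + 1 := by
  ext i j
  fin_cases i <;> fin_cases j <;> simp [mY, Matrix.mul_apply, Fin.sum_univ_two] <;> ring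

theorem mYX_sq {u β y c : ℂ} (hu : u ≠ 0) (h : u * y - (β - y) * u⁻¹ = c) :
    (mY β y * mX u) * (mY β y * mX u) = c • (mY β y * mX u) - 1 := by
  subst h
  ext i j
  fin_cases i <;> fin_cases j <;> simp [mX, mY, Matrix.mul_apply, Fin.sum_univ_two] <;>
    field_simp <;> ring

theorem mXY_sq {u β y c : ℂ} (hu : u ≠ 0) (h : u * y - (β - y) * u⁻¹ = c) :
    (mX u * mY β y) * (mX u * mY β y) = c • (mX u * mY β y) - 1 := by
  subst h
  ext i j
  fin_cases i <;> fin_cases j <;> simp [mX, mY, Matrix.mul_apply, Fin.sum_univ_two] <;>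
    field_simp <;> ring

theorem braid_three {u y c : ℂ} (hu : u ≠ 0) (h : u * y - (u - u⁻¹ - y) * u⁻¹ = c) :
    mX u * mY (u - u⁻¹) y * mX u - (c + 1) • mX u =
      mY (u - u⁻¹) y * mX u * mY (u - u⁻¹) y - (c + 1) • mY (u - u⁻¹) y := by
  subst h
  ext i j
  fin_cases i <;> fin_cases j <;> simp [mX, mY, Matrix.mul_apply, Fin.sum_univ_two] <;>
    field_simp <;> ring

/-- The upper left entry. -/
noncomputable def g0 : Matrix (Fin 2) (Fin 2) ℂ →ₗ[ℂ] ℂ := Matrix.entryLinearMap ℂ ℂ 0 0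

theorem g0_apply (M : Matrix (Fin 2) (Fin 2) ℂ) : g0 M = M 0 0 := rfl

theorem g0_mul_X (u : ℂ) (M : Matrix (Fin 2) (Fin 2) ℂ) : g0 (M * mX u) = u * g0 M := by
  simp [g0_apply, mX, Matrix.mul_apply, Fin.sum_univ_two, mul_comm]

theorem g0_X_mul (u : ℂ) (M : Matrix (Fin 2) (Fin 2) ℂ) : g0 (mX u * M) = u * g0 M := by
  rw [g0_apply, Matrix.mul_apply, Fin.sum_univ_two]
  simp [g0_apply, mX]

variable {u β y ζ w : ℂ} (hu : u ≠ 0) (hζ : ζ * w = 1) (hne : ζ - w ≠ 0)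
  (h : u * y - (β - y) * u⁻¹ = ζ + w)
include hu hζ hne h

theorem braid {m : ℕ} (hm : ζ ^ m = 1) (hodd : Odd m → β = u - u⁻¹) :
    wd (mX u) (mY β y) m = wd (mY β y) (mX u) m ∧ rv (mX u) (mY β y) m = rv (mY β y) (mX u) m := by
  rcases Nat.even_or_odd' m with ⟨n, rfl | rfl⟩
  · have h1 : ζ ^ n - w ^ n = 0 := by
      have : (ζ * w) ^ n = 1 := by rw [hζ, one_pow]
      rw [mul_pow] at this
      linear_combination w ^ n * hm - ζ ^ n * this
    have h2 : (mX u * mY β y) ^ n = (mY β y * mX u) ^ n := by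
      apply smul_right_injective _ hne
      simp only
      rw [pow_formula hζ (mXY_sq hu h), pow_formula hζ (mYX_sq hu h), h1, zero_smul, zero_smul]
    rw [wd_two_mul, wd_two_mul, rv_two_mul, rv_two_mul, h2]
    exact ⟨rfl, rfl⟩
  · obtain rfl := hodd ⟨n, rfl⟩
    have h1 : ζ ^ n * w - w ^ n * ζ = (ζ ^ n - w ^ n) * (ζ + w + 1) := by
      have h3 : (ζ * w) ^ n = 1 := by rw [hζ, one_pow]
      rw [mul_pow] at h3
      have h4 : ζ ^ n * ζ = w ^ n := by linear_combination w ^ n * hm - ζ ^ n * ζ * h3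
      have h5 : w ^ n * w = ζ ^ n := by linear_combination - w * h4 + ζ ^ n * hζ
      linear_combination - h4 + h5
    have h2 : (mX u * mY (u - u⁻¹) y) ^ n * mX u = (mY (u - u⁻¹) y * mX u) ^ n * mY (u - u⁻¹) y := by
      apply smul_right_injective _ hne
      simp only
      rw [← smul_mul_assoc, ← smul_mul_assoc, pow_formula hζ (mXY_sq hu h),
        pow_formula hζ (mYX_sq hu h), sub_mul, sub_mul, h1, smul_mul_assoc, smul_mul_assoc,
        smul_mul_assoc, smul_mul_assoc, one_mul, one_mul, mul_smul, mul_smul, ← smul_sub,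
        ← smul_sub, braid_three hu h]
    rw [wd_odd, wd_odd, rv_odd, rv_odd, h2]
    exact ⟨rfl, rfl⟩

theorem g0_pow (i : ℕ) : g0 ((mY β y * mX u) ^ i) =
    (u * y - w) / (ζ - w) * ζ ^ i + (ζ - u * y) / (ζ - w) * w ^ i := by
  have h1 := congrArg g0 (pow_formula hζ (mYX_sq hu h) i)
  rw [map_smul, map_sub, map_smul, map_smul, g0_mul_X] at h1
  rw [show g0 (mY β y) = y from rfl, show g0 1 = 1 from rfl] at h1
  simp only [smul_eq_mul] at h1
  field_simp
  linear_combination h1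

omit hζ hne h in
theorem term_even (i : ℕ) : g0 (rv (mY β y) (mX u) (2 * i)) * g0 (wd (mY β y) (mX u) (2 * i)) =
    g0 ((mY β y * mX u) ^ i) ^ 2 := by
  rw [wd_two_mul, rv_two_mul, sq]
  congr 1
  apply mul_left_cancel₀ hu
  rw [← g0_mul_X, ← g0_X_mul, mul_pow_swap]

omit hζ hne h in
theorem term_odd (i : ℕ) :
    g0 (rv (mY β y) (mX u) (2 * i + 1)) * g0 (wd (mY β y) (mX u) (2 * i + 1)) =
    u⁻¹ ^ 2 * g0 ((mY β y * mX u) ^ (i + 1)) ^ 2 := by
  rw [wd_odd, rv_odd, pow_succ _ i, ← mul_assoc, g0_mul_X]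
  field_simp

theorem sum_two_mul (n : ℕ) :
    (ζ ^ 2 - 1) * (w ^ 2 - 1) * ∑ k ∈ range (2 * n),
      g0 (rv (mY β y) (mX u) k) * g0 (wd (mY β y) (mX u) k) =
    (ζ ^ 2 - 1) * (w ^ 2 - 1) * (1 + u⁻¹ ^ 2) * (2 * n) *
      ((u * y - w) / (ζ - w) * ((ζ - u * y) / (ζ - w))) +
    ((u * y - w) / (ζ - w)) ^ 2 * (w ^ 2 - 1) * (1 + u⁻¹ ^ 2 * ζ ^ 2) * (ζ ^ (2 * n) - 1) +
    ((ζ - u * y) / (ζ - w)) ^ 2 * (ζ ^ 2 - 1) * (1 + u⁻¹ ^ 2 * w ^ 2) * (w ^ (2 * n) - 1) := by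
  induction n with
  | zero => simp
  | succ n ih =>
    rw [show 2 * (n + 1) = 2 * n + 1 + 1 by ring, sum_range_succ, sum_range_succ, mul_add, mul_add,
      ih, term_even hu, term_odd hu, g0_pow hu hζ hne h, g0_pow hu hζ hne h]
    have h3 : (ζ * w) ^ n = 1 := by rw [hζ, one_pow]
    rw [mul_pow] at h3
    generalize (u * y - w) / (ζ - w) = l
    generalize (ζ - u * y) / (ζ - w) = μ
    generalize u⁻¹ ^ 2 = s
    push_cast
    linear_combination (ζ ^ 2 - 1) * (w ^ 2 - 1) * 2 * l * μ * (1 + s) * h3 +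
      (ζ ^ 2 - 1) * (w ^ 2 - 1) * 2 * l * μ * s * ζ ^ n * w ^ n * hζ

theorem sum_eq {m : ℕ} (hm : ζ ^ m = 1) (hodd : Odd m → β = u - u⁻¹) (hu1 : u ^ 2 + 1 ≠ 0) :
    ∑ k ∈ range m, g0 (rv (mY β y) (mX u) k) * g0 (wd (mY β y) (mX u) k) =
      (1 + u⁻¹ ^ 2) * m * ((u * y - w) / (ζ - w) * ((ζ - u * y) / (ζ - w))) := by
  have e1 : ζ ^ 2 - 1 ≠ 0 := fun h0 => hne (by linear_combination w * h0 - ζ * hζ)
  have e2 : w ^ 2 - 1 ≠ 0 := fun h0 => hne (by linear_combination - ζ * h0 + w * hζ)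
  have hw : w ^ m = 1 := by
    have h3 : (ζ * w) ^ m = 1 := by rw [hζ, one_pow]
    rwa [mul_pow, hm, one_mul] at h3
  apply mul_left_cancel₀ (mul_ne_zero e1 e2)
  rcases Nat.even_or_odd' m with ⟨n, rfl | rfl⟩
  · rw [sum_two_mul hu hζ hne h, hm, hw]
    push_cast; ring
  · obtain rfl := hodd ⟨n, rfl⟩
    rw [sum_range_succ, mul_add, sum_two_mul hu hζ hne h, term_even hu, g0_pow hu hζ hne h]
    have h3 : (ζ * w) ^ n = 1 := by rw [hζ, one_pow]
    rw [mul_pow] at h3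
    have h4 : ζ ^ (2 * n) = w := by linear_combination w * hm - ζ ^ (2 * n) * hζ
    have h5 : w ^ (2 * n) = ζ := by linear_combination ζ * hw - w ^ (2 * n) * hζ
    have h6 : ((u * y - w) / (ζ - w) * ζ ^ n + (ζ - u * y) / (ζ - w) * w ^ n) ^ 2 =
        ((u * y - w) / (ζ - w)) ^ 2 * w + ((ζ - u * y) / (ζ - w)) ^ 2 * ζ +
          2 * ((u * y - w) / (ζ - w) * ((ζ - u * y) / (ζ - w))) := by
      linear_combination ((u * y - w) / (ζ - w)) ^ 2 * h4 + ((ζ - u * y) / (ζ - w)) ^ 2 * h5 +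
        2 * ((u * y - w) / (ζ - w) * ((ζ - u * y) / (ζ - w))) * h3
    rw [h6, h4, h5]
    have hζ0 : ζ ≠ 0 := left_ne_zero_of_mul_eq_one hζ
    obtain rfl : w = ζ⁻¹ := eq_inv_of_mul_eq_one_right hζ
    have hy : y = (u ^ 2 * (ζ + ζ⁻¹) + u ^ 2 - 1) / (u * (u ^ 2 + 1)) := by
      field_simp
      field_simp at h
      linear_combination h
    subst hy
    push_cast
    field_simp
    ring

end rep

/-- The rationality statement behind the Feit–Higman theorem. -/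
theorem key {R : Type*} [Ring R] [Algebra ℂ R] (τ : R →ₗ[ℂ] ℂ)
    (hτ : ∀ f : R, f * f = f → ∃ q : ℚ, τ f = q) (h1 : τ 1 ≠ 0) {x y : R} {u v : ℂ} {a b : ℕ}
    (ha : u ^ 2 = a) (hb : v ^ 2 = b) (ha0 : 0 < a) (hb0 : 0 < b)
    (hx : x * x = (u - u⁻¹) • x + 1) (hy : y * y = (v - v⁻¹) • y + 1) {m : ℕ} (hm0 : 0 < m)
    (hbr : wd x y m = wd y x m)
    (ht : ∀ k, 0 < k → k ≤ m → τ (wd x y k) = 0 ∧ τ (wd y x k) = 0) (hodd : Odd m → v = u)
    {ζ : ℂ} (hm : ζ ^ m = 1) (hζ2 : ζ ^ 2 ≠ 1) :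
    ∃ q : ℚ, - (u * v * (ζ + ζ⁻¹)) ^ 2 + (a - 1) * (b - 1) * (u * v * (ζ + ζ⁻¹)) +
      (a * b + 1) * (a + b) = q * (4 * a * b - (u * v * (ζ + ζ⁻¹)) ^ 2) := by
  have haC : (a : ℂ) ≠ 0 := by exact_mod_cast ha0.ne'
  have hbC : (b : ℂ) ≠ 0 := by exact_mod_cast hb0.ne'
  have hmC : (m : ℂ) ≠ 0 := by exact_mod_cast hm0.ne'
  have ha1 : (a : ℂ) + 1 ≠ 0 := by exact_mod_cast Nat.succ_ne_zero a
  have hu : u ≠ 0 := fun h => haC (by rw [← ha, h]; simp)
  have hv : v ≠ 0 := fun h => hbC (by rw [← hb, h]; simp)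
  have hζ0 : ζ ≠ 0 := fun h => by rw [h, zero_pow hm0.ne'] at hm; exact zero_ne_one hm
  have hζ : ζ * ζ⁻¹ = 1 := mul_inv_cancel₀ hζ0
  have hne : ζ - ζ⁻¹ ≠ 0 := fun h => hζ2 (by linear_combination ζ * h + hζ)
  have hu1 : u ^ 2 + 1 ≠ 0 := by rwa [ha]
  set β := v - v⁻¹ with hβ
  set y0 := (u * (ζ + ζ⁻¹) + β) / (u ^ 2 + 1) with hy0
  have h : u * y0 - (β - y0) * u⁻¹ = ζ + ζ⁻¹ := by
    rw [hy0]; field_simp; ring
  have hodd' : Odd m → β = u - u⁻¹ := fun ho => by rw [hβ, hodd ho]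
  obtain ⟨hB1, hB2⟩ := braid hu hζ hne h hm hodd'
  set C := ee (mX u) (mY β y0) (mX u) (mY β y0) m g0 with hC
  have hgX : tr g0 (mX u) = u • g0 := by ext M; simp [g0_mul_X]
  have hXC : mX u * C = u • C := by rw [hC, mul_ee (mX_sq hu) (mX_sq hu), hgX, map_smul]
  have hC10 : C 1 0 = 0 := by
    have h2 := congrFun (congrFun hXC 1) 0
    rw [Matrix.mul_apply, Fin.sum_univ_two] at h2
    simp only [mX, Matrix.of_apply, Matrix.cons_val', Matrix.cons_val_zero, Matrix.cons_val_one,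
      Matrix.cons_val_fin_one, zero_mul, zero_add, Matrix.smul_apply, smul_eq_mul] at h2
    apply mul_left_cancel₀ hu1
    field_simp at h2
    linear_combination -h2
  have hgC : tr g0 C = C 0 0 • g0 := by
    ext M
    simp [g0_apply, Matrix.mul_apply, Fin.sum_univ_two, hC10, mul_comm]
  set e := ee x y (mX u) (mY β y0) m g0 with he
  have hee : e * e = C 0 0 • e := by
    rw [he, ee_mul_ee hx (mX_sq hu) hy (mY_sq β y0) hbr hB2, ← hC, hgC, map_smul]
  have hτe : τ e = τ 1 := by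
    rw [he, ee_apply, map_sum]
    obtain ⟨n, rfl⟩ := Nat.exists_eq_succ_of_ne_zero hm0.ne'
    rw [sum_range_succ', sum_eq_zero fun k hk => by
      have hk' := mem_range.1 hk
      rw [map_add, map_smul, map_smul, (ht (k + 1) (by omega) (by omega)).2,
        (ht (k + 1 + 1) (by omega) (by omega)).1, smul_zero, smul_zero, add_zero],
      map_add, map_smul, map_smul, (ht (0 + 1) (by omega) (by omega)).1]
    simp [wd, rv, g0_apply]
  obtain ⟨N, hN⟩ := hτ 1 (mul_one 1)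
  have hrat : ∃ q : ℚ, C 0 0 = q := by
    by_cases h0 : C 0 0 = 0
    · exact ⟨0, by rw [h0]; simp⟩
    · obtain ⟨q, hq⟩ := hτ ((C 0 0)⁻¹ • e) (by
        rw [smul_mul_smul_comm, hee, smul_smul]
        congr 1; field_simp)
      rw [map_smul, hτe, smul_eq_mul] at hq
      have hq0 : (q : ℂ) ≠ 0 := hq ▸ mul_ne_zero (inv_ne_zero h0) h1
      refine ⟨N / q, ?_⟩
      push_cast
      rw [← hq, ← hN]
      field_simp
  obtain ⟨q, hq⟩ := hrat
  have hC00 : C 0 0 = (1 + u ^ 2) * ((1 + u⁻¹ ^ 2) * m *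
      ((u * y0 - ζ⁻¹) / (ζ - ζ⁻¹) * ((ζ - u * y0) / (ζ - ζ⁻¹)))) := by
    rw [← sum_eq hu hζ hne h hm hodd' hu1, ← g0_apply C, hC, ee_apply, map_sum, mul_sum]
    refine sum_congr rfl fun k _ => ?_
    simp only [map_add, map_smul, wd, rv, g0_mul_X, g0_X_mul, smul_eq_mul]
    ring
  refine ⟨q / m, ?_⟩
  push_cast
  rw [← hq, hC00, ← ha, ← hb, hy0, hβ]
  have hne' : ζ ^ 2 - 1 ≠ 0 := sub_ne_zero.2 hζ2
  have e1 : ζ - ζ⁻¹ = (ζ ^ 2 - 1) / ζ := by field_simp
  rw [e1]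
  field_simp
  ring

end Cfsg.Agent.H7.FH
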