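import Cfsg.Agent.H7.FH1

/-!
The Feit–Higman theorem, arithmetic part.
-/

set_option autoImplicit false
set_option linter.dupNamespace false

namespace Cfsg.Agent.H7.FH

theorem rat_c {ζ : ℂ} {m : ℕ} (hm0 : 0 < m) (hm : ζ ^ m = 1) {q : ℚ} (h : ζ + ζ⁻¹ = q) :
    ζ ^ 4 = 1 ∨ ζ ^ 6 = 1 := by
  have hζ0 : ζ ≠ 0 := fun h => by rw [h, zero_pow hm0.ne'] at hm; exact zero_ne_one hm
  have hζ : ζ * ζ⁻¹ = 1 := mul_inv_cancel₀ hζ0
  have h1 : IsIntegral ℤ ζ := IsIntegral.of_pow hm0 (by rw [hm]; exact isIntegral_one)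
  have h2 : IsIntegral ℤ ζ⁻¹ := IsIntegral.of_pow hm0 (by rw [inv_pow, hm, inv_one]; exact isIntegral_one)
  obtain ⟨n, hn⟩ := (h1.add h2).exists_int_iff_exists_rat.1 ⟨q, h⟩
  have hn1 : ‖ζ‖ = 1 := Complex.norm_eq_one_of_pow_eq_one hm hm0.ne'
  have hn2 : ‖(n : ℂ)‖ ≤ 2 := by
    rw [← hn]
    refine (norm_add_le _ _).trans ?_
    rw [norm_inv, hn1]; norm_num
  rw [Complex.norm_intCast] at hn2
  have hn3 : |n| ≤ 2 := by exact_mod_cast hn2
  have e : ζ ^ 2 - n * ζ + 1 = 0 := by linear_combination ζ * hn - hζ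
  obtain ⟨h4, h5⟩ := abs_le.1 hn3
  interval_cases n
  · left
    push_cast at e
    have : (ζ + 1) ^ 2 = 0 := by linear_combination e
    have : ζ = -1 := by linear_combination (pow_eq_zero_iff two_ne_zero).1 this
    rw [this]; norm_num
  · right
    push_cast at e
    linear_combination (ζ ^ 3 + 1) * (ζ - 1) * e
  · left
    push_cast at e
    linear_combination (ζ ^ 2 - 1) * e
  · right
    push_cast at e
    linear_combination (ζ ^ 3 - 1) * (ζ + 1) * e
  · left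
    push_cast at e
    have : (ζ - 1) ^ 2 = 0 := by linear_combination e
    have : ζ = 1 := by linear_combination (pow_eq_zero_iff two_ne_zero).1 this
    rw [this]; norm_num

/-- From the two signs: `X` is rational. -/
theorem rat_X {a b : ℕ} (ha : 2 ≤ a) (hb : 2 ≤ b) {X : ℂ} {q q' : ℚ}
    (h : - X ^ 2 + (a - 1) * (b - 1) * X + (a * b + 1) * (a + b) = q * (4 * a * b - X ^ 2))
    (h' : - (-X) ^ 2 + (a - 1) * (b - 1) * (-X) + (a * b + 1) * (a + b) =
      q' * (4 * a * b - (-X) ^ 2)) : ∃ r : ℚ, X = r := by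
  have haQ : (2 : ℚ) ≤ a := by exact_mod_cast ha
  have hbQ : (2 : ℚ) ≤ b := by exact_mod_cast hb
  set K : ℚ := a * (b - 1) ^ 2 + b * (a - 1) ^ 2 with hK
  have hK0 : K ≠ 0 := by
    have : 0 < K := by rw [hK]; nlinarith
    exact this.ne'
  have hKC : (K : ℂ) ≠ 0 := by exact_mod_cast hK0
  have e1 : 2 * (K : ℂ) = ((q + q' - 2 : ℚ) : ℂ) * (4 * a * b - X ^ 2) := by
    rw [hK]; push_cast; linear_combination h + h'
  have hs : ((q + q' - 2 : ℚ) : ℂ) ≠ 0 := fun h0 => hKC (by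
    rw [h0, zero_mul] at e1; linear_combination e1 / 2)
  have hab : (((a - 1) * (b - 1) : ℚ) : ℂ) ≠ 0 := by
    have : (0 : ℚ) < (a - 1) * (b - 1) := by nlinarith
    exact_mod_cast this.ne'
  refine ⟨(q - q') * K / ((q + q' - 2) * ((a - 1) * (b - 1))), ?_⟩
  rw [Rat.cast_div, Rat.cast_mul (q + q' - 2), eq_div_iff (mul_ne_zero hs hab)]
  push_cast at e1 ⊢
  linear_combination (q + q' - 2) / 2 * (h - h') - (q - q') / 2 * e1

theorem arith {a b m : ℕ} (ha : 2 ≤ a) (hb : 2 ≤ b) (hm : 2 ≤ m) {u v : ℂ} (hu : u ^ 2 = a)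
    (hv : v ^ 2 = b) (hodd : Odd m → v = u)
    (h : ∀ ζ : ℂ, ζ ^ m = 1 → ζ ^ 2 ≠ 1 → ∃ q : ℚ, - (u * v * (ζ + ζ⁻¹)) ^ 2 +
      (a - 1) * (b - 1) * (u * v * (ζ + ζ⁻¹)) + (a * b + 1) * (a + b) =
      q * (4 * a * b - (u * v * (ζ + ζ⁻¹)) ^ 2)) : m = 2 ∨ m = 3 ∨ m = 4 ∨ m = 6 ∨ m = 8 := by
  have hm0 : 0 < m := by omega
  have hζ := Complex.isPrimitiveRoot_exp m hm0.ne'
  set ζ := Complex.exp (2 * Real.pi * Complex.I / m) with hζdef
  clear_value ζ
  have hζ0 : ζ ≠ 0 := hζ.ne_zero hm0.ne'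
  have hi : ζ * ζ⁻¹ = 1 := mul_inv_cancel₀ hζ0
  have haC : (a : ℂ) ≠ 0 := by exact_mod_cast (by omega : a ≠ 0)
  have hbC : (b : ℂ) ≠ 0 := by exact_mod_cast (by omega : b ≠ 0)
  by_cases h2 : m = 2
  · exact Or.inl h2
  have hz2 : ζ ^ 2 ≠ 1 := fun e => by
    have := Nat.le_of_dvd two_pos (hζ.dvd_of_pow_eq_one _ e)
    omega
  rcases Nat.even_or_odd m with he | ho
  · have hX : ∀ η : ℂ, η ^ m = 1 → η ^ 2 ≠ 1 → ∃ r : ℚ, u * v * (η + η⁻¹) = r := by
      intro η h1 h2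
      obtain ⟨q, hq⟩ := h η h1 h2
      obtain ⟨q', hq'⟩ := h (-η) (by rw [he.neg_pow, h1]) (by rwa [neg_sq])
      have e : u * v * (-η + (-η)⁻¹) = -(u * v * (η + η⁻¹)) := by rw [inv_neg]; ring
      rw [e] at hq'
      exact rat_X ha hb hq hq'
    obtain ⟨r, hr⟩ := hX ζ hζ.pow_eq_one hz2
    have e2 : ζ ^ 2 + (ζ ^ 2)⁻¹ = ((r ^ 2 / (a * b) - 2 : ℚ) : ℂ) := by
      push_cast
      rw [← hr, eq_sub_iff_add_eq, eq_div_iff (mul_ne_zero haC hbC), ← hu, ← hv, ← inv_pow]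
      linear_combination (-2 * u ^ 2 * v ^ 2) * hi
    have hm2 : (ζ ^ 2) ^ m = 1 := by rw [← pow_mul, mul_comm, pow_mul, hζ.pow_eq_one, one_pow]
    obtain ⟨k, hk⟩ := he
    rcases rat_c hm0 hm2 e2 with h8 | h12
    · rw [← pow_mul] at h8
      have h9 := hζ.dvd_of_pow_eq_one _ h8
      have := Nat.le_of_dvd (by norm_num) h9
      interval_cases m <;> omega
    · rw [← pow_mul] at h12
      have h9 := hζ.dvd_of_pow_eq_one _ h12
      have := Nat.le_of_dvd (by norm_num) h9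
      by_cases hm12 : m = 12
      · exfalso
        have hz4 : (ζ ^ 2) ^ 2 ≠ 1 := fun e => by
          rw [← pow_mul] at e
          have := Nat.le_of_dvd (by norm_num) (hζ.dvd_of_pow_eq_one _ e)
          omega
        obtain ⟨r', hr'⟩ := hX (ζ ^ 2) hm2 hz4
        have hc : ζ ^ 2 + (ζ ^ 2)⁻¹ ≠ 0 := fun e => by
          have e8 : ζ ^ 8 = 1 := by
            rw [← inv_pow] at e
            have e4 : ζ ^ 4 = -1 := by linear_combination ζ ^ 2 * e - (ζ * ζ⁻¹ + 1) * hi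
            linear_combination (ζ ^ 4 - 1) * e4
          have := Nat.le_of_dvd (by norm_num) (hζ.dvd_of_pow_eq_one _ e8)
          omega
        have huv : u * v ≠ 0 := mul_ne_zero (fun e => haC (by rw [← hu, e]; simp))
          (fun e => hbC (by rw [← hv, e]; simp))
        have hr0 : (r' : ℂ) ≠ 0 := by rw [← hr']; exact mul_ne_zero huv hc
        have e3 : ζ + ζ⁻¹ = ((r * (r ^ 2 / (a * b) - 2) / r' : ℚ) : ℂ) := by
          rw [Rat.cast_div, Rat.cast_mul, ← e2, eq_div_iff hr0, ← hr', ← hr]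
          ring
        rcases rat_c hm0 hζ.pow_eq_one e3 with h4 | h6
        · have := Nat.le_of_dvd (by norm_num) (hζ.dvd_of_pow_eq_one _ h4)
          omega
        · have := Nat.le_of_dvd (by norm_num) (hζ.dvd_of_pow_eq_one _ h6)
          omega
      · interval_cases m <;> omega
  · have huv := hodd ho
    subst huv
    have hab : (b : ℂ) = a := by rw [← hu, ← hv]
    obtain ⟨q, hq⟩ := h ζ hζ.pow_eq_one hz2
    rw [hab, ← sq, hu] at hq
    have hc : ζ + ζ⁻¹ + 2 ≠ 0 := fun e => hz2 (by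
      have : (ζ + 1) ^ 2 = 0 := by linear_combination ζ * e - hi
      have : ζ = -1 := by linear_combination (pow_eq_zero_iff two_ne_zero).1 this
      rw [this]; norm_num)
    have e1 : (a : ℂ) ^ 2 + 1 - a * (ζ + ζ⁻¹) = q * a * (2 - (ζ + ζ⁻¹)) := by
      apply mul_left_cancel₀ (mul_ne_zero haC hc)
      linear_combination hq
    have hq1 : (q : ℂ) - 1 ≠ 0 := fun e => by
      have e' : (q : ℂ) = 1 := by linear_combination e
      rw [e'] at e1
      have : ((a : ℂ) - 1) ^ 2 = 0 := by linear_combination e1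
      have : (a : ℂ) = 1 := by linear_combination (pow_eq_zero_iff two_ne_zero).1 this
      have : a = 1 := by exact_mod_cast this
      omega
    have e2 : ζ + ζ⁻¹ = (((2 * q * a - a ^ 2 - 1) / ((q - 1) * a) : ℚ) : ℂ) := by
      push_cast
      rw [eq_div_iff (mul_ne_zero hq1 haC)]
      linear_combination e1
    obtain ⟨k, hk⟩ := ho
    rcases rat_c hm0 hζ.pow_eq_one e2 with h4 | h6
    · have h9 := hζ.dvd_of_pow_eq_one _ h4
      have := Nat.le_of_dvd (by norm_num) h9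
      interval_cases m <;> omega
    · have h9 := hζ.dvd_of_pow_eq_one _ h6
      have := Nat.le_of_dvd (by norm_num) h9
      interval_cases m <;> omega

end Cfsg.Agent.H7.FH
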