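import Cfsg.Agent.H7.FH2
import Cfsg.Agent.H15.BNCard
import Cfsg.Agent.H11.Invol

/-!
The Feit–Higman theorem for (B, N)-pairs of rank two.
-/

set_option autoImplicit false
set_option linter.dupNamespace false

namespace Cfsg.Agent.H7.FH

open Cfsg.Agent.H15 Cfsg.Agent.H15.BN Finset

section cox
variable {ι W : Type*} [Group W] (E : ExSys ι W)

theorem alt_prefix {i j : ι} {k : ℕ} {l₁ l₂ : List ι} (h : alt i j k = l₁ ++ l₂) :
    l₁ = alt i j l₁.length := by
  induction l₁ generalizing i j k with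
  | nil => rfl
  | cons a l ih =>
    cases k with
    | zero => simp [alt] at h
    | succ k =>
      simp only [alt, List.cons_append, List.cons.injEq] at h
      rw [List.length_cons, alt, ← ih h.2, h.1]

theorem pos_alt {i j : ι} {k : ℕ} (hk : k < orderOf (E.s i * E.s j)) :
    E.pos i (E.wp (alt j i k)) := by
  by_contra h
  obtain ⟨l₁, a, l₂, h1, h2⟩ := E.exch_word h
  have h3 := alt_prefix h1
  have h4 : alt j i k = (l₁ ++ [a]) ++ l₂ := by rw [h1]; simp
  have h5 := alt_prefix h4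
  have h6 : E.wp (alt i j (l₁.length + 1)) = E.wp (alt j i (l₁.length + 1)) := by
    rw [List.length_append, List.length_singleton] at h5
    rw [← h5, alt, ← h3, InvSys.wp_cons, h2, InvSys.wp_append, InvSys.wp_singleton]
  have h7 := E.pow_eq_one_of_alt h6
  have h8 := congrArg List.length h1
  rw [alt_length, List.length_append, List.length_cons] at h8
  exact pow_ne_one_of_lt_orderOf (by omega) (by omega) h7

theorem orderOf_swap (i j : ι) : orderOf (E.s j * E.s i) = orderOf (E.s i * E.s j) := by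
  rw [← orderOf_inv, mul_inv_rev, E.inv_s, E.inv_s]

theorem red_alt {i j : ι} {k : ℕ} (hk : k ≤ orderOf (E.s i * E.s j)) : E.Red (alt i j k) := by
  induction k generalizing i j with
  | zero => exact E.red_nil
  | succ k ih =>
    exact E.red_cons (ih (by rw [orderOf_swap]; omega)) (pos_alt E hk)

theorem wp_alt_ne_one {i j : ι} {k : ℕ} (hk0 : 0 < k) (hk : k ≤ orderOf (E.s i * E.s j)) :
    E.wp (alt i j k) ≠ 1 := fun h => by
  have := red_alt E hk
  rw [InvSys.Red, h, E.len_one, alt_length] at this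
  omega

theorem wp_alt_braid (i j : ι) : E.wp (alt i j (orderOf (E.s i * E.s j))) =
    E.wp (alt j i (orderOf (E.s i * E.s j))) := by
  have := alt_prod_pow E.s E.sq i j (orderOf (E.s i * E.s j))
  rwa [pow_orderOf_eq_one, one_mul] at this

end cox

section smul
variable {R : Type*} [Ring R] [Algebra ℂ R]

theorem wd_smul (c d : ℂ) (x y : R) (k : ℕ) : wd (c • x) (d • y) k = wd c d k • wd x y k := by
  induction k generalizing c d x y with
  | zero => simp [wd]
  | succ k ih => rw [wd, wd, wd, ih, smul_mul_smul_comm]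

theorem wd_comm {c d : ℂ} {k : ℕ} (h : Odd k → d = c) : wd c d k = wd d c k := by
  rcases Nat.even_or_odd' k with ⟨i, rfl | rfl⟩
  · rw [wd_two_mul, wd_two_mul, mul_comm]
  · rw [h ⟨i, rfl⟩]

end smul

section mat
variable {G : Type*} [Group G] (B : Subgroup G) [Fintype (G ⧸ B)] [DecidableEq (G ⧸ B)]

open Classical in
/-- The incidence matrix of a subset. -/
noncomputable def ind (S : Set G) : Matrix (G ⧸ B) (G ⧸ B) ℂ :=
  fun p q => if p.out⁻¹ * q.out ∈ S then 1 else 0

open Classical in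
/-- The number of cosets in a subset. -/
noncomputable def num (S : Set G) : ℕ := #{r : G ⧸ B | r.out ∈ S}

variable {B}

omit [Fintype (G ⧸ B)] [DecidableEq (G ⧸ B)] in
theorem out_mk_mem {S : Set G} (hS : ∀ g ∈ S, ∀ b ∈ B, g * b ∈ S) (x g : G) :
    x * (g : G ⧸ B).out ∈ S ↔ x * g ∈ S := by
  obtain ⟨b, hb⟩ := QuotientGroup.mk_out_eq_mul B g
  rw [hb, ← mul_assoc]
  refine ⟨fun h => ?_, fun h => hS _ h _ b.2⟩
  simpa using hS _ h _ (inv_mem b.2)

omit [DecidableEq (G ⧸ B)] in
theorem sum_ind {S : Set G} (hS : ∀ g ∈ S, ∀ b ∈ B, g * b ∈ S) (p : G ⧸ B) :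
    ∑ r, ind B S p r = num B S := by
  classical
  rw [num, card_filter, Nat.cast_sum]
  refine Fintype.sum_equiv (MulAction.toPerm p.out⁻¹) _ _ fun r => ?_
  have e : (MulAction.toPerm p.out⁻¹ r).out ∈ S ↔ p.out⁻¹ * r.out ∈ S := by
    have := out_mk_mem hS 1 (p.out⁻¹ * r.out)
    rw [one_mul, one_mul] at this
    rw [← this, MulAction.toPerm_apply]
    conv_lhs => rw [← QuotientGroup.out_eq' r]
    rfl
  simp only [ind, e]
  split_ifs <;> simp

omit [Fintype (G ⧸ B)] in
theorem ind_self : ind B B = 1 := by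
  ext p q
  rw [ind, Matrix.one_apply]
  congr 1
  rw [SetLike.mem_coe, ← QuotientGroup.eq, QuotientGroup.out_eq', QuotientGroup.out_eq']

omit [DecidableEq (G ⧸ B)] in
theorem ind_mul_self {H : Subgroup G} (h : B ≤ H) :
    ind B H * ind B H = (num B H : ℂ) • ind B H := by
  ext p q
  rw [Matrix.mul_apply, Matrix.smul_apply, ← sum_ind (fun g hg b hb => mul_mem hg (h hb)) p,
    smul_eq_mul, sum_mul]
  refine sum_congr rfl fun r _ => ?_
  by_cases h1 : p.out⁻¹ * r.out ∈ H
  · have : r.out⁻¹ * q.out ∈ H ↔ p.out⁻¹ * q.out ∈ H := by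
      rw [← mul_mem_cancel_left h1]; simp [mul_assoc]
    by_cases h2 : p.out⁻¹ * q.out ∈ H
    · simp [ind, h1, h2, this.2 h2]
    · simp [ind, h1, h2, mt this.1 h2]
  · simp [ind, h1]

omit [DecidableEq (G ⧸ B)] in
theorem trace_ind {S : Set G} (h : 1 ∉ S) : (ind B S).trace = 0 := by
  simp [Matrix.trace, ind, h]

omit [DecidableEq (G ⧸ B)] in
theorem ind_mulVec {S : Set G} (hS : ∀ g ∈ S, ∀ b ∈ B, g * b ∈ S) :
    (ind B S).mulVec 1 = (num B S : ℂ) • (1 : G ⧸ B → ℂ) := by
  ext p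
  simp [Matrix.mulVec, dotProduct, sum_ind hS]

theorem trace_rat {n : Type*} [Fintype n] [DecidableEq n] (f : Matrix n n ℂ) (hf : f * f = f) :
    ∃ q : ℚ, f.trace = q := by
  have h : IsIdempotentElem (Matrix.toLin' f) := by
    rw [IsIdempotentElem, Module.End.mul_eq_comp, ← Matrix.toLin'_mul, hf]
  refine ⟨(Module.finrank ℂ (LinearMap.range (Matrix.toLin' f)) : ℕ), ?_⟩
  rw [← Matrix.trace_toLin'_eq, (LinearMap.IsIdempotentElem.isProj_range _ h).trace]
  simp

theorem wd_mulVec {n : Type*} [Fintype n] [DecidableEq n] {x y : Matrix n n ℂ} {c d : ℂ}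
    {e : n → ℂ} (hx : x.mulVec e = c • e) (hy : y.mulVec e = d • e) (k : ℕ) :
    (wd x y k).mulVec e = wd c d k • e := by
  induction k generalizing x y c d with
  | zero => simp [wd]
  | succ k ih => rw [wd, wd, ← Matrix.mulVec_mulVec, ih hy hx, Matrix.mulVec_smul, hx, smul_smul,
      mul_comm]

end mat

section bn
variable {G : Type*} [Group G] {P : BNPair G} [Fintype (G ⧸ P.B)] [DecidableEq (G ⧸ P.B)]

omit [DecidableEq (G ⧸ P.B)] in
theorem ind_mul {i : P.S} {w : W P} (h : (ex P).pos i w) :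
    ind P.B (C P (sW P i)) * ind P.B (C P w) = ind P.B (C P (sW P i * w)) := by
  classical
  ext p q
  rw [Matrix.mul_apply]
  by_cases h1 : p.out⁻¹ * q.out ∈ C P (sW P i * w)
  · obtain ⟨y, hy, z, hz, e⟩ := exists_mul_of_mem_C h1
    obtain ⟨b, hb⟩ := QuotientGroup.mk_out_eq_mul P.B (p.out * y)
    rw [sum_eq_single ((p.out * y : G) : G ⧸ P.B)]
    · have h2 : p.out⁻¹ * ((p.out * y : G) : G ⧸ P.B).out ∈ C P (sW P i) := by
        rw [hb, mul_assoc, inv_mul_cancel_left]; exact mul_mem_C_right hy b.2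
      have h3 : ((p.out * y : G) : G ⧸ P.B).out⁻¹ * q.out ∈ C P w := by
        rw [hb, mul_inv_rev, mul_inv_rev, mul_assoc, mul_assoc, e, inv_mul_cancel_left]
        exact mul_mem_C_left (inv_mem b.2) hz
      simp [ind, h1, h2, h3]
    · intro r _ hr
      simp only [ind]
      split_ifs with h2 h3
      · exfalso
        apply hr
        have := inv_mul_mem_of_pos h h2 h3 hy hz (by rw [← e]; group)
        rw [← QuotientGroup.out_eq' r, QuotientGroup.eq]
        simpa [mul_assoc] using this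
      all_goals simp
    · simp
  · rw [sum_eq_zero]
    · simp [ind, h1]
    · intro r _
      simp only [ind]
      split_ifs with h2 h3
      · exact absurd (by simpa [mul_assoc] using mul_mem_of_pos h h2 h3) h1
      all_goals simp

theorem wd_ind {i j : P.S} {k : ℕ} (hk : k ≤ orderOf (sW P i * sW P j)) :
    wd (ind P.B (C P (sW P i))) (ind P.B (C P (sW P j))) k =
      ind P.B (C P ((ex P).wp (alt i j k))) := by
  induction k generalizing i j with
  | zero =>
    have : C P 1 = P.B := Set.ext fun _ => mem_C_one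
    rw [alt, InvSys.wp_nil, this, ind_self, wd]
  | succ k ih =>
    have := orderOf_swap (ex P) i j
    simp only [ex_s] at this
    rw [wd, ih (by omega), ind_mul (pos_alt (ex P) hk), alt, InvSys.wp_cons, ex_s]

theorem ind_parG (i : P.S) : ind P.B (parG P {i}) = 1 + ind P.B (C P (sW P i)) := by
  rw [← ind_self]
  ext p q
  by_cases h1 : p.out⁻¹ * q.out ∈ P.B
  · have : p.out⁻¹ * q.out ∉ C P (sW P i) := fun h2 =>
      sW_ne_one i (eq_of_mem_C h2 (mem_C_one.2 h1))
    simp [ind, h1, this, mem_parG_singleton]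
  · by_cases h2 : p.out⁻¹ * q.out ∈ C P (sW P i) <;> simp [ind, h1, h2, mem_parG_singleton]

theorem ind_sq (i : P.S) : ind P.B (C P (sW P i)) * ind P.B (C P (sW P i)) =
    ((num P.B (C P (sW P i)) : ℂ) - 1) • ind P.B (C P (sW P i)) +
      (num P.B (C P (sW P i)) : ℂ) • 1 := by
  have h1 := ind_mul_self (B_le_parG (P := P) {i})
  have h2 := ind_mulVec (B := P.B) (S := parG P {i})
    (fun g hg b hb => mul_mem hg (B_le_parG _ hb))
  rw [ind_parG] at h1 h2
  rw [Matrix.add_mulVec, ind_mulVec fun g hg b hb => mul_mem_C_right hg hb, Matrix.one_mulVec] at h2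
  have h3 := congrFun h2 ((1 : G) : G ⧸ P.B)
  simp only [Pi.add_apply, Pi.one_apply, Pi.smul_apply, smul_eq_mul, mul_one] at h3
  rw [← h3] at h1
  simp only [mul_add, add_mul, one_mul, mul_one] at h1
  linear_combination (norm := module) h1

omit [DecidableEq (G ⧸ P.B)] in
theorem two_le_num (i : P.S) : 2 ≤ num P.B (C P (sW P i)) := by
  classical
  obtain ⟨x, hx, y, hy, hxy⟩ := exists_ss_mem i
  have key : ∀ g ∈ C P (sW P i), (g : G ⧸ P.B).out ∈ C P (sW P i) := fun g hg => by
    have := out_mk_mem (B := P.B) (S := C P (sW P i)) (fun g hg b hb => mul_mem_C_right hg hb) 1 g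
    rw [one_mul, one_mul] at this
    exact this.2 hg
  rw [num, show 2 = 1 + 1 from rfl, Nat.succ_le_iff, one_lt_card]
  refine ⟨(x : G ⧸ P.B), by simpa using key x hx, ((x * y : G) : G ⧸ P.B), by simpa using key _ hxy,
    fun h => ?_⟩
  rw [QuotientGroup.eq, inv_mul_cancel_left] at h
  exact sW_ne_one i (eq_of_mem_C hy (mem_C_one.2 h))

end bn

theorem feit_higman_order {G : Type*} [Group G] [Finite G] {P : BNPair G} {i j : P.S}
    (hij : i ≠ j) {m : ℕ} (hm : orderOf (sW P i * sW P j) = m) :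
    m = 2 ∨ m = 3 ∨ m = 4 ∨ m = 6 ∨ m = 8 := by
  classical
  have := Fintype.ofFinite (G ⧸ P.B)
  have hm0 : 0 < m := hm ▸ orderOf_pos _
  have hm1 : m ≠ 1 := fun h => by
    rw [h, orderOf_eq_one_iff, mul_eq_one_iff_eq_inv, ← ex_s, ← ex_s, (ex P).inv_s] at hm
    exact hij (ex_inj P hm)
  have hm' : orderOf (sW P j * sW P i) = m := by rw [← hm]; exact orderOf_swap (ex P) i j
  set a := num P.B (C P (sW P i)) with ha
  set b := num P.B (C P (sW P j)) with hb
  have ha2 : 2 ≤ a := two_le_num i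
  have hb2 : 2 ≤ b := two_le_num j
  have haC : (a : ℂ) ≠ 0 := by exact_mod_cast (by omega : a ≠ 0)
  have hbC : (b : ℂ) ≠ 0 := by exact_mod_cast (by omega : b ≠ 0)
  set A := ind P.B (C P (sW P i)) with hA
  set A' := ind P.B (C P (sW P j)) with hA'
  have hbr : wd A A' m = wd A' A m := by
    rw [wd_ind hm.ge, wd_ind hm'.ge, ← hm]
    exact congrArg (fun w => ind P.B (C P w)) (wp_alt_braid (ex P) i j)
  have hab : Odd m → b = a := by
    rintro ⟨k, hk⟩
    have h1 : A.mulVec 1 = (a : ℂ) • (1 : G ⧸ P.B → ℂ) :=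
      ind_mulVec fun g hg b hb => mul_mem_C_right hg hb
    have h2 : A'.mulVec 1 = (b : ℂ) • (1 : G ⧸ P.B → ℂ) :=
      ind_mulVec fun g hg b hb => mul_mem_C_right hg hb
    have h3 := wd_mulVec h1 h2 m
    rw [hbr, wd_mulVec h2 h1 m] at h3
    have h4 := congrFun h3 ((1 : G) : G ⧸ P.B)
    simp only [Pi.one_apply, Pi.smul_apply, smul_eq_mul, mul_one] at h4
    rw [hk, wd_odd, wd_odd, mul_comm (b : ℂ)] at h4
    exact_mod_cast mul_left_cancel₀ (pow_ne_zero k (mul_ne_zero haC hbC)) h4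
  set u : ℂ := ((Real.sqrt a : ℝ) : ℂ) with hu
  set v : ℂ := ((Real.sqrt b : ℝ) : ℂ) with hv
  have hu2 : u ^ 2 = a := by
    rw [hu, ← Complex.ofReal_pow, Real.sq_sqrt (Nat.cast_nonneg a), Complex.ofReal_natCast]
  have hv2 : v ^ 2 = b := by
    rw [hv, ← Complex.ofReal_pow, Real.sq_sqrt (Nat.cast_nonneg b), Complex.ofReal_natCast]
  have hodd : Odd m → v = u := fun h => by rw [hu, hv, hab h]
  have hsq : ∀ (X : Matrix (G ⧸ P.B) (G ⧸ P.B) ℂ) (c : ℕ) (w : ℂ), w ^ 2 = c → (c : ℂ) ≠ 0 →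
      X * X = ((c : ℂ) - 1) • X + (c : ℂ) • 1 →
      (w⁻¹ • X) * (w⁻¹ • X) = (w - w⁻¹) • (w⁻¹ • X) + 1 := by
    intro X c w hw hc hX
    have hw0 : w ≠ 0 := fun h => hc (by rw [← hw, h]; simp)
    rw [smul_mul_smul_comm, hX, ← hw, smul_add, smul_smul, smul_smul, smul_smul]
    congr 1
    · congr 1; field_simp
    · rw [show w⁻¹ * w⁻¹ * w ^ 2 = 1 by field_simp, one_smul]
  refine arith ha2 hb2 (by omega) hu2 hv2 hodd fun ζ h1 h2 => ?_
  refine key (Matrix.traceLinearMap (G ⧸ P.B) ℂ ℂ) (fun f hf => trace_rat f hf) ?_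
    (x := u⁻¹ • A) (y := v⁻¹ • A') hu2 hv2 (by omega) (by omega)
    (hsq _ _ _ hu2 haC (ind_sq i)) (hsq _ _ _ hv2 hbC (ind_sq j)) hm0 ?_ ?_ hodd h1 h2
  · simp
  · rw [wd_smul, wd_smul, hbr, wd_comm fun h => by rw [hodd h]]
  · intro k hk0 hk
    rw [wd_smul, wd_smul, map_smul, map_smul, wd_ind (hm.symm ▸ hk), wd_ind (hm'.symm ▸ hk),
      Matrix.traceLinearMap_apply, Matrix.traceLinearMap_apply, trace_ind, trace_ind]
    · simp
    · intro h
      exact wp_alt_ne_one (ex P) hk0 (hm'.symm ▸ hk) (eq_of_mem_C h (mem_C_one.2 (one_mem _)))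
    · intro h
      exact wp_alt_ne_one (ex P) hk0 (hm.symm ▸ hk) (eq_of_mem_C h (mem_C_one.2 (one_mem _)))

/-- The Weyl group of a rank two pair is dihedral. -/
theorem card_W {G : Type*} [Group G] [Finite G] {P : BNPair G} {i j : P.S}
    (hij : i ≠ j) (hall : ∀ k, k = i ∨ k = j) :
    Nat.card (W P) = 2 * orderOf (sW P i * sW P j) := by
  have hs : sW P i * sW P i = 1 := (ex P).sq i
  have ht : sW P j * sW P j = 1 := (ex P).sq j
  have hsi : (sW P i)⁻¹ = sW P i := (ex P).inv_s i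
  have hti : (sW P j)⁻¹ = sW P j := (ex P).inv_s j
  have hsa : sW P i ∉ Subgroup.zpowers (sW P i * sW P j) := by
    intro h
    obtain ⟨n, hn⟩ := Subgroup.mem_zpowers_iff.1 h
    have hc : Commute (sW P i * sW P j) (sW P i) := by
      conv_rhs => rw [← hn]
      exact Commute.self_zpow _ _
    have h2 : (sW P i * sW P j) ^ 2 = 1 := by
      rw [sq, ← mul_assoc, hc.eq, ← mul_assoc, hs, one_mul, ht]
    have h3 := wp_alt_ne_one (ex P) (i := i) (j := j) (k := 1)
    rcases Int.even_or_odd' n with ⟨k, rfl | rfl⟩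
    · rw [zpow_mul, zpow_ofNat, h2, one_zpow] at hn
      exact sW_ne_one i hn.symm
    · rw [zpow_add, zpow_mul, zpow_ofNat, h2, one_zpow, one_mul, zpow_one] at hn
      exact sW_ne_one j (mul_eq_left.1 hn)
  obtain ⟨e⟩ := H11.nonempty_closure_equiv_dihedral (orderOf_pos _) rfl
    (by rw [mul_inv_rev, hsi, hti, ← mul_assoc, hs, one_mul]) hs hsa
  have htop : Subgroup.closure ({sW P i * sW P j, sW P i} : Set (W P)) = ⊤ := by
    rw [eq_top_iff, ← (inv P).gen, Subgroup.closure_le]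
    rintro _ ⟨k, rfl⟩
    have h1 : sW P i ∈ Subgroup.closure ({sW P i * sW P j, sW P i} : Set (W P)) :=
      Subgroup.subset_closure (by simp)
    have h2 : sW P i * sW P j ∈ Subgroup.closure ({sW P i * sW P j, sW P i} : Set (W P)) :=
      Subgroup.subset_closure (by simp)
    rcases hall k with rfl | rfl
    · exact h1
    · exact (mul_mem_cancel_left h1).1 h2
  rw [← DihedralGroup.nat_card, ← Nat.card_congr e.toEquiv, htop, Subgroup.card_top]

theorem feit_higman {G : Type*} [Group G] [Finite G] (P : BNPair G) (h2 : P.rank = 2) :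
    ((P.B ⊓ P.N).subgroupOf P.N).index ∈ ({4, 6, 8, 12, 16} : Set ℕ) := by
  obtain ⟨i, j, hij, hU⟩ := Nat.card_eq_two_iff.1 h2
  have hall : ∀ k, k = i ∨ k = j := fun k => by
    have : k ∈ ({i, j} : Set P.S) := hU ▸ Set.mem_univ k
    simpa using this
  have h1 := card_W hij hall
  have h3 := feit_higman_order hij rfl
  change Nat.card (W P) ∈ _
  rw [h1]
  simp only [Set.mem_insert_iff, Set.mem_singleton_iff]
  omega

end Cfsg.Agent.H7.FH
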