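import Cfsg.Agent.H7.HHe3

/-! Gross's bound on the `2`-length: generalized reflections in a `2`-group acting on an abelian
group of odd order. -/

set_option autoImplicit false

namespace Cfsg.Agent.H7

open Module Subgroup
open scoped commutatorElement

variable {U : Type*} [AddCommGroup U] {R : Type*} [Group R]

theorem gr_exists_comm_fixed [Finite R] {p : ℕ} [Fact p.Prime] (hR : IsPGroup p R) {A : Subgroup R}
    (hAn : A.Normal) (hA : IsMulCommutative A) {h z : R} (hzh : Commute h z)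
    (hz : z ∉ centralizer (A : Set R)) :
    ∃ b ∈ A, z⁻¹ * b * z * b⁻¹ ≠ 1 ∧ Commute h (z⁻¹ * b * z * b⁻¹) := by
  have hAc := H9.isMulCommutative_iff'.mp hA
  let C : Subgroup R :=
    { carrier := {c | ∃ b ∈ A, c = z⁻¹ * b * z * b⁻¹}
      one_mem' := ⟨1, one_mem _, by simp⟩
      mul_mem' := by
        rintro _ _ ⟨a, ha, rfl⟩ ⟨b, hb, rfl⟩
        refine ⟨a * b, mul_mem ha hb, ?_⟩
        have h1 := hAc _ (inv_mem ha) _ (mul_mem (hAn.conj_mem' b hb z) (inv_mem hb))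
        have h2 := hAc _ (inv_mem ha) _ (inv_mem hb)
        rw [mul_assoc (z⁻¹ * a * z), h1, mul_inv_rev]
        group
      inv_mem' := by
        rintro _ ⟨a, ha, rfl⟩
        refine ⟨a⁻¹, inv_mem ha, ?_⟩
        have h1 := hAc _ ha _ (hAn.conj_mem' _ (inv_mem ha) z)
        rw [inv_inv, ← h1]
        group }
  have hC0 : C ≠ ⊥ := fun h0 => hz (by
    intro b hb
    have : z⁻¹ * b * z * b⁻¹ ∈ C := ⟨b, hb, rfl⟩
    rw [h0, mem_bot] at this
    calc b * z = z * (z⁻¹ * b * z * b⁻¹) * b := by group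
      _ = z * b := by rw [this, mul_one])
  have hhC : zpowers h ≤ normalizer (C : Set R) := by
    rw [zpowers_le]
    refine mem_normalizer_fintype ?_
    rintro _ ⟨b, hb, rfl⟩
    refine ⟨h * b * h⁻¹, hAn.conj_mem b hb h, ?_⟩
    have e1 : h * z⁻¹ = z⁻¹ * h := hzh.inv_right.eq
    have e2 : h⁻¹ * z = z * h⁻¹ := hzh.inv_left.eq
    calc h * (z⁻¹ * b * z * b⁻¹) * h⁻¹ = (h * z⁻¹) * b * z * b⁻¹ * h⁻¹ := by group
      _ = z⁻¹ * h * b * (z * h⁻¹) * h * b⁻¹ * h⁻¹ := by rw [e1]; group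
      _ = _ := by rw [← e2]; group
  obtain ⟨⟨c, ⟨b, hb, hbc⟩, hch⟩, hc1⟩ := ne_bot_iff_exists_ne_one.mp
    (H1.inf_centralizer_ne_bot_of_isPGroup (hR.to_subgroup C) (hR.to_subgroup (zpowers h)) hhC hC0)
  exact ⟨b, hb, fun h0 => hc1 (Subtype.ext (hbc.trans h0)), hbc ▸ hch h (mem_zpowers h)⟩

/-- `h` acts as a generalized reflection of order `2 ^ (n + 1)`. -/
structure GRefl (θ : R →* End ℤ U) (h : R) (n : ℕ) : Prop where
  pos : 1 ≤ n
  pow : h ^ 2 ^ (n + 1) = 1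
  fix : ∀ w, θ (h ^ 2 ^ n) w = w → θ h w = w
  small : ∀ f : Fin (2 ^ (n + 1)) × Fin (2 ^ (n + 1)) → U, Function.Injective f →
    ¬ ∀ i, θ (h ^ 2 ^ n) (f i) = -f i

theorem gr_comm_apply (θ : R →* End ℤ U) {a b : R} (h : Commute a b) (u : U) :
    θ a (θ b u) = θ b (θ a u) := by
  rw [← End.mul_apply, ← map_mul, h.eq, map_mul, End.mul_apply]

theorem gr_mul_apply (θ : R →* End ℤ U) (a b : R) (u : U) : θ (a * b) u = θ a (θ b u) := by
  rw [map_mul, End.mul_apply]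

theorem gr_apply_inv (θ : R →* End ℤ U) (t : R) (v : U) : θ t (θ t⁻¹ v) = v := by
  rw [← End.mul_apply, ← map_mul, mul_inv_cancel, map_one, End.one_apply]

namespace GRefl

variable {θ : R →* End ℤ U} {h : R} {n : ℕ}

theorem sq (H : GRefl θ h n) : h ^ 2 ^ n * h ^ 2 ^ n = 1 := by
  rw [← pow_add, ← two_mul, ← pow_succ', H.pow]

theorem comm (h : R) (n : ℕ) : Commute h (h ^ 2 ^ n) := (Commute.refl h).pow_right _

theorem conj (H : GRefl θ h n) (r : R) : GRefl θ (r * h * r⁻¹) n where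
  pos := H.pos
  pow := by rw [conj_pow, H.pow]; simp
  fix := fun w hw => by
    rw [conj_pow, gr_mul_apply, gr_mul_apply] at hw
    have := H.fix (θ r⁻¹ w) (by rw [← hh_inv_apply θ r (θ _ (θ r⁻¹ w)), hw])
    rw [gr_mul_apply, gr_mul_apply, this, gr_apply_inv]
  small := fun f hf hf' => H.small (fun i => θ r⁻¹ (f i)) (fun i j hij => hf (by
      have := congrArg (θ r) hij
      rwa [gr_apply_inv, gr_apply_inv] at this)) fun i => by
    have := hf' i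
    rw [conj_pow, gr_mul_apply, gr_mul_apply] at this
    rw [← hh_inv_apply θ r (θ _ (θ r⁻¹ (f i))), this, map_neg]

variable (hU : ∀ w : U, 2 • w = 0 → w = 0)
include hU

theorem eq_zero {w : U} (h : w = -w) : w = 0 := hU w (by rw [two_nsmul]; exact add_eq_zero_iff_eq_neg.mpr h)

theorem free (H : GRefl θ h n) {v : U} (hv : θ (h ^ 2 ^ n) v = -v) (hv0 : v ≠ 0) {i : ℕ}
    (hi : θ (h ^ i) v = v) : 2 ^ (n + 1) ∣ i := by
  by_contra hd
  have h2 : h ^ 2 ^ n ∈ hhSt θ v := H9.mem_of_pow_mem_of_not_dvd (p := 2) H.pow hi hd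
  exact hv0 (eq_zero hU ((show θ (h ^ 2 ^ n) v = v from h2).symm.trans hv))

theorem free' (H : GRefl θ h n) {v : U} (hv : θ (h ^ 2 ^ n) v = -v) (hv0 : v ≠ 0)
    (i j : Fin (2 ^ (n + 1))) (hij : θ (h ^ (i : ℕ)) v = θ (h ^ (j : ℕ)) v) : i = j := by
  wlog hle : (i : ℕ) ≤ j generalizing i j
  · exact (this j i hij.symm (by omega)).symm
  have h1 : θ (h ^ ((j : ℕ) - i)) v = v := by
    have := congrArg (θ (h ^ (i : ℕ))⁻¹) hij
    rw [hh_inv_apply, ← End.mul_apply, ← map_mul] at this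
    rw [pow_sub h hle, ((Commute.refl h).pow_pow _ _).inv_right.eq]
    exact this.symm
  have := Nat.eq_zero_of_dvd_of_lt (H.free hU hv hv0 h1) (by omega)
  exact Fin.ext (by omega)

theorem irr (H : GRefl θ h n) {c : R} (hc : c * c = 1) (hch : Commute h c) :
    (∀ u, θ (h ^ 2 ^ n) u = -u → θ c u = u) ∨ ∀ u, θ (h ^ 2 ^ n) u = -u → θ c u = -u := by
  by_contra! hne
  obtain ⟨⟨u₁, h1, h1'⟩, u₂, h2, h2'⟩ := hne
  have hcz : Commute (h ^ 2 ^ n) c := hch.pow_left _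
  have hcc : ∀ u, θ c (θ c u) = u := fun u => by rw [← gr_mul_apply, hc, map_one, End.one_apply]
  obtain ⟨v₁, hv₁⟩ : ∃ v, v = θ c u₁ - u₁ := ⟨_, rfl⟩
  obtain ⟨v₂, hv₂⟩ : ∃ v, v = θ c u₂ + u₂ := ⟨_, rfl⟩
  have a1 : θ (h ^ 2 ^ n) v₁ = -v₁ := by
    rw [hv₁, map_sub, gr_comm_apply θ hcz, h1, map_neg]; abel
  have a2 : θ (h ^ 2 ^ n) v₂ = -v₂ := by
    rw [hv₂, map_add, gr_comm_apply θ hcz, h2, map_neg]; abel
  have b1 : θ c v₁ = -v₁ := by rw [hv₁, map_sub, hcc]; abel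
  have b2 : θ c v₂ = v₂ := by rw [hv₂, map_add, hcc]; abel
  have c1 : v₁ ≠ 0 := by rw [hv₁]; exact sub_ne_zero.mpr h1'
  have c2 : v₂ ≠ 0 := by rw [hv₂]; exact fun h => h2' (eq_neg_of_add_eq_zero_left h)
  refine H.small (fun i => θ (h ^ (i.1 : ℕ)) v₁ + θ (h ^ (i.2 : ℕ)) v₂) ?_ fun i => ?_
  · rintro ⟨i, j⟩ ⟨i', j'⟩ hij
    dsimp only at hij
    have e : θ (h ^ (i : ℕ)) v₁ - θ (h ^ (i' : ℕ)) v₁ =
        θ (h ^ (j' : ℕ)) v₂ - θ (h ^ (j : ℕ)) v₂ := by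
      rw [sub_eq_sub_iff_add_eq_add, hij, add_comm]
    have h0 : θ (h ^ (i : ℕ)) v₁ - θ (h ^ (i' : ℕ)) v₁ = 0 := by
      refine eq_zero hU ?_
      have := congrArg (θ c) e
      rw [map_sub, map_sub, ← gr_comm_apply θ (hch.pow_left _), ← gr_comm_apply θ (hch.pow_left _),
        ← gr_comm_apply θ (hch.pow_left _), ← gr_comm_apply θ (hch.pow_left _), b1, b2, ← e,
        map_neg, map_neg] at this
      exact this.symm.trans (by abel)
    exact Prod.ext (H.free' hU a1 c1 _ _ (sub_eq_zero.mp h0))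
      (H.free' hU a2 c2 _ _ (sub_eq_zero.mp (e.symm.trans h0)).symm)
  · rw [map_add, gr_comm_apply θ ((Commute.refl h).pow_pow _ _),
      gr_comm_apply θ ((Commute.refl h).pow_pow _ _) v₂, a1, a2, map_neg, map_neg, neg_add]

theorem ext_of {z : R} (hz : z * z = 1) {a b : End ℤ U} (h1 : ∀ u, θ z u = u → a u = b u)
    (h2 : ∀ u, θ z u = -u → a u = b u) : a = b := LinearMap.ext fun u => by
  have hzz : θ z (θ z u) = u := by rw [← gr_mul_apply, hz, map_one, End.one_apply]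
  have e1 := h1 (u + θ z u) (by rw [map_add, hzz, add_comm])
  have e2 := h2 (u - θ z u) (by rw [map_sub, hzz, neg_sub])
  rw [map_add, map_add] at e1
  rw [map_sub, map_sub] at e2
  rw [← sub_eq_zero]
  refine hU _ ?_
  rw [two_nsmul]
  calc a u - b u + (a u - b u) = (a u + a (θ z u)) - (b u + b (θ z u)) +
      ((a u - a (θ z u)) - (b u - b (θ z u))) := by abel
    _ = 0 := by rw [e1, e2, sub_self, sub_self, add_zero]

theorem mem_centralizer [Finite R] (hR : IsPGroup 2 R) (hθ : Function.Injective θ)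
    (H : GRefl θ h n) {A : Subgroup R} (hAn : A.Normal) (hA : IsMulCommutative A) :
    h ^ 2 ^ n ∈ centralizer (A : Set R) := by
  by_contra hz
  have hAc := H9.isMulCommutative_iff'.mp hA
  obtain ⟨b, hb, hc1, hch⟩ := gr_exists_comm_fixed hR hAn hA (comm h n) hz
  have hsq := H.sq
  have hfix := H.fix
  have hfree := fun v hv hv0 i => H.free hU (v := v) hv hv0 (i := i)
  have hzh := comm h n
  have hzc := hch.pow_left (2 ^ n)
  generalize h ^ 2 ^ n = z at *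
  obtain ⟨c, hc⟩ : ∃ c, c = z⁻¹ * b * z * b⁻¹ := ⟨_, rfl⟩
  rw [← hc] at hc1 hch hzc
  have hcA : c ∈ A := hc ▸ mul_mem (hAn.conj_mem' b hb z) (inv_mem hb)
  have hbc : Commute b c := hAc _ hb _ hcA
  have hbz : b * z = z * c * b := by rw [hc]; group
  have hcc : c * c = 1 := by
    have h3 : z * c * (z * c) = 1 := by
      rw [show z * c = b * z * b⁻¹ by rw [hbz]; group]
      calc b * z * b⁻¹ * (b * z * b⁻¹) = b * (z * z) * b⁻¹ := by group
        _ = 1 := by rw [hsq]; simp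
    rwa [mul_assoc, ← mul_assoc c, ← hzc.eq, mul_assoc, ← mul_assoc, hsq, one_mul] at h3
  have hzz : ∀ u, θ z (θ z u) = u := fun u => by rw [← gr_mul_apply, hsq, map_one, End.one_apply]
  have hcc' : ∀ u, θ c (θ c u) = u := fun u => by rw [← gr_mul_apply, hcc, map_one, End.one_apply]
  have e1 : ∀ u, θ z (θ b u) = θ b (θ z (θ c u)) := fun u => by
    rw [← gr_mul_apply, ← gr_mul_apply, ← gr_mul_apply, hbz, mul_assoc (z * c), hbc.eq,
      ← mul_assoc, mul_assoc z, hcc, mul_one]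
  have e2 : ∀ u, θ z (θ b⁻¹ u) = θ b⁻¹ (θ z (θ c u)) := fun u => by
    rw [← hh_inv_apply θ b (θ z (θ b⁻¹ u)), ← gr_mul_apply θ b, hbz, gr_mul_apply, gr_apply_inv,
      gr_mul_apply]
  obtain ⟨u₀, h1, h2, h0⟩ : ∃ u₀, θ z u₀ = u₀ ∧ θ c u₀ = -u₀ ∧ u₀ ≠ 0 := by
    obtain ⟨u, hu⟩ : ∃ u, θ c u ≠ u := by
      by_contra! hu
      exact hc1 (hθ ((LinearMap.ext hu).trans (map_one θ).symm))
    obtain ⟨u₁, hu₁⟩ : ∃ u₁, u₁ = u - θ c u := ⟨_, rfl⟩
    have a1 : θ c u₁ = -u₁ := by rw [hu₁, map_sub, hcc', neg_sub]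
    have a2 : u₁ ≠ 0 := by rw [hu₁]; exact sub_ne_zero.mpr hu.symm
    by_cases a3 : u₁ + θ z u₁ = 0
    · refine ⟨θ b⁻¹ u₁, ?_, ?_, fun h => a2 ?_⟩
      · rw [e2, a1, map_neg, ← eq_neg_of_add_eq_zero_left a3]
      · rw [← gr_comm_apply θ hbc.inv_left, a1, map_neg]
      · rw [← gr_apply_inv θ b u₁, h, map_zero]
    · exact ⟨_, by rw [map_add, hzz, add_comm], by
        rw [map_add, ← gr_comm_apply θ hzc, a1, map_neg, neg_add], a3⟩
  obtain ⟨v, hv⟩ : ∃ v, v = θ b u₀ := ⟨_, rfl⟩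
  have b1 : θ z v = -v := by rw [hv, e1, h2, map_neg, h1, map_neg]
  have b2 : θ c v = -v := by rw [hv, ← gr_comm_apply θ hbc, h2, map_neg]
  have b0 : v ≠ 0 := fun h => h0 (by rw [← hh_inv_apply θ b u₀, ← hv, h, map_zero])
  have hfix' : ∀ w, θ z w = w → θ h⁻¹ w = w := fun w hw => inv_mem (show h ∈ hhSt θ w from hfix w hw)
  have ha : Commute (h⁻¹ * b⁻¹ * h * b) b :=
    hAc _ (mul_mem (hAn.conj_mem' _ (inv_mem hb) h) hb) _ hb
  have c1 := gr_comm_apply θ ha u₀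
  simp only [gr_mul_apply] at c1
  rw [← hv, hfix (θ b v) (by rw [e1, b2, map_neg, b1, neg_neg]), hh_inv_apply,
    hfix' (θ b⁻¹ (θ h v)) (by
      rw [e2, ← gr_comm_apply θ hch, b2, map_neg, map_neg, ← gr_comm_apply θ hzh, b1, map_neg,
        map_neg, map_neg, neg_neg]), gr_apply_inv] at c1
  have c2 := hfree v b1 b0 2 (by rw [pow_two, gr_mul_apply, ← c1, gr_apply_inv])
  have := Nat.le_of_dvd two_pos c2
  have := Nat.pow_le_pow_right two_pos (show 2 ≤ n + 1 by have := H.pos; omega)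
  omega

theorem commute_conj [Finite R] (hR : IsPGroup 2 R) (hθ : Function.Injective θ)
    (H : GRefl θ h n) (r : R) : Commute h (r * h ^ 2 ^ n * r⁻¹) := by
  obtain ⟨A, hAn, hA, -, hC⟩ := H3.exists_selfCentralizing_normal_abelian hR ⊥ inferInstance
  have hzA := hC (H.mem_centralizer hU hR hθ hAn hA)
  have hAc := H9.isMulCommutative_iff'.mp hA
  have hZA : normalClosure {h ^ 2 ^ n} ≤ A := normalClosure_le_normal (by simpa using hzA)
  have hzZ : h ^ 2 ^ n ∈ normalClosure {h ^ 2 ^ n} := subset_normalClosure rfl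
  have hZn : (normalClosure {h ^ 2 ^ n}).Normal := normalClosure_normal
  suffices hs : h ∈ centralizer (normalClosure {h ^ 2 ^ n} : Set R) from
    (hs _ (hZn.conj_mem _ hzZ r)).symm
  by_contra hz
  obtain ⟨b, hb, hc1, hch⟩ := gr_exists_comm_fixed hR hZn (H9.isMulCommutative_of_le hA hZA)
    (Commute.refl h) hz
  let E : Subgroup R :=
    { carrier := {a | a ∈ A ∧ a * a = 1}
      one_mem' := ⟨one_mem _, one_mul _⟩
      mul_mem' := fun {a b} ha hb => ⟨mul_mem ha.1 hb.1, by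
        rw [mul_assoc, ← mul_assoc b, hAc b hb.1 a ha.1, mul_assoc, hb.2, mul_one, ha.2]⟩
      inv_mem' := fun {a} ha => ⟨inv_mem ha.1, by rw [← mul_inv_rev, ha.2, inv_one]⟩ }
  have hEn : E.Normal := ⟨fun a ha g => ⟨hAn.conj_mem a ha.1 g, by
    calc g * a * g⁻¹ * (g * a * g⁻¹) = g * (a * a) * g⁻¹ := by group
      _ = 1 := by rw [ha.2]; simp⟩⟩
  have hZE : normalClosure {h ^ 2 ^ n} ≤ E :=
    normalClosure_le_normal (Set.singleton_subset_iff.mpr ⟨hzA, H.sq⟩)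
  have hcZ : h⁻¹ * b * h * b⁻¹ ∈ normalClosure {h ^ 2 ^ n} :=
    mul_mem (hZn.conj_mem' b hb h) (inv_mem hb)
  have hfix : ∀ u, θ (h ^ 2 ^ n) u = u → θ (h⁻¹ * b * h * b⁻¹) u = u := fun u hu => by
    have h1 : Commute (h ^ 2 ^ n) b⁻¹ := hAc _ hzA _ (inv_mem (hZA hb))
    rw [gr_mul_apply, gr_mul_apply, H.fix (θ b⁻¹ u) (by rw [gr_comm_apply θ h1, hu]), gr_mul_apply,
      gr_apply_inv]
    exact inv_mem (show h ∈ hhSt θ u from H.fix u hu)
  rcases H.irr hU (hZE hcZ).2 hch with h1 | h1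
  · exact hc1 (hθ ((ext_of hU H.sq hfix h1).trans (map_one θ).symm))
  have h2 : h⁻¹ * b * h * b⁻¹ = h ^ 2 ^ n := hθ (ext_of hU H.sq (fun u hu => by rw [hfix u hu, hu])
    fun u hu => by rw [h1 u hu, hu])
  have h3 := H1.commutator_lt_of_isPGroup (hR.to_subgroup (normalClosure {h ^ 2 ^ n}))
    (hR.to_subgroup ⊤) (by rw [normalizer_eq_top]) fun h0 => hc1 (by rwa [h0, mem_bot] at hcZ)
  refine h3.not_ge (normalClosure_le_normal (Set.singleton_subset_iff.mpr ?_))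
  have := commutator_mem_commutator (mem_top h⁻¹) hb
  rw [commutator_comm, commutatorElement_def, inv_inv, h2] at this
  exact this

theorem fix_of_ne [Finite R] (hR : IsPGroup 2 R) (hθ : Function.Injective θ)
    (H : GRefl θ h n) {r : R} (hr : r * h ^ 2 ^ n * r⁻¹ ≠ h ^ 2 ^ n) {u : U}
    (hu : θ (h ^ 2 ^ n) u = -u) : θ (r * h * r⁻¹) u = u := by
  have H' := H.conj r
  refine H'.fix u ?_
  have h1 := H.commute_conj hU hR hθ r
  have h2 := H'.commute_conj hU hR hθ r⁻¹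
  rw [conj_pow, show r⁻¹ * (r * h ^ 2 ^ n * r⁻¹) * r⁻¹⁻¹ = h ^ 2 ^ n by group] at h2
  have h3 := H'.sq
  have h4 := H'.irr hU H.sq h2
  rw [conj_pow] at h3 h4 ⊢
  refine (H.irr hU h3 h1).resolve_right (fun h5 => hr (hθ (ext_of hU H.sq (fun u hu => ?_)
    fun u hu => by rw [h5 u hu, hu]))) u hu
  have hc : Commute (h ^ 2 ^ n) (r * h ^ 2 ^ n * r⁻¹) := h1.pow_left _
  have h6 : θ (r * h ^ 2 ^ n * r⁻¹) (θ (r * h ^ 2 ^ n * r⁻¹) u - u) =
      -(θ (r * h ^ 2 ^ n * r⁻¹) u - u) := by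
    rw [map_sub, ← gr_mul_apply, h3, map_one, End.one_apply, neg_sub]
  have h7 : θ (h ^ 2 ^ n) (θ (r * h ^ 2 ^ n * r⁻¹) u - u) = θ (r * h ^ 2 ^ n * r⁻¹) u - u := by
    rw [map_sub, gr_comm_apply θ hc, hu]
  rw [hu, ← sub_eq_zero]
  rcases h4 with h4 | h4
  · have h8 : θ (h ^ 2 ^ n) = 1 := ext_of hU H.sq (fun _ h => h) fun v hv => by
      have := eq_zero hU ((h4 v (h5 v hv)).symm.trans hv)
      simp [this]
    rw [hθ (h8.trans (map_one θ).symm)] at hr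
    simp at hr
  · exact eq_zero hU (h7.symm.trans (h4 _ h6))

theorem commute_of_pow [Finite R] (hR : IsPGroup 2 R) (hθ : Function.Injective θ)
    (H : GRefl θ h n) {W : Subgroup R} (hW : ∀ w ∈ W, h⁻¹ * w * h ∈ W) (h4 : ∀ w ∈ W, w ^ 4 = 1)
    (h2 : ∀ w ∈ W, ∀ v ∈ W, Commute (w ^ 2) v) {w : R} (hw : w ∈ W)
    (hwh : (w * h) ^ 2 ^ (n + 1) = 1) : Commute w (h ^ 2 ^ n) := by
  by_contra hne
  have hz1 : w * h ^ 2 ^ n * w⁻¹ ≠ h ^ 2 ^ n := fun h => hne (mul_inv_eq_iff_eq_mul.mp h)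
  have hz3 : w ^ 3 * h ^ 2 ^ n * (w ^ 3)⁻¹ ≠ h ^ 2 ^ n := fun h0 => hz1 (by
    conv_lhs => rw [← h0]
    calc w * (w ^ 3 * h ^ 2 ^ n * (w ^ 3)⁻¹) * w⁻¹ = w ^ 4 * h ^ 2 ^ n * (w ^ 4)⁻¹ := by group
      _ = _ := by rw [h4 w hw]; simp)
  obtain ⟨v, hv, hv0⟩ : ∃ v, θ (h ^ 2 ^ n) v = -v ∧ v ≠ 0 := by
    by_contra! h0
    have h8 : θ (h ^ 2 ^ n) = 1 := ext_of hU H.sq (fun _ h => h) fun v hv => by simp [h0 v hv]
    rw [hθ (h8.trans (map_one θ).symm)] at hz1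
    simp at hz1
  have hN : ∀ {g : R}, Commute g (h ^ 2 ^ n) → ∀ {u}, θ (h ^ 2 ^ n) u = -u →
      θ (h ^ 2 ^ n) (θ g u) = -θ g u := fun hg u hu => by
    rw [← gr_comm_apply θ hg, hu, map_neg]
  have f1 := fun u hu => H.fix_of_ne hU hR hθ hz1 (u := u) hu
  have f3 := fun u hu => H.fix_of_ne hU hR hθ hz3 (u := u) hu
  have haW : h⁻¹ * (w * h * w⁻¹) ∈ W := by
    rw [← mul_assoc, ← mul_assoc]; exact mul_mem (hW w hw) (inv_mem hw)
  have ha : ∀ u, θ (h ^ 2 ^ n) u = -u → θ (h⁻¹ * (w * h * w⁻¹)) u = θ h⁻¹ u := fun u hu => by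
    rw [gr_mul_apply, f1 u hu]
  have hi := (comm h n).inv_left
  have hn : n = 1 := by
    have e : θ ((h⁻¹ * (w * h * w⁻¹)) ^ 4) v = θ (h ^ 4)⁻¹ v := by
      rw [← inv_pow]
      simp only [pow_succ, pow_zero, one_mul, gr_mul_apply θ _ (h⁻¹ * (w * h * w⁻¹)),
        gr_mul_apply θ _ h⁻¹]
      rw [ha v hv, ha _ (hN hi hv), ha _ (hN hi (hN hi hv)), ha _ (hN hi (hN hi (hN hi hv)))]
    rw [h4 _ haW, map_one, End.one_apply] at e
    have := Nat.le_of_dvd (by norm_num) (H.free hU hv hv0 (i := 4)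
      (by conv_lhs => rw [e]
          rw [gr_apply_inv]))
    have := (Nat.pow_le_pow_iff_right (by norm_num : 1 < 2)).mp (this.trans_eq (by norm_num : 4 = 2 ^ 2))
    have := H.pos
    omega
  subst hn
  have e : w * h * w⁻¹ * (w ^ 2 * h * (w ^ 2)⁻¹) * (w ^ 3 * h * (w ^ 3)⁻¹) * h = 1 := by
    calc _ = w * h * w⁻¹ * (w ^ 2 * h * (w ^ 2)⁻¹) * (w ^ 3 * h * (w ^ 3)⁻¹) * w ^ 4 * h := by
          rw [h4 w hw, mul_one]
      _ = (w * h) * (w * h) * (w * h) * (w * h) := by group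
      _ = 1 := by rw [← hwh]; simp only [pow_succ, pow_zero, one_mul, Nat.reduceMul]
  have e' := congrArg (fun g => θ g v) e
  simp only [gr_mul_apply θ _ h, gr_mul_apply θ _ (w ^ 3 * h * (w ^ 3)⁻¹),
    gr_mul_apply θ _ (w ^ 2 * h * (w ^ 2)⁻¹), map_one, End.one_apply] at e'
  have hv1 := hN (comm h 1) hv
  rw [f3 _ hv1] at e'
  by_cases hz2 : w ^ 2 * h ^ 2 ^ 1 * (w ^ 2)⁻¹ = h ^ 2 ^ 1
  · have hc : Commute (w ^ 2 * h * (w ^ 2)⁻¹) (h ^ 2 ^ 1) := by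
      have := comm (w ^ 2 * h * (w ^ 2)⁻¹) 1
      rwa [conj_pow, hz2] at this
    rw [f1 _ (hN hc hv1)] at e'
    have e2 : (w ^ 2 * h * (w ^ 2)⁻¹)⁻¹ * (w ^ 3 * h * (w ^ 3)⁻¹) = h⁻¹ * (w * h * w⁻¹) := by
      rw [← mul_inv_eq_iff_eq_mul.mpr (h2 w hw _ haW).eq]
      group
    have e3 := congrArg (fun g => θ g v) e2
    simp only [gr_mul_apply θ _ (w ^ 3 * h * (w ^ 3)⁻¹)] at e3
    rw [f3 _ hv, ha _ hv] at e3
    have e4 : θ h v = θ h⁻¹ v := by rw [← e3]; conv_rhs => rw [← e', hh_inv_apply]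
    have := Nat.le_of_dvd two_pos (H.free hU hv hv0 (i := 2)
      (by rw [pow_two, gr_mul_apply, e4, gr_apply_inv]))
    omega
  · rw [H.fix_of_ne hU hR hθ hz2 hv1, f1 _ hv1] at e'
    have := Nat.le_of_dvd one_pos (H.free hU hv hv0 (i := 1) (by rwa [pow_one]))
    omega

end GRefl

end Cfsg.Agent.H7
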