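import Cfsg.Agent.H7.Gr1

/-! Gross's bound on the `2`-length: an exceptional element centralizes the centralizer of its
power of order `p` modulo scalars. -/

set_option autoImplicit false

namespace Cfsg.Agent.H7

open Module LinearMap Subgroup H9
open scoped commutatorElement

variable {K : Type*} [Field K] {W S : Type*} [AddCommGroup W] [Module K W] [AddCommGroup S]
  [Module K S] {G : Type*} [Group G] {p : ℕ} [hp : Fact p.Prime]

omit hp in
theorem gr_pow_comp {S₁ : Type*} [AddCommGroup S₁] [Module K S₁] {u : End K S} {u' : End K S₁}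
    {f₀ f₁ : S₁ →ₗ[K] S} (h0 : ∀ v, u (f₀ v) = f₀ (u' v)) (h1 : ∀ v, u (f₁ v) = f₁ (u' v) + f₀ (u' v))
    (s : ℕ) (v : S₁) : ((u - 1) ^ (s + 1)) (f₁ v) =
      f₁ (((u' - 1) ^ (s + 1)) v) + ((s + 1 : ℕ) : K) • f₀ (u' (((u' - 1) ^ s) v)) := by
  have hc : ∀ w, u' ((u' - 1) w) = (u' - 1) (u' w) := fun w => by simp
  induction s with
  | zero => simp [h1]; abel
  | succ s ih =>
    rw [pow_succ' (u - 1), End.mul_apply, ih, pow_succ' (u' - 1) (s + 1), End.mul_apply,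
      pow_succ' (u' - 1) s, End.mul_apply, hc]
    simp only [map_add, map_smul, LinearMap.sub_apply, End.one_apply, h0, h1, map_sub]
    push_cast
    simp only [add_smul, one_smul, smul_sub]
    abel

variable [Finite G] [IsAlgClosed K] [CharP K p] [FiniteDimensional K S]

theorem gr_local {q : ℕ} [hq : Fact q.Prime] (hpq : p ≠ q) {Q : Subgroup G} [Q.Normal]
    (hQ : IsPGroup q Q) (hc : ⁅Q, Q⁆ ≤ centralizer (Q : Set G)) {σ : Q →* End K S}
    (hσ : IrrRep σ) {ρ : G →* End K W} {j : S →ₗ[K] W} (h0 : j ≠ 0)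
    (h1 : ∀ t v, j (σ t v) = ρ t (j v)) {h : G} {n : ℕ} (hh : h ^ p ^ (n + 1) = 1)
    (hI : h ∈ inertia σ) {u : End K S}
    (h2 : ∀ v, ρ h (j v) = j (u v)) (hs : (u - 1) ^ (p ^ (n + 1) - 1) = 0) :
    (∀ t : Q, (t : G) ∈ ⁅Q, zpowers (h ^ p ^ n)⁆ → σ t = 1) ∨
      (p ^ (n + 1) ≠ 2 ∧ ∀ c : Q, (c : G) ∈ centralizer (zpowers (h ^ p ^ n) : Set G) →
        σ (MulAut.conjNormal h c) = σ c) := by
  classical
  have := hσ.1
  have hinj := hσ.injective h0 fun t => ⟨_, h1 t⟩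
  have hqK : (q : K) ≠ 0 := by
    rw [Ne, CharP.cast_eq_zero_iff K p, Nat.prime_dvd_prime_iff_eq hp.out hq.out]; exact hpq
  obtain ⟨z, hzdef⟩ : ∃ z, z = h ^ p ^ n := ⟨_, rfl⟩
  rw [← hzdef]
  have hz : z ^ p = 1 := by rw [hzdef, ← pow_mul, ← pow_succ, hh]
  have hZp : IsPGroup p (zpowers z) := by
    obtain ⟨k, -, hk⟩ := (Nat.dvd_prime_pow hp.out).mp
      (orderOf_dvd_of_pow_eq_one (n := p ^ 1) (by rwa [pow_one]))
    exact IsPGroup.of_card (by rw [Nat.card_zpowers, hk])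
  have hZQ : zpowers z ≤ normalizer (Q : Set G) := by rw [normalizer_eq_top]; exact le_top
  have hcop : ∀ {Q' : Subgroup G}, Q' ≤ Q → (Nat.card (zpowers z)).Coprime (Nat.card Q') :=
    fun {Q'} hQ' => by
      obtain ⟨a, ha⟩ := IsPGroup.iff_card.mp (hQ.to_le hQ')
      exact H1.coprime_card_of_isPGroup_of_coprime hZp
        (ha ▸ Nat.Coprime.pow_left _ ((Nat.coprime_primes hq.out hp.out).mpr hpq.symm))
  obtain ⟨Q₁, hQ₁⟩ : ∃ Q₁, Q₁ = ⁅Q, zpowers z⁆ := ⟨_, rfl⟩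
  have hle : Q₁ ≤ Q := hQ₁ ▸ H1.commutator_le_left_of_le_normalizer hZQ
  have hgen : ⁅Q₁, zpowers z⁆ = Q₁ := hQ₁ ▸ H1.commutator_commutator_eq hZQ (hcop le_rfl)
  have hsup : Q₁ ⊔ (Q ⊓ centralizer (zpowers z : Set G)) = Q :=
    hQ₁ ▸ H1.commutator_sup_centralizer hZQ (hcop le_rfl) (Or.inl (H1.isSolvable_zpowers z))
  have hhQ₁ : h ∈ normalizer (Q₁ : Set G) := by
    have : zpowers h ≤ normalizer (Q₁ : Set G) := hQ₁ ▸ le_normalizer_commutator
      (by rw [normalizer_eq_top]; exact le_top)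
      (le_normalizer_of_le_centralizer (le_centralizer_iff'.mpr fun a ha b hb =>
        isMulCommutative_iff'.mp inferInstance a ha b
          (zpowers_le.mpr (hzdef ▸ pow_mem (mem_zpowers h) _) hb)))
    exact this (mem_zpowers h)
  have hZQ₁ : zpowers z ≤ normalizer (Q₁ : Set G) := zpowers_le.mpr (hzdef ▸ pow_mem hhQ₁ _)
  have hfree : Q₁ ⊓ centralizer (zpowers z : Set G) ≤ centralizer (Q : Set G) := fun a ha =>
    hc (commutator_mono hle hle (H1.inf_centralizer_inf_commutator_le hZQ₁ (hcop hle)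
      ⟨ha, hgen.symm ▸ ha.1⟩))
  let T : Subgroup G := normalizer (Q₁ : Set G) ⊓ invSub ρ (range j)
  have hQT : Q₁ ≤ T := le_inf le_normalizer (by
    rintro a ha _ ⟨v, rfl⟩; exact ⟨_, h1 ⟨a, hle ha⟩ v⟩)
  have hhT : h ∈ T := ⟨hhQ₁, by rintro _ ⟨v, rfl⟩; exact ⟨_, (h2 v).symm⟩⟩
  obtain ⟨τ, hτ⟩ := hh_exists_restr ρ hinj T fun g hg => hg.2
  have hτσ : ∀ (a : T) (ha : (a : G) ∈ Q), τ a = σ ⟨a, ha⟩ := fun a ha =>
    LinearMap.ext fun v => hinj ((hτ a v).trans (h1 ⟨a, ha⟩ v).symm)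
  let N : Subgroup T := Q₁.subgroupOf T
  have : N.Normal := (normal_subgroupOf_iff_le_normalizer hQT).mpr inf_le_left
  have hNQ : IsPGroup q N := (hQ.to_le hle).comap_subtype
  obtain ⟨a, ha⟩ := IsPGroup.iff_card.mp hNQ
  have hNK : (Nat.card N : K) ≠ 0 := by rw [ha]; simp [hqK]
  obtain ⟨S₁, σ₁, hσ₁, -, hj₁⟩ := exists_irrRep_le (τ.comp N.subtype) (W₀ := ⊤) top_ne_bot (by simp)
  have := hσ₁.1
  let x : T := ⟨h, hhT⟩
  have hx : x ^ p ^ (n + 1) = 1 := Subtype.ext hh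
  have hτx : τ x = u := LinearMap.ext fun v => hinj ((hτ x v).trans (h2 v))
  have hcs : ∀ a b : Q, ⁅a, b⁆ ∈ scalSub σ := fun a b =>
    hσ.mem_scalSub_of_mem_centralizer (hc (commutator_mem_commutator a.2 b.2))
  have htw : ∀ (a b : Q) (c : K), σ ⁅a, b⁆ = c • 1 → σ a * σ b = c • (σ b * σ a) :=
    fun a b c h => by
      rw [← one_mul (σ b * σ a), ← smul_mul_assoc, ← h, ← map_mul, ← map_mul, ← map_mul]
      simp [commutatorElement_def, mul_assoc]
  have hZI : zpowers z ≤ inertia σ := zpowers_le.mpr (hzdef ▸ pow_mem hI _)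
  have hQT' : Q ≤ T := le_inf (hQ₁ ▸ normalizer_commutator_ge_left _ _) (by
    rintro a ha _ ⟨v, rfl⟩; exact ⟨_, h1 ⟨a, ha⟩ v⟩)
  have hcomm : ∀ g (hg : g ∈ Q ⊓ centralizer (zpowers z : Set G)) (s : N),
      σ ⟨g, hg.1⟩ * τ s = τ s * σ ⟨g, hg.1⟩ := fun g hg s => by
    let E : Subgroup Q :=
      { carrier := {a | σ ⟨g, hg.1⟩ * σ a = σ a * σ ⟨g, hg.1⟩}
        one_mem' := by simp
        mul_mem' := by
          intro a b ha hb
          change _ = _ at ha hb ⊢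
          rw [map_mul, ← mul_assoc, ha, mul_assoc, hb, mul_assoc]
        inv_mem' := by
          intro a ha
          have : Commute (σ.toHomUnits ⟨g, hg.1⟩) (σ.toHomUnits a) := Units.ext ha
          have := congrArg Units.val this.inv_right.eq
          rwa [← map_inv] at this }
    have hE : Q₁ ≤ E.map Q.subtype := hQ₁ ▸ commutator_le.mpr fun a ha y hy => by
      refine ⟨⟨a, ha⟩ * MulAut.conjNormal y (⟨a, ha⟩ : Q)⁻¹, ?_,
        by simp [commutatorElement_def, mul_assoc]⟩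
      obtain ⟨d, hd⟩ := hcs ⟨g, hg.1⟩ ⟨a, ha⟩
      obtain ⟨d', hd'⟩ := hcs ⟨g, hg.1⟩ (⟨a, ha⟩ : Q)⁻¹
      have h3 := conjNormal_eq_of_mem_inertia (hZI hy) hd'
      rw [map_commutatorElement, show MulAut.conjNormal y (⟨g, hg.1⟩ : Q) = ⟨g, hg.1⟩ from
        Subtype.ext (by
          rw [MulAut.conjNormal_apply, mul_inv_eq_iff_eq_mul]; exact hg.2 y hy)] at h3
      have h4 := htw _ _ _ hd
      have h5 := htw _ _ _ hd'
      have h6 := htw _ _ _ h3
      have h7 : (d * d') • σ ⟨g, hg.1⟩ = σ ⟨g, hg.1⟩ := by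
        conv_rhs => rw [← mul_one (σ ⟨g, hg.1⟩), ← map_one σ, ← mul_inv_cancel (⟨a, ha⟩ : Q),
          map_mul, ← mul_assoc, h4, smul_mul_assoc, mul_assoc, h5, mul_smul_comm, smul_smul,
          ← mul_assoc, ← map_mul, mul_inv_cancel, map_one, one_mul]
      change _ = _
      rw [map_mul, ← mul_assoc, h4, smul_mul_assoc, mul_assoc, h6, mul_smul_comm, smul_smul,
        ← mul_assoc, ← mul_smul_comm, h7]
    obtain ⟨a, ha, ha'⟩ := hE s.2
    rw [hτσ _ (hle s.2), show (⟨(s : T), hle s.2⟩ : Q) = a from Subtype.ext ha'.symm]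
    exact ha
  have := Fintype.ofFinite (Q ⊓ centralizer (zpowers z : Set G) : Subgroup G)
  have hspan : ∀ f : S₁ →ₗ[K] S, f ≠ 0 → (∀ (t : N) v, f (σ₁ t v) = τ t (f v)) → ∀ y : S,
      ∃ w : (Q ⊓ centralizer (zpowers z : Set G) : Subgroup G) → S₁,
        y = ∑ c : (Q ⊓ centralizer (zpowers z : Set G) : Subgroup G), σ ⟨c, c.2.1⟩ (f (w c)) := fun f hf0 hf y => by
    let Θ : ((Q ⊓ centralizer (zpowers z : Set G) : Subgroup G) → S₁) →ₗ[K] S :=
      ∑ c : (Q ⊓ centralizer (zpowers z : Set G) : Subgroup G), σ ⟨c, c.2.1⟩ ∘ₗ f ∘ₗ proj c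
    have hΘ : ∀ w, Θ w = ∑ c : (Q ⊓ centralizer (zpowers z : Set G) : Subgroup G),
        σ ⟨c, c.2.1⟩ (f (w c)) := fun w => by simp [Θ]
    have h3 : Q ≤ (invSub σ (range Θ)).map Q.subtype := by
      refine hsup.ge.trans (sup_le (fun g hg => ⟨⟨g, hle hg⟩, ?_, rfl⟩) fun g hg => ⟨⟨g, hg.1⟩, ?_, rfl⟩)
      · rintro _ ⟨w, rfl⟩
        refine ⟨fun c => σ₁ ⟨⟨g, hQT hg⟩, hg⟩ (w c), ?_⟩
        rw [hΘ, hΘ, map_sum]
        refine Finset.sum_congr rfl fun c _ => ?_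
        rw [hf, ← End.mul_apply, hcomm c c.2, hτσ _ (hle hg)]
        rfl
      · rintro _ ⟨w, rfl⟩
        refine ⟨fun c => w ((⟨g, hg⟩ : (Q ⊓ centralizer (zpowers z : Set G) : Subgroup G))⁻¹ * c), ?_⟩
        rw [hΘ, hΘ, map_sum, ← Equiv.sum_comp (Equiv.mulLeft
          (⟨g, hg⟩ : (Q ⊓ centralizer (zpowers z : Set G) : Subgroup G)))]
        refine Finset.sum_congr rfl fun c _ => ?_
        rw [← End.mul_apply (σ ⟨g, hg.1⟩), ← map_mul]
        simp only [Equiv.coe_mulLeft, inv_mul_cancel_left]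
        rfl
    have h4 := (hσ.2 (range Θ) fun t => by
      obtain ⟨s, hs, hst⟩ := h3 t.2
      obtain rfl : s = t := Subtype.ext hst
      exact hs).resolve_left fun h0 => hf0 (LinearMap.ext fun v => by
        have := hΘ (Pi.single 1 v)
        rw [range_eq_bot.mp h0, Finset.sum_eq_single 1 (fun c _ hc => by
          simp [Pi.single_eq_of_ne hc]) (by simp), Pi.single_eq_same] at this
        rw [LinearMap.zero_apply, ← show σ 1 (f v) = f v by simp]
        exact this.symm)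
    obtain ⟨w, hw⟩ := range_eq_top.mp h4 y
    exact ⟨w, by rw [← hΘ, hw]⟩
  have hxI : x ∈ inertia σ₁ := by
    by_contra hxI
    obtain ⟨v, hv⟩ := exists_ne (0 : S₁)
    obtain ⟨w, hw⟩ := hspan S₁.subtype subtype_ne_zero hj₁ (τ x v)
    refine hv (hσ₁.eq_zero_of_add_sum hNK (ρ := τ) subtype_ne_zero hj₁ Finset.univ
      (h := fun c : (Q ⊓ centralizer (zpowers z : Set G) : Subgroup G) => x⁻¹ * ⟨c, hQT' c.2.1⟩)
      (w := fun c => -w c) (fun c _ hc => hxI ?_) ?_)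
    · refine inv_mem_iff.mp ((mul_mem_cancel_right (⟨1, fun t => ?_⟩ :
        (⟨c, hQT' c.2.1⟩ : T) ∈ inertia σ₁)).mp hc)
      rw [Units.val_one, one_mul, mul_one]
      refine LinearMap.ext fun v => Subtype.ext ?_
      rw [hj₁, hj₁, MonoidHom.comp_apply, MonoidHom.comp_apply, coe_subtype,
        MulAut.conjNormal_apply, map_mul, map_mul, hτσ ⟨c, hQT' c.2.1⟩ c.2.1, hcomm c c.2,
        ← hτσ ⟨c, hQT' c.2.1⟩ c.2.1, mul_assoc, ← map_mul, mul_inv_cancel, map_one, mul_one]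
    · have := congrArg (τ x⁻¹) hw
      rw [rep_inv_apply, map_sum] at this
      rw [Submodule.subtype_apply, this, ← Finset.sum_add_distrib]
      refine Finset.sum_eq_zero fun c _ => ?_
      rw [map_mul, End.mul_apply, hτσ ⟨c, hQT' c.2.1⟩ c.2.1, map_neg, map_neg, map_neg,
        add_neg_cancel]
  obtain ⟨j', u', h0', h1', h2'⟩ := exists_stable_of_mem_inertia (ρ := τ) subtype_ne_zero hj₁ hxI
  have hinj' := hσ₁.injective h0' fun t => ⟨_, h1' t⟩
  have hs' : (u' - 1) ^ (p ^ (n + 1) - 1) = 0 := LinearMap.ext fun v => hinj' (by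
    rw [← sub_one_pow_apply_of_intertwine h2', hτx, hs]; simp)
  have hxz : x ^ p ^ n = ⟨z, hzdef ▸ pow_mem hhT _⟩ := Subtype.ext (by
    simp only [x, SubmonoidClass.coe_pow]; exact hzdef.symm)
  have hA : (zpowers (x ^ p ^ n)).map T.subtype = zpowers z := by
    rw [MonoidHom.map_zpowers, hxz]; rfl
  have hNT : N.map T.subtype = Q₁ := map_subgroupOf_eq_of_le hQT
  by_cases hu : u' = 1
  · left
    intro t ht
    rw [← hQ₁] at ht
    have h3 : σ₁ ⟨⟨t, hQT ht⟩, ht⟩ = 1 := by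
      refine eq_one_of_fixes hinj' h1' (g := x) (i := p ^ n) (fun v => by rw [h2', hu]; rfl) ?_
      rw [← mem_map_iff_mem T.subtype_injective, map_commutator, hA, hNT, hgen]
      exact ht
    refine LinearMap.ext fun y => ?_
    obtain ⟨w, rfl⟩ := hspan j' h0' h1' y
    rw [map_sum, End.one_apply]
    refine Finset.sum_congr rfl fun c _ => ?_
    have h4 := hτσ ⟨t, hQT ht⟩ t.2
    rw [← End.mul_apply, ← show _ = σ t from h4, ← hcomm c c.2 ⟨⟨t, hQT ht⟩, ht⟩, End.mul_apply,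
      ← h1', h3, End.one_apply]
  right
  have h2p : 2 ≤ p ^ (n + 1) := Nat.one_lt_pow n.succ_ne_zero hp.out.one_lt
  have hne : (u' - 1) ^ (p ^ (n + 1) - 2) ≠ 0 := fun h3 => by
    rcases hσ₁.critical_local hNK h0' h1' (h := x) (m := n) hx h2'
      (fun a ha s hs => Subtype.ext (hfree ⟨ha.1, fun g hg => by
        rw [← hA] at hg
        obtain ⟨g, hg, rfl⟩ := hg
        exact congrArg Subtype.val (ha.2 g hg)⟩ s (hle hs))) h3 (by omega) with h4 | ⟨h4, -⟩
    · exact hu h4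
    · omega
  refine ⟨fun h3 => hu (sub_eq_zero.mp (by rwa [h3, pow_one] at hs')), fun c hc => ?_⟩
  have hu' : u' ^ p ^ (n + 1) = 1 := LinearMap.ext fun v => hinj' (by
    rw [← pow_apply_of_intertwine h2', ← map_pow, hx]; simp)
  obtain ⟨v', hv1, hv2, hv3⟩ : ∃ v' : End K S₁, v' * u' = 1 ∧ u' * v' = 1 ∧ v' ^ p ^ (n + 1) = 1 :=
    ⟨u' ^ (p ^ (n + 1) - 1), by rw [← pow_succ, Nat.sub_add_cancel (by omega), hu'],
      by rw [← pow_succ', Nat.sub_add_cancel (by omega), hu'],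
      by rw [← pow_mul, mul_comm, pow_mul, hu', one_pow]⟩
  have huσ : ∀ t : N, u' * σ₁ t = σ₁ (MulAut.conjNormal x t) * u' := fun t =>
    LinearMap.ext fun v => hinj' (by
      rw [End.mul_apply, End.mul_apply, ← h2', h1', h1', ← h2', ← End.mul_apply (τ _) (τ _),
        ← End.mul_apply (τ _) (τ _), ← map_mul, ← map_mul, MulAut.conjNormal_apply,
        inv_mul_cancel_right])
  let M : Submodule K (S₁ →ₗ[K] S) :=
    { carrier := {f | ∀ (t : N) v, f (σ₁ t v) = τ t (f v)}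
      zero_mem' := by simp
      add_mem' := fun {a b} ha hb t v => by simp [ha t v, hb t v]
      smul_mem' := fun c a ha t v => by simp [ha t v] }
  let Ψ : End K (S₁ →ₗ[K] S) := llcomp K _ _ _ (τ x) ∘ₗ lcomp K _ v'
  have hΨ : ∀ f v, Ψ f v = τ x (f (v' v)) := fun _ _ => rfl
  have hΨ' : ∀ f v, Ψ f (u' v) = τ x (f v) := fun f v => by
    rw [hΨ, ← End.mul_apply v', hv1, End.one_apply]
  have hΨM : ∀ f ∈ M, (Ψ - 1) f ∈ M := fun f hf => sub_mem (fun t v => by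
    have h3 : v' * σ₁ t = σ₁ (MulAut.conjNormal x⁻¹ t) * v' := by
      rw [← mul_one (v' * σ₁ t), ← hv2, ← mul_assoc, mul_assoc v',
        show σ₁ t * u' = u' * σ₁ (MulAut.conjNormal x⁻¹ t) by rw [huσ]; simp, ← mul_assoc, hv1,
        one_mul]
    rw [hΨ, hΨ, ← End.mul_apply v', h3, End.mul_apply, hf, ← End.mul_apply (τ x),
      ← End.mul_apply (τ t), ← map_mul, ← map_mul]
    simp [mul_assoc]) hf
  have hΨp : ∀ (i : ℕ) f v, (Ψ ^ i) f v = (τ x ^ i) (f ((v' ^ i) v)) := fun i => by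
    induction i with
    | zero => simp
    | succ i ih =>
      intro f v
      rw [pow_succ', End.mul_apply, hΨ, ih, pow_succ' (τ x), pow_succ v', End.mul_apply,
        End.mul_apply]
  have hΨ1 : (Ψ - 1) ^ p ^ (n + 1) = 0 := by
    rw [sub_one_pow_char_pow (K := K), sub_eq_zero]
    refine LinearMap.ext fun f => LinearMap.ext fun v => ?_
    rw [hΨp, ← map_pow, hx, hv3]; simp
  have hM : ∀ f ∈ M, ∀ v, τ x (f v) = f (u' v) := fun f hf => by
    have hex : ∃ k : ℕ, ((Ψ - 1) ^ k) f = 0 := ⟨_, by rw [hΨ1]; rfl⟩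
    have hmem : ∀ k : ℕ, ((Ψ - 1) ^ k) f ∈ M := fun k => End.pow_apply_mem_of_forall_mem k hΨM f hf
    suffices hs1 : (Ψ - 1) f = 0 by
      intro v
      rw [← hΨ', show Ψ f = f from sub_eq_zero.mp hs1]
    by_contra hs1
    have hk := Nat.find_spec hex
    have hk' := fun m hm => Nat.find_min hex (m := m) hm
    generalize Nat.find hex = k at hk hk'
    rcases k with _ | _ | k
    · rw [pow_zero, End.one_apply] at hk; rw [hk] at hs1; simp at hs1
    · exact hs1 (by simpa using hk)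
    have e0 : ∀ v, τ x (((Ψ - 1) ^ (k + 1)) f v) = ((Ψ - 1) ^ (k + 1)) f (u' v) := fun v => by
      rw [pow_succ', End.mul_apply] at hk
      rw [← hΨ', show Ψ _ = _ from sub_eq_zero.mp hk]; rfl
    have e1 : ∀ v, τ x (((Ψ - 1) ^ k) f v) =
        ((Ψ - 1) ^ k) f (u' v) + ((Ψ - 1) ^ (k + 1)) f (u' v) := fun v => by
      rw [← hΨ', pow_succ', End.mul_apply]; simp
    have hinj0 := hσ₁.injective (hk' (k + 1) (by omega)) fun t => ⟨_, hmem (k + 1) t⟩
    refine hne (LinearMap.ext fun v => ?_)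
    have h3 := gr_pow_comp e0 e1 (p ^ (n + 1) - 2) v
    rw [show p ^ (n + 1) - 2 + 1 = p ^ (n + 1) - 1 by omega, hτx, hs, hs', Nat.cast_sub (by omega),
      Nat.cast_pow, CharP.cast_eq_zero K p] at h3
    simp only [LinearMap.zero_apply, map_zero, zero_add, zero_pow n.succ_ne_zero, Nat.cast_one,
      zero_sub, neg_smul, one_smul, zero_eq_neg] at h3
    have h4 := congrArg v' (hinj0 (h3.trans (map_zero _).symm))
    rwa [← End.mul_apply, hv1, map_zero] at h4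
  have hmem : ∀ (g : G) (hg : g ∈ Q ⊓ centralizer (zpowers z : Set G)), ∀ f ∈ M,
      σ ⟨g, hg.1⟩ ∘ₗ f ∈ M := fun g hg f hf t v => by
    rw [comp_apply, comp_apply, hf, ← End.mul_apply, hcomm g hg, End.mul_apply]
  have h5 : τ x * σ c = σ c * τ x := LinearMap.ext fun y => by
    obtain ⟨w, rfl⟩ := hspan j' h0' h1' y
    rw [map_sum, map_sum]
    refine Finset.sum_congr rfl fun d _ => ?_
    have a1 := hM _ (hmem c ⟨c.2, hc⟩ _ (hmem d d.2 j' h1')) (w d)
    have a2 := hM _ (hmem d d.2 j' h1') (w d)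
    simp only [comp_apply] at a1 a2
    rw [End.mul_apply, End.mul_apply, a2]
    exact a1
  have h6 := hτσ (x * ⟨c, hQT' c.2⟩ * x⁻¹) (MulAut.conjNormal h c).2
  rw [map_mul, map_mul, hτσ ⟨c, hQT' c.2⟩ c.2, h5, mul_assoc, ← map_mul, mul_inv_cancel, map_one,
    mul_one] at h6
  exact h6.symm

end Cfsg.Agent.H7
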