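import Cfsg.Agent.H7.Gr1
import Cfsg.Agent.H7.Gr2

/-! Gross's bound on the `2`-length: the core computation. -/

set_option autoImplicit false

namespace Cfsg.Agent.H7

open Module LinearMap Subgroup H9
open scoped commutatorElement

variable {K : Type*} [Field K] {W : Type*} [AddCommGroup W] [Module K W] [FiniteDimensional K W]

theorem gr_exists_irrRep {Q : Type*} [Group Q] [Finite Q] (A : Subgroup Q) [hA : A.Normal]
    (hAK : (Nat.card A : K) ≠ 0) (ρ : Q →* End K W) (hρ : ∃ t ∈ A, ρ t ≠ 1) :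
    ∃ (S : Submodule K W) (σ : Q →* End K S), IrrRep σ ∧ (∀ t v, (σ t v : W) = ρ t v) ∧
      ¬ ∀ t ∈ A, σ t = 1 := by
  have := Fintype.ofFinite A
  let e : End K W := ∑ t : A, ρ t
  have he : ∀ t ∈ A, ∀ v, e (ρ t v) = e v := fun t ht v => by
    simp only [e, LinearMap.sum_apply]
    rw [← Equiv.sum_comp (Equiv.mulRight (⟨t, ht⟩ : A)) fun s : A => ρ s v]
    simp
  have he' : ∀ (t : Q) v, e (ρ t v) = ρ t (e v) := fun t v => by
    simp only [e, LinearMap.sum_apply, map_sum]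
    rw [← Equiv.sum_comp (MulAut.conjNormal (H := A) t).toEquiv fun s : A => ρ s (ρ t v)]
    refine Finset.sum_congr rfl fun s _ => ?_
    rw [← End.mul_apply, ← End.mul_apply, ← map_mul, ← map_mul]
    simp
  obtain ⟨S, σ, hσ, hS, hj⟩ := exists_irrRep_le ρ (W₀ := ker e) (by
    obtain ⟨t, ht, h⟩ := hρ
    refine fun h0 => h (LinearMap.ext fun v => ker_eq_bot.mp h0 (he t ht v)))
    fun t v hv => by rw [mem_ker, he', mem_ker.mp hv, map_zero]
  have := hσ.1
  refine ⟨S, σ, hσ, hj, fun h => ?_⟩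
  obtain ⟨v, hv⟩ := exists_ne (0 : S)
  have := mem_ker.mp (hS v.2)
  simp only [e, LinearMap.sum_apply] at this
  rw [Finset.sum_congr rfl (f := fun t : A => ρ t v) (g := fun _ => (v : W))
    fun t _ => (hj t v).symm.trans (by simp [h t t.2]),
    Finset.sum_const, Finset.card_univ, ← Nat.cast_smul_eq_nsmul K,
    ← Nat.card_eq_fintype_card] at this
  exact hv (Subtype.ext ((smul_eq_zero.mp this).resolve_left hAK))

theorem gr_mul_pow_mem {G : Type*} [Group G] {W : Subgroup G} {g w : G}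
    (hg : g ∈ normalizer (W : Set G)) (hw : w ∈ W) (n : ℕ) : (w * g) ^ n * (g ^ n)⁻¹ ∈ W := by
  induction n with
  | zero => simp
  | succ n ih =>
    have : (w * g) ^ (n + 1) * (g ^ (n + 1))⁻¹ = w * (g * ((w * g) ^ n * (g ^ n)⁻¹) * g⁻¹) := by
      rw [pow_succ', pow_succ]; group
    rw [this]
    exact mul_mem hw ((mem_normalizer_iff.mp hg _).mp ih)

variable {G : Type*} [Group G] [Finite G] [CharP K 2]

theorem gr_core [IsAlgClosed K] {q : ℕ} [hq : Fact q.Prime] (hpq : 2 ≠ q)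
    {Q P A : Subgroup G} [Q.Normal] (hQ : IsPGroup q Q) (hP : IsPGroup 2 P)
    (hc : ⁅Q, Q⁆ ≤ centralizer (Q : Set G)) (ρ : G →* End K W) (hρ : ∀ t ∈ Q, ρ t = 1 → t = 1)
    {e : ℕ} (h1 : ∀ x : G, (∃ k, x ^ 2 ^ k = 1) → x ^ 2 ^ (e + 2) = 1 ∧
      (ρ x - 1) ^ (2 ^ (e + 2) - 1) = 0) (hAP : A ≤ P) {g : G} (hgP : g ∈ P)
    (hg : g ∈ normalizer (A : Set G)) (h4 : ∀ w ∈ A, w ^ 4 = 1)
    (h2 : ∀ w ∈ A, ∀ v ∈ A, Commute (w ^ 2) v) (hA : A ≤ normalClosure {g ^ 2 ^ (e + 1)})
    {w : G} (hw : w ∈ A) :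
    ⁅(w * g) ^ 2 ^ e * (g ^ 2 ^ e)⁻¹, g ^ 2 ^ (e + 1)⁆ ∈ centralizer (Q : Set G) := by
  classical
  have hp : Fact (Nat.Prime 2) := ⟨Nat.prime_two⟩
  obtain ⟨a, hadef⟩ : ∃ a, a = ⁅(w * g) ^ 2 ^ e * (g ^ 2 ^ e)⁻¹, g ^ 2 ^ (e + 1)⁆ := ⟨_, rfl⟩
  rw [← hadef]
  have hPe : ∀ x ∈ P, ∃ k, x ^ 2 ^ k = 1 := fun x hx =>
    (hP ⟨x, hx⟩).imp fun k hk => congrArg Subtype.val hk
  have hNw := gr_mul_pow_mem hg hw (2 ^ e)
  have haP : a ∈ P := hadef ▸ commutator_le_self P
    (commutator_mem_commutator (hAP hNw) (pow_mem hgP _))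
  have hqK : (q : K) ≠ 0 := by
    rw [Ne, CharP.cast_eq_zero_iff K 2, Nat.prime_dvd_prime_iff_eq hp.out hq.out]; exact hpq
  have hQK' : ∀ {Q' : Subgroup G}, Q' ≤ Q → (Nat.card Q' : K) ≠ 0 := fun {Q'} h => by
    obtain ⟨a, ha⟩ := IsPGroup.iff_card.mp (hQ.to_le h)
    rw [ha]; simp [hqK]
  have hQK := hQK' le_rfl
  have hcop : ∀ {Z : Subgroup G}, Z ≤ P → (Nat.card Z).Coprime (Nat.card Q) := fun {Z} hZ => by
    obtain ⟨a, ha⟩ := IsPGroup.iff_card.mp hQ
    exact H1.coprime_card_of_isPGroup_of_coprime (hP.to_le hZ)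
      (ha ▸ Nat.Coprime.pow_left _ ((Nat.coprime_primes hq.out hp.out).mpr hpq.symm))
  have hn : ∀ Z : Subgroup G, Z ≤ normalizer (Q : Set G) := fun Z => by
    rw [normalizer_eq_top]; exact le_top
  have hle : ⁅Q, zpowers a⁆ ≤ Q := H1.commutator_le_left_of_le_normalizer (hn _)
  have hgen : ⁅⁅Q, zpowers a⁆, zpowers a⁆ = ⁅Q, zpowers a⁆ :=
    H1.commutator_commutator_eq (hn _) (hcop (zpowers_le.mpr haP))
  by_contra hne
  have hQa : (⁅Q, zpowers a⁆.subgroupOf Q).Normal :=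
    (normal_subgroupOf_iff_le_normalizer hle).mpr (normalizer_commutator_ge_left _ _)
  obtain ⟨S, σ, hσ, hj, hσ1⟩ := gr_exists_irrRep (⁅Q, zpowers a⁆.subgroupOf Q)
    (by rw [Nat.card_congr (subgroupOfEquivOfLe hle).toEquiv]; exact hQK' hle) (ρ.comp Q.subtype)
    (by
      by_contra h0
      push Not at h0
      refine hne (le_centralizer_iff.mp (commutator_eq_bot_iff_le_centralizer.mp
        (eq_bot_iff.mpr fun t ht => hρ t (hle ht) (h0 ⟨t, hle ht⟩ ht))) (mem_zpowers a)))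
  have := hσ.1
  have hcs : ∀ a b : Q, ⁅a, b⁆ ∈ scalSub σ := fun a b =>
    hσ.mem_scalSub_of_mem_centralizer (hc (commutator_mem_commutator a.2 b.2))
  have hZn : (scalSub σ).Normal := ⟨fun n hn g => by
    have := mul_mem (hcs g n) hn
    simpa [commutatorElement_def] using this⟩
  let _ : CommGroup (Q ⧸ scalSub σ) :=
    { QuotientGroup.Quotient.group (scalSub σ) with
      mul_comm := fun a b => by
        obtain ⟨a, rfl⟩ := QuotientGroup.mk_surjective a
        obtain ⟨b, rfl⟩ := QuotientGroup.mk_surjective b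
        rw [← QuotientGroup.mk_mul, ← QuotientGroup.mk_mul, QuotientGroup.eq]
        simpa [commutatorElement_def, mul_assoc] using hcs b⁻¹ a⁻¹ }
  let I : Subgroup G := P ⊓ inertia σ
  let φ : I → (Q ⧸ scalSub σ →* Q ⧸ scalSub σ) := fun g =>
    QuotientGroup.map _ _ (MulAut.conjNormal (H := Q) (g : G)).toMonoidHom
      fun t ht => mem_comap.mpr (conjNormal_mem_scalSub g.2.2 ht)
  let θ : I →* End ℤ (Additive (Q ⧸ scalSub σ)) :=
    { toFun := fun g => (MonoidHom.toAdditive (φ g)).toIntLinearMap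
      map_one' := LinearMap.ext fun w => by
        obtain ⟨a, ha⟩ := QuotientGroup.mk_surjective w.toMul
        rw [← ofMul_toMul w, ← ha]
        exact congrArg (fun t : Q => Additive.ofMul (t : Q ⧸ scalSub σ)) (by simp)
      map_mul' := fun g h => LinearMap.ext fun w => by
        obtain ⟨a, ha⟩ := QuotientGroup.mk_surjective w.toMul
        rw [← ofMul_toMul w, ← ha]
        exact congrArg (fun t : Q => Additive.ofMul (t : Q ⧸ scalSub σ)) (by simp) }
  have hθ : ∀ (g : I) (t : Q), θ g (Additive.ofMul (t : Q ⧸ scalSub σ)) =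
      Additive.ofMul ((MulAut.conjNormal (g : G) t : Q) : Q ⧸ scalSub σ) := fun _ _ => rfl
  have hsurj : ∀ u : Additive (Q ⧸ scalSub σ), ∃ t : Q, Additive.ofMul (t : Q ⧸ scalSub σ) = u :=
    fun u => by
      obtain ⟨a, ha⟩ := QuotientGroup.mk_surjective u.toMul
      exact ⟨a, by rw [ha, ofMul_toMul]⟩
  have hU : ∀ w : Additive (Q ⧸ scalSub σ), 2 • w = 0 → w = 0 := fun w hw => by
    obtain ⟨k, hk⟩ := hQ.to_quotient (scalSub σ) w.toMul
    have h3 : w.toMul ^ 2 = 1 := congrArg Additive.toMul hw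
    have := Nat.dvd_gcd (orderOf_dvd_of_pow_eq_one h3) (orderOf_dvd_of_pow_eq_one hk)
    rw [Nat.Coprime.pow_right k ((Nat.coprime_primes hp.out hq.out).mpr hpq), Nat.dvd_one,
      orderOf_eq_one_iff] at this
    exact congrArg Additive.ofMul this
  let θ' : I ⧸ θ.ker →* End ℤ (Additive (Q ⧸ scalSub σ)) := QuotientGroup.lift θ.ker θ fun _ h => h
  have hθ' : Function.Injective θ' := by
    rw [injective_iff_map_eq_one]
    intro g hg
    obtain ⟨g, rfl⟩ := QuotientGroup.mk_surjective g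
    exact (QuotientGroup.eq_one_iff g).mpr hg
  have hstab : ∀ x : G, (∃ k, x ^ 2 ^ k = 1) → ∃ k n, k + n = e + 1 ∧ x ^ 2 ^ k ∈ inertia σ ∧
      ∃ (j : S →ₗ[K] W) (u : End K S), j ≠ 0 ∧ (∀ t v, j (σ t v) = ρ t (j v)) ∧
        (∀ v, ρ (x ^ 2 ^ k) (j v) = j (u v)) ∧ (u - 1) ^ (2 ^ (n + 1) - 1) = 0 := fun x hx => by
    obtain ⟨k, hk, hI, j, u, h0, hj1, hj2, hs⟩ := hσ.exists_stable_pow hQK (ρ := ρ)
      subtype_ne_zero hj (h1 x hx).1 (h1 x hx).2
    obtain ⟨n, hn⟩ := Nat.exists_eq_add_of_le hk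
    rw [hn, hh_div] at hs
    rcases n with _ | n
    · simp at hs
    exact ⟨k, n, by omega, hI, j, u, h0, hj1, hj2, hs⟩
  have hAI : A ≤ I := le_inf hAP (hA.trans ((closure_le _).mpr fun y hy => by
    obtain ⟨_, rfl, hy⟩ := Group.mem_conjugatesOfSet_iff.mp hy
    obtain ⟨c, rfl⟩ := isConj_iff.mp hy
    obtain ⟨k, n, hkn, hI, -⟩ := hstab (c * g * c⁻¹) ((hPe g hgP).imp fun k hk => by
      rw [conj_pow, hk, mul_one, mul_inv_cancel])
    rw [← conj_pow, ← hkn, pow_add, pow_mul]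
    exact pow_mem hI _))
  obtain ⟨k, n, hkn, hI, j, u, h0, hj1, hj2, hs⟩ := hstab g (hPe g hgP)
  let h : I := ⟨g ^ 2 ^ k, pow_mem hgP _, hI⟩
  have hz : (g ^ 2 ^ k) ^ 2 ^ n = g ^ 2 ^ (e + 1) := by rw [← pow_mul, ← pow_add, hkn]
  have hh : (g ^ 2 ^ k) ^ 2 ^ (n + 1) = 1 := by
    rw [← pow_mul, ← pow_add, ← add_assoc, hkn, (h1 g (hPe g hgP)).1]
  let N : I := ⟨_, hAI hNw⟩
  have hcomm : θ ⁅N, h ^ 2 ^ n⁆ = 1 := by
    rcases gr_local hpq hQ hc hσ h0 hj1 hh hI hj2 hs with h5 | ⟨h5, h6⟩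
    · have h7 : θ (h ^ 2 ^ n) = 1 := LinearMap.ext fun u => by
        obtain ⟨t, rfl⟩ := hsurj u
        rw [hθ, End.one_apply]
        refine congrArg Additive.ofMul (QuotientGroup.eq_iff_div_mem.mpr ⟨1, ?_⟩)
        rw [one_smul]
        refine h5 _ ?_
        rw [commutator_comm, div_eq_mul_inv]
        exact commutator_mem_commutator (mem_zpowers _) t.2
      have : ⁅N, h ^ 2 ^ n⁆ ∈ θ.ker := commutator_le_right ⊤ θ.ker
        (commutator_mem_commutator (mem_top _) h7)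
      exact this
    have hn1 : 1 ≤ n := by
      rcases n with _ | n
      · simp at h5
      · omega
    have hzP : zpowers ((g ^ 2 ^ k) ^ 2 ^ n) ≤ P := zpowers_le.mpr (pow_mem (pow_mem hgP _) _)
    have hzz : ((h ^ 2 ^ n : I) : G) = (g ^ 2 ^ k) ^ 2 ^ n := rfl
    have H : GRefl θ' (QuotientGroup.mk' θ.ker h) n :=
      { pos := hn1
        pow := by rw [← map_pow, show h ^ 2 ^ (n + 1) = 1 from Subtype.ext hh, map_one]
        fix := fun u hu => by
          rw [← map_pow] at hu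
          change θ (h ^ 2 ^ n) u = u at hu
          change θ h u = u
          obtain ⟨t, rfl⟩ := hsurj u
          have hzs : zpowers ((g ^ 2 ^ k) ^ 2 ^ n) ≤
              (hhSt θ (Additive.ofMul (t : Q ⧸ scalSub σ))).map I.subtype :=
            zpowers_le.mpr ⟨h ^ 2 ^ n, hu, rfl⟩
          obtain ⟨_, ⟨s, hs, rfl⟩, hst⟩ := H1.exists_fixed_in_right_coset
            (A := zpowers ((g ^ 2 ^ k) ^ 2 ^ n)) (N := (scalSub σ).map Q.subtype)
            (fun y hy => mem_normalizer_fintype (by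
              rintro _ ⟨s, hs, rfl⟩
              obtain ⟨y, -, rfl⟩ := hzs hy
              exact ⟨_, conjNormal_mem_scalSub y.2.2 hs, rfl⟩))
            ((hcop hzP).coprime_dvd_right (card_dvd_of_le (map_subtype_le _)))
            (Or.inl (H1.isSolvable_zpowers _)) (x := t) (fun y hy => by
              obtain ⟨y, hy', rfl⟩ := hzs hy
              have h8 := QuotientGroup.eq_iff_div_mem.mp
                (Additive.ofMul.injective ((hθ y t).symm.trans hy'))
              exact ⟨_, h8, by simp [commutatorElement_def, div_eq_mul_inv]⟩)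
          have h7 : ((s * t : Q) : Q ⧸ scalSub σ) = t := by
            rw [QuotientGroup.mk_mul, (QuotientGroup.eq_one_iff s).mpr hs, one_mul]
          rw [← h7, hθ]
          refine congrArg Additive.ofMul (QuotientGroup.eq_iff_div_mem.mpr ⟨1, ?_⟩)
          rw [one_smul, div_eq_mul_inv, map_mul, h6 (s * t) hst, ← map_mul, mul_inv_cancel, map_one]
        small := fun f hf hf' => by
          choose b hb using fun i => hsurj (f i)
          have h3 : ∀ i, 2 • f i = Additive.ofMul ((b i *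
              (MulAut.conjNormal ((h ^ 2 ^ n : I) : G) (b i))⁻¹ : Q) : Q ⧸ scalSub σ) := fun i => by
            have h7 := hf' i
            rw [← map_pow] at h7
            change θ (h ^ 2 ^ n) _ = _ at h7
            rw [← hb i, hθ] at h7
            rw [QuotientGroup.mk_mul, QuotientGroup.mk_inv, ofMul_mul, ofMul_inv, h7, hb i, neg_neg,
              two_nsmul]
          have := hh_bound hpq hQ hc hσ h0 hj1 hh hI hj2 hs
            (fun i => b i * (MulAut.conjNormal ((h ^ 2 ^ n : I) : G) (b i))⁻¹) (fun i => by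
              have := commutator_mem_commutator (b i).2 (mem_zpowers ((g ^ 2 ^ k) ^ 2 ^ n))
              rw [coe_mul, InvMemClass.coe_inv, MulAut.conjNormal_apply, hzz]
              simpa [commutatorElement_def, mul_assoc] using this) fun i j hij => hf (by
                rw [← sub_eq_zero]
                refine hU _ ?_
                rw [smul_sub, h3, h3, sub_eq_zero]
                exact congrArg Additive.ofMul (QuotientGroup.eq_iff_div_mem.mpr (by
                  rwa [div_eq_mul_inv])))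
          simp [sq] at this }
    let π := QuotientGroup.mk' θ.ker
    let w₁ : I := ⟨_, hAI (gr_mul_pow_mem hg hw (2 ^ k))⟩
    have hw₁ : ((w₁ * h : I) : G) = (w * g) ^ 2 ^ k := by simp [w₁, h]
    have h7 := GRefl.commute_of_pow hU ((hP.to_le (inf_le_left : I ≤ P)).to_quotient θ.ker) hθ' H
      (W := (A.subgroupOf I).map π) (by
        rintro _ ⟨v, hv, rfl⟩
        exact ⟨h⁻¹ * v * h, (mem_normalizer_iff''.mp (pow_mem hg (2 ^ k)) _).mp hv, by simp [π]⟩)
      (by
        rintro _ ⟨v, hv, rfl⟩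
        rw [← map_pow, show v ^ 4 = 1 from Subtype.ext (h4 v hv), map_one])
      (by
        rintro _ ⟨v, hv, rfl⟩ _ ⟨v', hv', rfl⟩
        rw [← map_pow]
        exact Commute.map (show Commute (v ^ 2) v' from Subtype.ext (h2 v hv v' hv').eq) π)
      (w := π w₁) ⟨w₁, gr_mul_pow_mem hg hw (2 ^ k), rfl⟩ (by
        rw [← map_mul, ← map_pow, show (w₁ * h) ^ 2 ^ (n + 1) = 1 from Subtype.ext (by
          rw [SubmonoidClass.coe_pow, hw₁, ← pow_mul, ← pow_add, ← add_assoc, hkn]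
          exact (h1 _ (hPe _ (mul_mem (hAP hw) hgP))).1), map_one])
    obtain ⟨n, rfl⟩ := Nat.exists_eq_add_of_le' hn1
    have h8 : N = (w₁ * h) ^ 2 ^ n * (h ^ 2 ^ n)⁻¹ := Subtype.ext (by
      rw [coe_mul, SubmonoidClass.coe_pow, InvMemClass.coe_inv, hw₁, SubmonoidClass.coe_pow]
      simp only [N, h]
      rw [← pow_mul, ← pow_mul, ← pow_add, show k + n = e by omega])
    change θ' (π _) = 1
    rw [map_commutatorElement, h8, map_mul, map_inv, map_pow, map_pow, map_pow, map_mul,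
      commutatorElement_eq_one_iff_commute.mpr (((h7.mul_left ((Commute.refl _).pow_right _)).pow_left
        _).mul_left ((Commute.refl _).pow_pow _ _).inv_left), map_one]
  have haI : zpowers a ≤ θ.ker.map I.subtype := zpowers_le.mpr ⟨_, hcomm, by
    rw [hadef, ← hz]; rfl⟩
  have h5 : ⁅Q, zpowers a⁆ ≤ (scalSub σ).map Q.subtype := commutator_le.mpr fun t ht g hg => by
    obtain ⟨g, hg', rfl⟩ := haI hg
    have h5 := hθ g (⟨t, ht⟩ : Q)
    rw [show θ g = 1 from hg', End.one_apply] at h5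
    refine ⟨⟨t, ht⟩ * (MulAut.conjNormal (g : G) ⟨t, ht⟩)⁻¹, ?_,
      by simp [commutatorElement_def, mul_assoc]⟩
    have := QuotientGroup.eq_iff_div_mem.mp (Additive.ofMul.injective h5)
    rwa [div_eq_mul_inv] at this
  have h6 : ⁅Q, zpowers a⁆ ≤ σ.ker.map Q.subtype := hgen.ge.trans
    (commutator_le.mpr fun t ht g hg => by
      obtain ⟨g, hg, rfl⟩ := haI hg
      obtain ⟨s, ⟨c, hs⟩, hst⟩ := h5 ht
      obtain rfl : s = t := hst
      refine ⟨s * (MulAut.conjNormal (g : G) s)⁻¹, ?_, by simp [commutatorElement_def, mul_assoc]⟩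
      change σ _ = 1
      rw [map_mul, hs, ← conjNormal_eq_of_mem_inertia g.2.2 hs, ← map_mul, mul_inv_cancel, map_one])
  refine hσ1 fun t ht => ?_
  obtain ⟨s, hs, hst⟩ := h6 ht
  obtain rfl : s = t := Subtype.ext hst
  exact hs

end Cfsg.Agent.H7
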