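import Cfsg.Agent.H7.Gr3

/-! Gross's bound on the `2`-length of a solvable group. -/

set_option autoImplicit false

namespace Cfsg.Agent.H7

open Module LinearMap Subgroup H9
open scoped commutatorElement

universe u

variable {G : Type*} [Group G] [Finite G]

theorem gr_final {V R : Subgroup G} [V.Normal] (hV : IsElementaryAbelian 2 V)
    (hR : (Nat.card R).Coprime 2) {g : G} {e : ℕ} (hg : g ^ 2 ^ (e + 2) = 1)
    (hgR : g ∈ normalizer (R : Set G)) (hz : R ≤ ⁅R, zpowers (g ^ 2 ^ (e + 1))⁆)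
    (hRV : ¬ R ≤ centralizer (V : Set G))
    (h : ∀ v ∈ V, Commute ((v * g) ^ 2 ^ e * (g ^ 2 ^ e)⁻¹) (g ^ 2 ^ (e + 1))) : False := by
  have hp : Fact (Nat.Prime 2) := ⟨Nat.prime_two⟩
  have h7 : (eaRepN hV g - 1) ^ (2 ^ (e + 1) + (2 ^ e - 1)) = 0 := by
    rw [pow_add, sub_one_pow_char_pow (K := ZMod 2), sub_one_pow_pred_eq_sum (K := ZMod 2)]
    refine LinearMap.ext fun v => ?_
    have h8 := (h _ (EAMod.val_mem v)).eq
    rw [← val_sum_eaRepN_pow hV, mul_inv_cancel_right] at h8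
    rw [End.mul_apply, LinearMap.sub_apply, End.one_apply, LinearMap.zero_apply, sub_eq_zero,
      ← map_pow]
    exact EAMod.ext' (by rw [val_eaRepN, ← h8, mul_inv_cancel_right])
  let φ := eaRepN hV
  let π := QuotientGroup.mk' φ.ker
  let φ' : G ⧸ φ.ker →* End (ZMod 2) (EAMod hV) := QuotientGroup.lift φ.ker φ fun _ h => h
  have hφ' : ∀ t, φ' t = 1 → t = 1 := fun t ht => by
    obtain ⟨t, rfl⟩ := QuotientGroup.mk_surjective t
    exact (QuotientGroup.eq_one_iff t).mpr ht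
  have hpos := pow_pos hp.out.pos e
  rcases hall_higman_B' (L := R.map π) (x := π g) (n := e + 1)
    (hR.coprime_dvd_left (card_map_dvd R π)) (by rw [← map_pow, hg, map_one])
    (le_normalizer_map π ⟨g, hgR, rfl⟩) (fun hc => hRV (by
      rw [← ker_eaRepN hV, ← QuotientGroup.ker_mk' (eaRepN hV).ker, ← Subgroup.map_eq_bot_iff]
      refine eq_bot_iff.mpr ((map_mono hz).trans ?_)
      rw [map_commutator, MonoidHom.map_zpowers, le_bot_iff, commutator_eq_bot_iff_le_centralizer,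
        le_centralizer_iff, zpowers_le, map_pow]
      exact hc)) φ' (fun t _ => hφ' t) h7 with h8 | ⟨n₀, q, m, -, h8, h9, hq, hm, h10, -, -, -, h11⟩
  · rw [pow_succ, pow_succ] at h8
    omega
  · have h12 : 2 ≤ n₀ := by
      by_contra h12
      obtain rfl : n₀ = 1 := by omega
      have := Nat.one_lt_pow (show m ≠ 0 by omega) hq.one_lt
      omega
    obtain ⟨b, rfl⟩ := Nat.exists_eq_add_of_le h12
    obtain ⟨a, rfl⟩ : ∃ a, e = a + b := ⟨e - b, by omega⟩
    rw [show a + b + 1 + 1 - (2 + b) = a by omega, pow_succ, pow_add, pow_add, Nat.mul_sub,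
      mul_one] at h11
    have h13 := pow_pos hp.out.pos a
    have h14 := Nat.le_mul_of_pos_right (2 ^ a) (pow_pos hp.out.pos b)
    rw [mul_left_comm] at h11
    omega

variable {K : Type*} [Field K] {W : Type*} [AddCommGroup W] [Module K W] [FiniteDimensional K W]
  [CharP K 2]

theorem gr_false (hG : Group.IsSolvable G) (hO : pCore 2 G = ⊥) (ρ : G →* End K W)
    (hρ : Function.Injective ρ) {e : ℕ} (h1 : ∀ x : G, (∃ k, x ^ 2 ^ k = 1) →
      x ^ 2 ^ (e + 2) = 1 ∧ (ρ x - 1) ^ (2 ^ (e + 2) - 1) = 0) {S R : Subgroup G}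
    (hS : IsPGroup 2 S) (hR : (Nat.card R).Coprime 2) {g : G} (hg : ∃ k, g ^ 2 ^ k = 1)
    (hgS : g ∈ normalizer (S : Set G)) (hgR : g ∈ normalizer (R : Set G))
    (hRS : R ≤ normalizer (S : Set G)) (hz : R ≤ ⁅R, zpowers (g ^ 2 ^ (e + 1))⁆)
    (hne : ⁅S, R⁆ ≠ ⊥) : False := by
  have hp : Fact (Nat.Prime 2) := ⟨Nat.prime_two⟩
  have hZ : IsPGroup 2 (zpowers g) := by
    obtain ⟨k, hk⟩ := hg
    obtain ⟨k, -, hk⟩ := (Nat.dvd_prime_pow hp.out).mp (orderOf_dvd_of_pow_eq_one hk)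
    exact IsPGroup.of_card (by rw [Nat.card_zpowers, hk])
  obtain ⟨A, ⟨hAS, hBA, hAR⟩, hmin⟩ := WellFounded.has_min (wellFounded_lt (α := Subgroup G))
    {A | A ≤ S ∧ R ⊔ zpowers g ≤ normalizer (A : Set G) ∧ ⁅A, R⁆ ≠ ⊥}
    ⟨S, le_rfl, sup_le hRS (zpowers_le.mpr hgS), hne⟩
  have hA := hS.to_le hAS
  have hmin' : ∀ U < A, R ⊔ zpowers g ≤ normalizer (U : Set G) → ⁅U, R⁆ = ⊥ :=
    fun U hU hXU => by_contra fun h0 => hmin U ⟨hU.le.trans hAS, hXU, h0⟩ hU
  obtain ⟨a1, a2, a3, a4, -⟩ := H1.hall_higman_reduction hA hBA le_sup_left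
    (sup_le le_normalizer (zpowers_le.mpr hgR)) hR hAR hmin'
  have hgA : g ∈ normalizer (A : Set G) := hBA (mem_sup_right (mem_zpowers g))
  have hsq : ∀ w ∈ A, w ^ 2 ∈ ⁅A, A⁆ := fun w hw => a3 ▸ H1.pow_mem_map_frattini hA hw
  have h2 : ∀ w ∈ A, ∀ v ∈ A, Commute (w ^ 2) v := fun w hw v hv => (a4 (hsq w hw) v hv).symm
  have h4 : ∀ w ∈ A, w ^ 4 = 1 := fun w hw => by
    let Ω : Subgroup G :=
      { carrier := {x | x ∈ ⁅A, A⁆ ∧ x ^ 2 = 1}
        one_mem' := ⟨one_mem _, one_pow _⟩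
        mul_mem' := fun {a b} ha hb => ⟨mul_mem ha.1 hb.1, by
          rw [Commute.mul_pow (a4 hb.1 a (commutator_le_self _ ha.1)), ha.2, hb.2, mul_one]⟩
        inv_mem' := fun {a} ha => ⟨inv_mem ha.1, by rw [inv_pow, ha.2, inv_one]⟩ }
    have : ⁅A, A⁆ ≤ Ω := commutator_le.mpr fun x hx y hy =>
      ⟨commutator_mem_commutator hx hy, by
        rw [← commutatorElement_pow_left_of_commute
          (a4 (commutator_mem_commutator hx hy) x hx).symm, commutatorElement_eq_one_iff_commute]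
        exact h2 x hx y hy⟩
    rw [show 4 = 2 * 2 from rfl, pow_mul]
    exact (this (hsq w hw)).2
  have hA0 : A ≠ ⊥ := by rintro rfl; simp at hAR
  obtain ⟨q, hq⟩ : ∃ q : Nat.Primes, ⁅pCore q G, A⁆ ≠ ⊥ := by
    by_contra h0
    push Not at h0
    refine hA0 (eq_bot_iff.mpr (hO ▸ H1.le_pCore_of_le_fittingSubgroup hA
      (le_trans ?_ (H1.centralizer_fittingSubgroup_le hG))))
    rw [le_centralizer_iff, H1.fittingSubgroup_eq_iSup_pCore]
    exact iSup_le fun q => commutator_eq_bot_iff_le_centralizer.mp (h0 q)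
  have := Fact.mk q.2
  have hpq : 2 ≠ (q : ℕ) := fun h => hq (by rw [← h, hO, commutator_bot_left])
  obtain ⟨Q, ⟨hQq, hBQ, hQA⟩, hminQ⟩ := WellFounded.has_min (wellFounded_lt (α := Subgroup G))
    {Q | Q ≤ pCore q G ∧ A ⊔ (R ⊔ zpowers g) ≤ normalizer (Q : Set G) ∧ ⁅Q, A⁆ ≠ ⊥}
    ⟨_, le_rfl, by rw [normalizer_eq_top]; exact le_top, hq⟩
  have hQ := (H1.isPGroup_pCore q G).to_le hQq
  obtain ⟨-, -, -, b4, -⟩ := H1.hall_higman_reduction hQ hBQ le_sup_left
    (sup_le le_normalizer hBA) (H1.coprime_card_of_isPGroup_of_coprime hA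
      ((Nat.coprime_primes q.2 hp.out).mpr hpq.symm)) hQA
    fun U hU hXU => by_contra fun h0 => hminQ U ⟨hU.le.trans hQq, hXU, h0⟩ hU
  have hAC : A ⊓ centralizer (Q : Set G) ≤ ⁅A, A⁆ := by
    rw [← a2]
    refine le_inf inf_le_left (commutator_eq_bot_iff_le_centralizer.mp (hmin' _
      (inf_lt_left.mpr fun h => hQA ?_) (H1.le_normalizer_inf hBA
        (H1.le_normalizer_centralizer (le_sup_right.trans hBQ)))))
    rwa [commutator_eq_bot_iff_le_centralizer, le_centralizer_iff]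
  have key : ∀ w ∈ A, ⁅(w * g) ^ 2 ^ e * (g ^ 2 ^ e)⁻¹, g ^ 2 ^ (e + 1)⁆ ∈ ⁅A, A⁆ := fun w hw => by
    refine hAC ⟨H1.commutator_le_left_of_le_normalizer (zpowers_le.mpr (pow_mem hgA _))
      (commutator_mem_commutator (gr_mul_pow_mem hgA hw _) (mem_zpowers _)), ?_⟩
    let K' := AlgebraicClosure K
    let M := normalizer (Q : Set G)
    have hAM : A ≤ M := le_sup_left.trans hBQ
    have hRM : R ≤ M := (le_sup_left.trans le_sup_right).trans hBQ
    have hZM : zpowers g ≤ M := (le_sup_right.trans le_sup_right).trans hBQ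
    have hQM : (Q.subgroupOf M).map M.subtype = Q := map_subgroupOf_eq_of_le le_normalizer
    let g' : M := ⟨g, hZM (mem_zpowers g)⟩
    let b := End.baseChangeHom K K' W
    have hb : Function.Injective b := LinearMap.baseChangeHom_injective K W K'
    have hRN : R.subgroupOf M ≤ normalClosure {g' ^ 2 ^ (e + 1)} := by
      refine le_trans ?_ (commutator_le_right (R.subgroupOf M) _)
      refine le_trans ?_ (commutator_mono le_rfl (zpowers_le.mpr (subset_normalClosure rfl)))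
      rw [← map_le_map_iff_of_injective M.subtype_injective, map_commutator,
        map_subgroupOf_eq_of_le hRM, MonoidHom.map_zpowers]
      exact hz
    have := gr_core (K := K') (Q := Q.subgroupOf M) (P := (A ⊔ zpowers g).subgroupOf M)
      (A := A.subgroupOf M) (e := e) hpq hQ.comap_subtype
      (IsPGroup.to_sup_of_normal_left' hA hZ (zpowers_le.mpr hgA)).comap_subtype
      (fun t ht s hs => Subtype.ext (b4 (by
        rw [← hQM, ← map_commutator]; exact mem_map_of_mem _ ht) s hs))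
      (b.toRingHom.toMonoidHom.comp (ρ.comp M.subtype))
      (fun t _ h => Subtype.ext (hρ ((hb (h.trans (map_one b).symm)).trans (map_one ρ).symm)))
      (fun x hx => by
        obtain ⟨h5, h6⟩ := h1 x (hx.imp fun k hk => congrArg Subtype.val hk)
        refine ⟨Subtype.ext h5, ?_⟩
        have := congrArg b h6
        rwa [map_pow, map_sub, map_one, map_zero] at this)
      (comap_mono le_sup_left) (g := g') (mem_sup_right (mem_zpowers g))
      (mem_normalizer_iff.mpr fun x => mem_normalizer_iff.mp hgA x)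
      (fun w hw => Subtype.ext (h4 w hw)) (fun w hw v hv => Subtype.ext (h2 w hw v hv).eq)
      (by
        refine le_trans ?_ ((commutator_mono le_rfl hRN).trans
          (commutator_le_right (A.subgroupOf M) _))
        rw [← map_le_map_iff_of_injective M.subtype_injective, map_commutator,
          map_subgroupOf_eq_of_le hRM, map_subgroupOf_eq_of_le hAM, a1])
      (w := ⟨w, hAM hw⟩) hw
    exact fun s hs => congrArg Subtype.val (this ⟨s, le_normalizer hs⟩ hs)
  let N := normalizer (A : Set G)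
  have hAN : (A.subgroupOf N).map N.subtype = A := map_subgroupOf_eq_of_le le_normalizer
  have hRN : R ≤ N := le_sup_left.trans hBA
  have hmem : ∀ x : N, x ∈ ⁅A.subgroupOf N, A.subgroupOf N⁆ ↔ (x : G) ∈ ⁅A, A⁆ := fun x => by
    rw [← mem_map_iff_mem N.subtype_injective, map_commutator, hAN]; rfl
  let π := QuotientGroup.mk' ⁅A.subgroupOf N, A.subgroupOf N⁆
  have hVn : ((A.subgroupOf N).map π).Normal := Normal.map inferInstance _
    (QuotientGroup.mk'_surjective _)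
  let g' : N := ⟨g, hgA⟩
  refine gr_final (V := (A.subgroupOf N).map π) (R := (R.subgroupOf N).map π) (g := π g') (e := e)
    ?_ ?_ ?_ ?_ ?_ ?_ ?_
  · refine ⟨isMulCommutative_iff'.mpr ?_, ?_⟩
    · rintro _ ⟨v, hv, rfl⟩ _ ⟨v', hv', rfl⟩
      rw [← commutatorElement_eq_one_iff_mul_comm, ← map_commutatorElement]
      exact (QuotientGroup.eq_one_iff _).mpr (commutator_mem_commutator hv hv')
    · rintro _ ⟨v, hv, rfl⟩
      rw [← map_pow]
      exact (QuotientGroup.eq_one_iff _).mpr ((hmem _).mpr (hsq v hv))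
  · refine (hR.coprime_dvd_left ?_).coprime_dvd_left (card_map_dvd _ π)
    rw [Nat.card_congr (subgroupOfEquivOfLe hRN).toEquiv]
  · rw [← map_pow, show g' ^ 2 ^ (e + 2) = 1 from Subtype.ext (h1 g hg).1, map_one]
  · exact le_normalizer_map π ⟨g', mem_normalizer_iff.mpr fun x => mem_normalizer_iff.mp hgR x, rfl⟩
  · rw [← map_pow, ← MonoidHom.map_zpowers, ← map_commutator]
    refine map_mono ?_
    rw [← map_le_map_iff_of_injective N.subtype_injective, map_commutator,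
      map_subgroupOf_eq_of_le hRN, MonoidHom.map_zpowers]
    exact hz
  · rw [le_centralizer_iff, ← commutator_eq_bot_iff_le_centralizer, ← map_commutator,
      Subgroup.map_eq_bot_iff, QuotientGroup.ker_mk',
      ← map_le_map_iff_of_injective N.subtype_injective, map_commutator, map_commutator,
      map_subgroupOf_eq_of_le hRN, hAN, a1, ← a2]
    exact fun h => hAR (commutator_eq_bot_iff_le_centralizer.mpr (h.trans inf_le_right))
  · rintro _ ⟨v, hv, rfl⟩
    rw [← commutatorElement_eq_one_iff_commute, ← map_mul, ← map_pow, ← map_pow, ← map_pow,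
      ← map_inv, ← map_mul, ← map_commutatorElement]
    exact (QuotientGroup.eq_one_iff _).mpr ((hmem _).mpr (key v hv))

theorem gr_step (hG : Group.IsSolvable G) (hO : pCore 2 G = ⊥) (ρ : G →* End K W)
    (hρ : Function.Injective ρ) {e : ℕ} (h1 : ∀ x : G, (∃ k, x ^ 2 ^ k = 1) →
      x ^ 2 ^ (e + 2) = 1 ∧ (ρ x - 1) ^ (2 ^ (e + 2) - 1) = 0) (y : G ⧸ opMod 2 (pPrimeCore 2 G))
    (hy : ∃ k, y ^ 2 ^ k = 1) : y ^ 2 ^ (e + 1) = 1 := by
  have hp : Fact (Nat.Prime 2) := ⟨Nat.prime_two⟩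
  have hG' : IsPSolvable 2 G := isPSolvable_of_isSolvable hG
  let π := QuotientGroup.mk' (opMod 2 (pPrimeCore 2 G))
  have hπ : Function.Surjective π := QuotientGroup.mk'_surjective _
  have hO' : pCore 2 (G ⧸ opMod 2 (pPrimeCore 2 G)) = ⊥ := opMod_eq_self_iff.mp
    (le_antisymm (opMod_le_of_le_opMod (N := pPrimeCore 2 G) le_rfl) (le_opMod _ _))
  obtain ⟨L, hL⟩ : ∃ L, L = pPrimeCore 2 (G ⧸ opMod 2 (pPrimeCore 2 G)) := ⟨_, rfl⟩
  have hLn : L.Normal := hL ▸ inferInstance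
  have hLc : (Nat.card L).Coprime 2 := hL ▸ H1.coprime_card_pPrimeCore 2 _
  have hLC : centralizer (L : Set (G ⧸ opMod 2 (pPrimeCore 2 G))) ≤ L :=
    hL ▸ centralizer_pPrimeCore_le_of_isPSolvable (isPSolvable_of_surjective π hπ hG') hO'
  have hL1 : ∀ t ∈ L, (∃ k, t ^ 2 ^ k = 1) → t = 1 := by
    rintro t ht ⟨k, hk⟩
    have := Nat.dvd_gcd (Subgroup.orderOf_dvd_natCard _ ht) (orderOf_dvd_of_pow_eq_one hk)
    rwa [Nat.Coprime.pow_right k hLc, Nat.dvd_one, orderOf_eq_one_iff] at this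
  obtain ⟨S, hS⟩ := H3.exists_sylowIn 2 (pPrimePCore 2 G)
  have hSC : centralizer (S : Set G) ≤ opMod 2 (pPrimeCore 2 G) := (centralizer_le_pPrimePCore_iff hS).mpr
    (isPConstrained_iff.mp (isPConstrained_of_isPSolvable hG'))
  have hF : ∀ x : G ⧸ opMod 2 (pPrimeCore 2 G), ∃ m ∈ normalizer (S : Set G), π m = x := fun x => by
    obtain ⟨x, rfl⟩ := hπ x
    obtain ⟨n, hn, m, hm, rfl⟩ := hS.frattini (g := x)
      (le_normalizer_of_normal (H := opMod 2 (pPrimeCore 2 G)) (K := ⊤) (mem_top x))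
    exact ⟨m, hm, by rw [map_mul, show π n = 1 from (QuotientGroup.eq_one_iff n).mpr hn, one_mul]⟩
  let L₁ : Subgroup G := normalizer (S : Set G) ⊓ L.comap π
  have hL₁ : Group.IsSolvable L₁ := inferInstance
  obtain ⟨D, hD⟩ := H1.exists_isPiHallOf ({2}ᶜ : Set ℕ) hL₁
  obtain ⟨hDL, hD1, hD2⟩ := H1.isPiHallOf_iff.mp hD
  have hD1' := (H1.isPiNum_compl_singleton_iff hp.out).mp hD1
  have hLL : L₁.map π = L := le_antisymm (map_le_iff_le_comap.mpr inf_le_right) fun t ht => by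
    obtain ⟨m, hm, rfl⟩ := hF t
    exact ⟨m, ⟨hm, ht⟩, rfl⟩
  have hDm : L ≤ D.map π := by
    rw [← relIndex_eq_one]
    refine H1.IsPiNum.eq_one (π := ({2}ᶜ : Set ℕ)) (((H1.isPiNum_compl_singleton_iff hp.out).mpr
      hLc).of_dvd (relIndex_dvd_card _ _)) (hD2.of_dvd ?_)
    rw [← hLL]
    exact relIndex_map_dvd π D L₁
  let T : Subgroup G := normalizer (S : Set G) ⊓ normalizer (D : Set G)
  let f : T →* (G ⧸ opMod 2 (pPrimeCore 2 G)) ⧸ L := ((QuotientGroup.mk' L).comp π).comp T.subtype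
  have hf : Function.Surjective f := fun x => by
    obtain ⟨x, rfl⟩ := QuotientGroup.mk'_surjective L x
    obtain ⟨m, hm, rfl⟩ := hF x
    obtain ⟨l, hl, hlm⟩ := H1.exists_mul_normalizer_of_isPiHallOf (H1.hallHyp_of_isSolvable _ hL₁)
      hD (g := m) (H1.le_normalizer_inf le_normalizer le_normalizer_of_normal hm)
    refine ⟨⟨l⁻¹ * m, mem_inf.mpr ⟨mul_mem (mem_inf.mp (inv_mem hl)).1 hm, hlm⟩⟩, ?_⟩
    change QuotientGroup.mk' L (π (l⁻¹ * m)) = _
    rw [map_mul, map_mul, show QuotientGroup.mk' L (π l⁻¹) = 1 from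
      (QuotientGroup.eq_one_iff _).mpr (mem_inf.mp (inv_mem hl)).2, one_mul]
  obtain ⟨k, hk⟩ := hy
  obtain ⟨g, hg, hgy⟩ := exists_pElt_lift (p := 2) (n := k) hf (y := QuotientGroup.mk' L y)
    (by rw [← map_pow, hk, map_one])
  have hg' : ∃ k, (g : G) ^ 2 ^ k = 1 := hg.imp fun k hk => congrArg Subtype.val hk
  have hg2 : ∃ k, ((g : G) ^ 2 ^ (e + 1)) ^ 2 ^ k = 1 := hg'.imp fun k hk => by
    rw [← pow_mul, mul_comm, pow_mul, hk, one_pow]
  have hZ : IsPGroup 2 (zpowers ((g : G) ^ 2 ^ (e + 1))) := by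
    obtain ⟨k, hk⟩ := hg2
    obtain ⟨k, -, hk⟩ := (Nat.dvd_prime_pow hp.out).mp (orderOf_dvd_of_pow_eq_one hk)
    exact IsPGroup.of_card (by rw [Nat.card_zpowers, hk])
  have hZD : zpowers ((g : G) ^ 2 ^ (e + 1)) ≤ normalizer (D : Set G) :=
    zpowers_le.mpr (pow_mem g.2.2 _)
  have hle := H1.commutator_le_left_of_le_normalizer hZD
  have h2 : π (g ^ 2 ^ (e + 1)) = 1 := by
    by_contra hne
    refine gr_false hG hO ρ hρ h1 (S := S) (R := ⁅D, zpowers ((g : G) ^ 2 ^ (e + 1))⁆) hS.isPGroup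
      (hD1'.coprime_dvd_left (card_dvd_of_le hle)) hg' g.2.1
      (le_normalizer_commutator (zpowers_le.mpr g.2.2)
        (le_normalizer_of_le_centralizer (le_centralizer_iff'.mpr fun a ha b hb =>
          isMulCommutative_iff'.mp inferInstance a ha b
            (zpowers_le.mpr (pow_mem (mem_zpowers _) _) hb))) (mem_zpowers _))
      (hle.trans (hDL.trans inf_le_left))
      (H1.commutator_commutator_eq hZD (H1.coprime_card_of_isPGroup_of_coprime hZ hD1')).ge
      fun h0 => hne (hL1 _ (hLC ?_) (hg2.imp fun k hk => by rw [← map_pow, hk, map_one]))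
    rw [commutator_eq_bot_iff_le_centralizer, le_centralizer_iff] at h0
    have h3 : (⁅D, zpowers ((g : G) ^ 2 ^ (e + 1))⁆).map π = ⊥ := by
      rw [Subgroup.map_eq_bot_iff, QuotientGroup.ker_mk']
      exact h0.trans hSC
    rw [map_commutator, MonoidHom.map_zpowers, commutator_eq_bot_iff_le_centralizer] at h3
    exact le_centralizer_iff.mp (hDm.trans h3) (mem_zpowers _)
  refine hL1 _ ?_ ⟨k, by rw [← pow_mul, mul_comm, pow_mul, hk, one_pow]⟩
  rw [← QuotientGroup.eq_one_iff, ← QuotientGroup.mk'_apply, map_pow, ← hgy, ← map_pow]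
  change QuotientGroup.mk' L (π (g ^ 2 ^ (e + 1))) = 1
  rw [h2, map_one]

omit [Finite G] in
theorem gross_pLengthLE (e : ℕ) : ∀ {G : Type u} [Group G] [Finite G],
    Group.IsSolvable G → (∀ x : G, (∃ k, x ^ 2 ^ k = 1) → x ^ 2 ^ (e + 1) = 1) →
      PLengthLE 2 (2 * e + 1) G := by
  have hp : Fact (Nat.Prime 2) := ⟨Nat.prime_two⟩
  have key : ∀ (e l : ℕ) {G : Type u} [Group G] [Finite G], Group.IsSolvable G →
      (∀ x : G, (∃ k, x ^ 2 ^ k = 1) → x ^ 2 ^ e = 1) →
      (∀ (H : Type u) [Group H] [Finite H] (V : Type u) [AddCommGroup V] [Module (ZMod 2) V]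
        [FiniteDimensional (ZMod 2) V] (ρ : H →* End (ZMod 2) V), Group.IsSolvable H →
        pCore 2 H = ⊥ → Function.Injective ρ → (∀ x : H, (∃ k, x ^ 2 ^ k = 1) → x ^ 2 ^ e = 1 ∧
        (ρ x - 1) ^ (2 ^ e - 1) = 0) → PLengthLE 2 l H) → PLengthLE 2 (l + 1) G := by
    intro e l G _ _ hG h hH
    obtain ⟨G₂, _, _, f, hf, hV, hC, hle⟩ := exists_red (isPSolvable_of_isSolvable (p := 2) hG)
    have hs := QuotientGroup.mk'_surjective (pCore 2 G₂)
    have h2 : ∀ x : G₂, (∃ k, x ^ 2 ^ k = 1) → x ^ 2 ^ e = 1 := by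
      rintro x ⟨k, hk⟩
      obtain ⟨x, hx, rfl⟩ := exists_pElt_lift hf hk
      rw [← map_pow, h x hx, map_one]
    have hG₂ : Group.IsSolvable G₂ := Group.isSolvable_of_surjective hf
    refine pLengthLE_succ_of_ker_le (f := (QuotientGroup.mk' (pCore 2 G₂)).comp f)
      (by rwa [← MonoidHom.comap_ker, QuotientGroup.ker_mk'])
      (hH _ _ (quoRep hV) inferInstance (H1.pCore_quotient_pCore 2) (quoRep_injective hV hC) ?_)
    rintro x ⟨k, hk⟩
    obtain ⟨x, hx, rfl⟩ := exists_pElt_lift hs hk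
    exact ⟨by rw [← map_pow, h2 x hx, map_one], eaRepN_sub_one_pow hV h2 hx⟩
  induction e with
  | zero =>
    intro G _ _ hG h
    refine key 1 0 hG h fun H _ _ V _ _ _ ρ _ _ hρ h1 => pLengthLE_zero_iff.mpr fun hd => ?_
    obtain ⟨x, hx⟩ := exists_prime_orderOf_dvd_card' 2 hd
    have := (h1 x ⟨1, by rw [pow_one, ← hx, pow_orderOf_eq_one]⟩).2
    rw [show 2 ^ 1 - 1 = 1 from rfl, pow_one, sub_eq_zero, ← map_one ρ] at this
    rw [hρ this, orderOf_one] at hx
    omega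
  | succ e ih =>
    intro G _ _ hG h
    refine key (e + 2) (2 * e + 1 + 1) hG h fun H _ _ V _ _ _ ρ hH hO hρ h1 => ?_
    exact pLengthLE_succ_of_ker_le (f := QuotientGroup.mk' (opMod 2 (pPrimeCore 2 H)))
      (QuotientGroup.ker_mk' _).le (ih inferInstance (gr_step hH hO ρ hρ h1))

end Cfsg.Agent.H7
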