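import Cfsg.Agent.H9.HH4

/-! Exceptional elements in the Hall–Higman theorem B: the coprime action on `Q / Z`. -/

set_option autoImplicit false

namespace Cfsg.Agent.H7

open Module Subgroup

variable {U : Type*} [AddCommGroup U] {R : Type*} [Group R] {p : ℕ} [hp : Fact p.Prime]

/-- The stabilizer of a vector. -/
def hhSt (θ : R →* End ℤ U) (w : U) : Subgroup R where
  carrier := {g | θ g w = w}
  one_mem' := by simp
  mul_mem' := fun {a b} ha hb => by
    change θ (a * b) w = w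
    rw [map_mul, End.mul_apply, show θ b w = w from hb, show θ a w = w from ha]
  inv_mem' := fun {a} ha => by
    change θ a⁻¹ w = w
    conv_lhs => rw [← show θ a w = w from ha]
    rw [← End.mul_apply, ← map_mul, inv_mul_cancel, map_one, End.one_apply]

theorem hh_inv_apply (θ : R →* End ℤ U) (t : R) (v : U) : θ t⁻¹ (θ t v) = v := by
  rw [← End.mul_apply, ← map_mul, inv_mul_cancel, map_one, End.one_apply]

theorem hh_eq_zero_of_fix (hU : ∀ w : U, p • w = 0 → w = 0) (θ : R →* End ℤ U) {c : R}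
    (hc : c ^ p = 1) {w : U} (hw : w ∈ LinearMap.range (θ c - 1)) {j : ℕ} (hj : ¬ p ∣ j)
    (h : θ (c ^ j) w = w) : w = 0 := by
  have h1 : c ∈ hhSt θ w := by
    simpa using H9.mem_of_pow_mem_of_not_dvd (n := 1) (k := 0) (I := hhSt θ w)
      (by rwa [pow_one]) h (by simpa using hj)
  have h2 : ∀ i : ℕ, (θ c ^ i) w = w := fun i => by
    rw [← map_pow]; exact pow_mem h1 i
  apply hU
  have h3 : (∑ i ∈ Finset.range p, θ c ^ i) w = p • w := by
    rw [LinearMap.sum_apply, Finset.sum_congr rfl fun i _ => h2 i]; simp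
  obtain ⟨v, rfl⟩ := hw
  rw [← h3, ← End.mul_apply, geom_sum_mul, ← map_pow, hc, map_one, sub_self, LinearMap.zero_apply]

theorem hh_mem_range (θ : R →* End ℤ U) {c g : R} (hg : Commute g c) {w : U}
    (hw : w ∈ LinearMap.range (θ c - 1)) : θ g w ∈ LinearMap.range (θ c - 1) := by
  obtain ⟨v, rfl⟩ := hw
  refine ⟨θ g v, ?_⟩
  have := congrArg (fun φ : End ℤ U => φ v) (hg.map θ).eq
  simp only [End.mul_apply] at this
  simp [this]

theorem hh_exists_fix (hU : ∀ w : U, p • w = 0 → w = 0) (θ : R →* End ℤ U) {z c : R}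
    (hz : z ^ p = 1) (hc : c ^ p = 1) (hzc : Commute z c) (h1 : θ c ≠ 1) :
    ∃ i : ℕ, ∃ w ∈ LinearMap.range (θ c - 1), w ≠ 0 ∧ θ (z * c ^ i) w = w := by
  obtain ⟨w, hw, hw0⟩ : ∃ w ∈ LinearMap.range (θ c - 1), w ≠ 0 := by
    by_contra! h
    exact h1 (sub_eq_zero.mp (LinearMap.ext fun v => h _ ⟨v, rfl⟩))
  by_contra! h
  have h2 : ∀ i : ℕ, ∑ j ∈ Finset.range p, θ ((z * c ^ i) ^ j) w = 0 := fun i => by
    by_contra hne
    refine h i _ (Submodule.sum_mem _ fun j _ => hh_mem_range θ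
      ((hzc.mul_left ((Commute.refl c).pow_left i)).pow_left j) hw) hne ?_
    have h3 : θ (z * c ^ i) ^ p = 1 := by
      rw [← map_pow, (hzc.pow_right i).mul_pow, hz, ← pow_mul, mul_comm i, pow_mul, hc]; simp
    have := congrArg (fun φ : End ℤ U => φ w) (mul_geom_sum (θ (z * c ^ i)) p)
    simp only [h3, sub_self, LinearMap.zero_apply, End.mul_apply, LinearMap.sub_apply,
      End.one_apply, LinearMap.sum_apply, ← map_pow] at this
    exact sub_eq_zero.mp this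
  have h4 : ∀ j ∈ (Finset.range p).erase 0,
      ∑ i ∈ Finset.range p, θ ((z * c ^ i) ^ j) w = 0 := fun j hj => by
    have hj' : ¬ p ∣ j := fun hd => (Nat.le_of_dvd (Nat.pos_of_ne_zero (Finset.ne_of_mem_erase hj))
      hd).not_gt (Finset.mem_range.mp (Finset.mem_of_mem_erase hj))
    have h5 : ∑ i ∈ Finset.range p, θ ((c ^ j) ^ i) w = 0 := by
      refine hh_eq_zero_of_fix hU θ hc (Submodule.sum_mem _ fun i _ => hh_mem_range θ
        (((Commute.refl c).pow_left j).pow_left i) hw) hj' ?_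
      have h3 : θ (c ^ j) ^ p = 1 := by
        rw [← map_pow, ← pow_mul, mul_comm j, pow_mul, hc]; simp
      have := congrArg (fun φ : End ℤ U => φ w) (mul_geom_sum (θ (c ^ j)) p)
      simp only [h3, sub_self, LinearMap.zero_apply, End.mul_apply, LinearMap.sub_apply,
        End.one_apply, LinearMap.sum_apply, ← map_pow] at this
      exact sub_eq_zero.mp this
    rw [← map_zero (θ (z ^ j)), ← h5, map_sum]
    refine Finset.sum_congr rfl fun i _ => ?_
    rw [(hzc.pow_right i).mul_pow, map_mul, End.mul_apply, ← pow_mul, ← pow_mul, mul_comm i]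
  have h6 : ∑ i ∈ Finset.range p, ∑ j ∈ Finset.range p, θ ((z * c ^ i) ^ j) w = 0 :=
    Finset.sum_eq_zero fun i _ => h2 i
  rw [Finset.sum_comm, ← Finset.add_sum_erase _ _ (Finset.mem_range.mpr hp.out.pos),
    Finset.sum_eq_zero h4] at h6
  exact hw0 (hU w (by simpa using h6))

theorem hh_exists_family (hp2 : p ≠ 2) (hU : ∀ w : U, p • w = 0 → w = 0) (θ : R →* End ℤ U)
    {h b c : R} {n : ℕ} (hh : h ^ p ^ (n + 1) = 1)
    (hb : b * h ^ p ^ n * b⁻¹ = h ^ p ^ n * c) (hc1 : θ c ≠ 1) (hch : Commute h c)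
    (hbc : Commute b c) :
    ∃ f : Fin (p ^ (n + 1)) × Fin (p ^ (n + 1)) → U, Function.Injective f ∧
      ∀ i, f i ∈ LinearMap.range (θ (h ^ p ^ n) - 1) := by
  obtain ⟨z, hzdef⟩ : ∃ z, z = h ^ p ^ n := ⟨_, rfl⟩
  rw [← hzdef] at hb ⊢
  have hz : z ^ p = 1 := by rw [hzdef, ← pow_mul, ← pow_succ, hh]
  have hzc : Commute z c := hzdef ▸ hch.pow_left _
  have hzh : Commute h z := hzdef ▸ (Commute.refl h).pow_right _
  have hc : c ^ p = 1 := by
    have := congrArg (· ^ p) hb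
    simp only [conj_pow, hz, hzc.mul_pow] at this
    simpa using this.symm
  obtain ⟨i, w, hw, hw0, hfix⟩ := hh_exists_fix hU θ hz hc hzc hc1
  have hbk : ∀ k : ℕ, b ^ k * z = z * c ^ k * b ^ k := fun k => by
    induction k with
    | zero => simp
    | succ k ih =>
      have hb' : b * z = z * c * b := by rw [← hb]; group
      rw [pow_succ', mul_assoc, ih, ← mul_assoc, ← mul_assoc, hb', mul_assoc, mul_assoc,
        ← mul_assoc b, (hbc.pow_right k).eq, pow_succ']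
      simp only [mul_assoc]
  -- vectors fixed by `z c ^ a`
  have hv : ∀ a : ℕ, ¬ p ∣ a → ∃ v ∈ LinearMap.range (θ c - 1), v ∈ LinearMap.range (θ z - 1) ∧
      v ≠ 0 ∧ θ (z * c ^ a) v = v := fun a ha => by
    let k := a + (p - 1) * i
    have hk : c ^ k * c ^ i = c ^ a := by
      rw [← pow_add, show k + i = a + p * i by
        have := hp.out.pos
        simp only [k]; zify [this]; ring, pow_add, pow_mul, hc]; simp
    have h1 : θ (z * c ^ a) (θ (b ^ k) w) = θ (b ^ k) w := by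
      conv_rhs => rw [← hfix]
      rw [← End.mul_apply, ← End.mul_apply, ← map_mul, ← map_mul, ← mul_assoc (b ^ k), hbk, ← hk,
        mul_assoc _ (b ^ k), ((hbc.pow_left k).pow_right i).eq]
      simp only [mul_assoc]
    have h2 := hh_mem_range θ (hbc.pow_left k) hw
    have h3 : θ (b ^ k) w ≠ 0 := fun h0 => hw0 (by
      rw [← hh_inv_apply θ (b ^ k) w, h0, map_zero])
    generalize θ (b ^ k) w = y at h1 h2 h3
    refine ⟨(θ z - 1) y, ?_, ⟨y, rfl⟩, fun h0 => h3 ?_, ?_⟩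
    · exact sub_mem (hh_mem_range θ hzc h2) h2
    · have h4 : z ∈ hhSt θ y := sub_eq_zero.mp h0
      exact hh_eq_zero_of_fix hU θ hc h2 ha ((mul_mem_cancel_left h4).mp h1)
    · have : Commute (z * c ^ a) z := (Commute.refl z).mul_left (hzc.symm.pow_left a)
      have h5 := congrArg (fun φ : End ℤ U => φ y) (this.map θ).eq
      simp only [End.mul_apply] at h5
      rw [LinearMap.sub_apply, End.one_apply, map_sub, h5, h1]
  obtain ⟨v₁, hv1, hv1', hv10, hf1⟩ := hv 1 (by simpa using hp.out.ne_one)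
  obtain ⟨v₂, hv2, hv2', hv20, hf2⟩ := hv 2
    (fun hd => hp2 ((Nat.prime_dvd_prime_iff_eq hp.out Nat.prime_two).mp hd))
  have hcomm : ∀ (a i : ℕ) (v : U), θ (z * c ^ a) v = v →
      θ (z * c ^ a) (θ (h ^ i) v) = θ (h ^ i) v := fun a i v hv => by
    have : Commute (z * c ^ a) (h ^ i) :=
      ((hzh.symm.mul_left (hch.symm.pow_left a))).pow_right i
    rw [← End.mul_apply, ← map_mul, this.eq, map_mul, End.mul_apply, hv]
  have hfree : ∀ a : ℕ, ¬ p ∣ a → ∀ v ∈ LinearMap.range (θ c - 1), v ≠ 0 → θ (z * c ^ a) v = v →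
      ∀ i j : Fin (p ^ (n + 1)), θ (h ^ (i : ℕ)) v = θ (h ^ (j : ℕ)) v → i = j := by
    intro a ha v hv hv0 hf i j hij
    wlog hle : (i : ℕ) ≤ j generalizing i j
    · exact (this j i hij.symm (by omega)).symm
    by_contra hne
    have h1 : h ^ ((j : ℕ) - i) ∈ hhSt θ v := by
      change θ _ v = v
      have := congrArg (θ (h ^ (i : ℕ))⁻¹) hij
      rw [hh_inv_apply, ← End.mul_apply, ← map_mul] at this
      rw [pow_sub h hle, ((Commute.refl h).pow_pow _ _).inv_right.eq]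
      exact this.symm
    have h2 : z ∈ hhSt θ v := hzdef ▸ H9.mem_of_pow_mem_of_not_dvd hh h1 fun hd => by
      have := Nat.le_of_dvd (by have := Fin.val_ne_of_ne hne; omega) hd
      omega
    exact hv0 (hh_eq_zero_of_fix hU θ hc hv ha ((mul_mem_cancel_left h2).mp hf))
  refine ⟨fun i => θ (h ^ (i.1 : ℕ)) v₁ + θ (h ^ (i.2 : ℕ)) v₂, ?_, fun i => add_mem
    (hh_mem_range θ (hzh.pow_left _) hv1') (hh_mem_range θ (hzh.pow_left _) hv2')⟩
  rintro ⟨i, j⟩ ⟨i', j'⟩ hij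
  dsimp only at hij
  have e : θ (h ^ (i : ℕ)) v₁ - θ (h ^ (i' : ℕ)) v₁ = θ (h ^ (j' : ℕ)) v₂ - θ (h ^ (j : ℕ)) v₂ := by
    rw [sub_eq_sub_iff_add_eq_add, hij, add_comm]
  have h0 : θ (h ^ (i : ℕ)) v₁ - θ (h ^ (i' : ℕ)) v₁ = 0 := by
    have h1 : z * c ^ 1 ∈ hhSt θ (θ (h ^ (i : ℕ)) v₁ - θ (h ^ (i' : ℕ)) v₁) := by
      change θ _ _ = _
      rw [map_sub, hcomm _ _ _ hf1, hcomm _ _ _ hf1]
    have h2 : z * c ^ 2 ∈ hhSt θ (θ (h ^ (i : ℕ)) v₁ - θ (h ^ (i' : ℕ)) v₁) := by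
      change θ _ _ = _
      rw [e, map_sub, hcomm _ _ _ hf2, hcomm _ _ _ hf2]
    refine hh_eq_zero_of_fix hU θ hc (sub_mem (hh_mem_range θ (hch.pow_left _) hv1)
      (hh_mem_range θ (hch.pow_left _) hv1)) (j := 1) (by simpa using hp.out.ne_one) ?_
    have := mul_mem (inv_mem h1) h2
    rw [show (z * c ^ 1)⁻¹ * (z * c ^ 2) = c ^ 1 by group] at this
    exact this
  refine Prod.ext (hfree 1 (by simpa using hp.out.ne_one) v₁ hv1 hv10 hf1 _ _ (sub_eq_zero.mp h0))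
    (hfree 2 (fun hd => hp2 ((Nat.prime_dvd_prime_iff_eq hp.out Nat.prime_two).mp hd)) v₂ hv2 hv20
      hf2 _ _ (sub_eq_zero.mp (e.symm.trans h0)).symm)

/-- Elements with a small commutator space lie in a common abelian subgroup. -/
theorem hh_exists_abelian [Finite R] (hp2 : p ≠ 2) (hU : ∀ w : U, p • w = 0 → w = 0)
    (hR : IsPGroup p R) (θ : R →* End ℤ U) (hθ : Function.Injective θ) :
    ∃ A : Subgroup R, IsMulCommutative A ∧ ∀ (h : R) (n : ℕ), h ^ p ^ (n + 1) = 1 →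
      (∀ f : Fin (p ^ (n + 1)) × Fin (p ^ (n + 1)) → U, Function.Injective f →
        ¬ ∀ i, f i ∈ LinearMap.range (θ (h ^ p ^ n) - 1)) → h ^ p ^ n ∈ A := by
  obtain ⟨A, hAn, hA, -, hC⟩ := H3.exists_selfCentralizing_normal_abelian hR ⊥ inferInstance
  refine ⟨A, hA, fun h n hh hf => hC ?_⟩
  by_contra hz
  have hAc := H9.isMulCommutative_iff'.mp hA
  obtain ⟨z, hzdef⟩ : ∃ z, z = h ^ p ^ n := ⟨_, rfl⟩
  have hzh : Commute h z := hzdef ▸ (Commute.refl h).pow_right _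
  let C : Subgroup R :=
    { carrier := {c | ∃ b ∈ A, c = z⁻¹ * b * z * b⁻¹}
      one_mem' := ⟨1, one_mem _, by simp⟩
      mul_mem' := by
        rintro _ _ ⟨a, ha, rfl⟩ ⟨b, hb, rfl⟩
        refine ⟨a * b, mul_mem ha hb, ?_⟩
        have h1 := hAc _ (inv_mem ha) _ (mul_mem (hAn.conj_mem' b hb z) (inv_mem hb))
        have h2 := hAc _ (inv_mem ha) _ (inv_mem hb)
        rw [mul_assoc (z⁻¹ * a * z), h1, mul_inv_rev]
        group
      inv_mem' := by
        rintro _ ⟨a, ha, rfl⟩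
        refine ⟨a⁻¹, inv_mem ha, ?_⟩
        have h1 := hAc _ ha _ (hAn.conj_mem' _ (inv_mem ha) z)
        rw [inv_inv, ← h1]
        group }
  have hCA : C ≤ A := by
    rintro _ ⟨b, hb, rfl⟩
    exact mul_mem (hAn.conj_mem' b hb z) (inv_mem hb)
  have hC0 : C ≠ ⊥ := fun h0 => hz (by
    rw [← hzdef]
    intro b hb
    have : z⁻¹ * b * z * b⁻¹ ∈ C := ⟨b, hb, rfl⟩
    rw [h0, mem_bot] at this
    calc b * z = z * (z⁻¹ * b * z * b⁻¹) * b := by group
      _ = z * b := by rw [this, mul_one])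
  have hhC : zpowers h ≤ normalizer (C : Set R) := by
    rw [zpowers_le]
    refine mem_normalizer_fintype ?_
    rintro _ ⟨b, hb, rfl⟩
    refine ⟨h * b * h⁻¹, hAn.conj_mem b hb h, ?_⟩
    have e1 : h * z⁻¹ = z⁻¹ * h := hzh.inv_right.eq
    have e2 : h⁻¹ * z = z * h⁻¹ := hzh.inv_left.eq
    calc h * (z⁻¹ * b * z * b⁻¹) * h⁻¹ = (h * z⁻¹) * b * z * b⁻¹ * h⁻¹ := by group
      _ = z⁻¹ * h * b * (z * h⁻¹) * h * b⁻¹ * h⁻¹ := by rw [e1]; group
      _ = _ := by rw [← e2]; group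
  obtain ⟨⟨c, ⟨b, hb, hbc⟩, hch⟩, hc1⟩ := ne_bot_iff_exists_ne_one.mp
    (H1.inf_centralizer_ne_bot_of_isPGroup (hR.to_subgroup C) (hR.to_subgroup (zpowers h)) hhC hC0)
  obtain ⟨f, hf1, hf2⟩ := hh_exists_family hp2 hU θ (h := h) (b := b) (c := c) hh
    (by rw [← hzdef, hbc]; group) (fun h0 => hc1 (Subtype.ext (hθ (h0.trans (map_one θ).symm))))
    (hch h (mem_zpowers h)) (hAc _ hb _ (hCA ⟨b, hb, hbc⟩))
  exact hf f hf1 hf2

end Cfsg.Agent.H7
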