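import Cfsg.Agent.H7.HHe1

/-! Exceptional elements in the Hall–Higman theorem B: the bound on the commutator space. -/

set_option autoImplicit false

namespace Cfsg.Agent.H7

open Module LinearMap Subgroup H9
open scoped commutatorElement

variable {K : Type*} [Field K] {W S : Type*} [AddCommGroup W] [Module K W] [AddCommGroup S]
  [Module K S] {G : Type*} [Group G] {p : ℕ} [hp : Fact p.Prime]

omit hp in
theorem hh_exists_restr (ρ : G →* End K W) {j : S →ₗ[K] W} (hj : Function.Injective j)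
    (T : Subgroup G) (hT : ∀ g ∈ T, ∀ v ∈ range j, ρ g v ∈ range j) :
    ∃ τ : T →* End K S, ∀ g v, j (τ g v) = ρ g (j v) := by
  let e := LinearEquiv.ofInjective j hj
  let f : T → End K S := fun g => e.symm.toLinearMap ∘ₗ
    ((ρ g ∘ₗ j).codRestrict (range j) fun v => hT g g.2 _ ⟨v, rfl⟩)
  have hf : ∀ g v, j (f g v) = ρ g (j v) := fun g v => by
    have := congrArg Subtype.val (e.apply_symm_apply ⟨ρ g (j v), hT g g.2 _ ⟨v, rfl⟩⟩)
    exact this
  exact ⟨⟨⟨f, LinearMap.ext fun v => hj (by rw [hf]; simp)⟩, fun a b => LinearMap.ext fun v => hj (by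
    simp only [End.mul_apply, hf, Subgroup.coe_mul, map_mul])⟩, hf⟩

theorem hh_div (a b : ℕ) : (p ^ (a + b) - 1) / p ^ a = p ^ b - 1 := by
  have h1 := pow_pos hp.out.pos a
  have h2 := pow_pos hp.out.pos b
  refine Nat.div_eq_of_lt_le ?_ ?_
  · rw [pow_add, Nat.sub_mul, one_mul, mul_comm]
    have := Nat.le_mul_of_pos_right (p ^ a) h2
    omega
  · rw [Nat.sub_add_cancel h2, pow_add, mul_comm]
    have := Nat.mul_pos h2 h1
    omega

variable [Finite G] [IsAlgClosed K] [CharP K p] [FiniteDimensional K S]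

theorem hh_bound {q : ℕ} [hq : Fact q.Prime] (hpq : p ≠ q) {Q : Subgroup G} [Q.Normal]
    (hQ : IsPGroup q Q) (hc : ⁅Q, Q⁆ ≤ centralizer (Q : Set G)) {σ : Q →* End K S}
    (hσ : IrrRep σ) {ρ : G →* End K W} {j : S →ₗ[K] W} (h0 : j ≠ 0)
    (h1 : ∀ t v, j (σ t v) = ρ t (j v)) {h : G} {n : ℕ} (hh : h ^ p ^ (n + 1) = 1)
    (hI : h ∈ inertia σ) {u : End K S}
    (h2 : ∀ v, ρ h (j v) = j (u v)) (hs : (u - 1) ^ (p ^ (n + 1) - 1) = 0) {ι : Type*} [Finite ι]
    (t : ι → Q) (ht : ∀ i, (t i : G) ∈ ⁅Q, zpowers (h ^ p ^ n)⁆)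
    (hd : ∀ i j, t i * (t j)⁻¹ ∈ scalSub σ → i = j) : Nat.card ι < (p ^ (n + 1)) ^ 2 := by
  classical
  have := hσ.1
  have hinj := hσ.injective h0 fun t => ⟨_, h1 t⟩
  have hqK : (q : K) ≠ 0 := by
    rw [Ne, CharP.cast_eq_zero_iff K p, Nat.prime_dvd_prime_iff_eq hp.out hq.out]; exact hpq
  obtain ⟨z, hzdef⟩ : ∃ z, z = h ^ p ^ n := ⟨_, rfl⟩
  rw [← hzdef] at ht
  have hz : z ^ p = 1 := by rw [hzdef, ← pow_mul, ← pow_succ, hh]
  have hZp : IsPGroup p (zpowers z) := by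
    obtain ⟨k, -, hk⟩ := (Nat.dvd_prime_pow hp.out).mp
      (orderOf_dvd_of_pow_eq_one (n := p ^ 1) (by rwa [pow_one]))
    exact IsPGroup.of_card (by rw [Nat.card_zpowers, hk])
  have hZQ : zpowers z ≤ normalizer (Q : Set G) := by rw [normalizer_eq_top]; exact le_top
  have hcop : ∀ {Q' : Subgroup G}, Q' ≤ Q → (Nat.card (zpowers z)).Coprime (Nat.card Q') :=
    fun {Q'} hQ' => by
      obtain ⟨a, ha⟩ := IsPGroup.iff_card.mp (hQ.to_le hQ')
      exact H1.coprime_card_of_isPGroup_of_coprime hZp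
        (ha ▸ Nat.Coprime.pow_left _ ((Nat.coprime_primes hq.out hp.out).mpr hpq.symm))
  obtain ⟨Q₁, hQ₁⟩ : ∃ Q₁, Q₁ = ⁅Q, zpowers z⁆ := ⟨_, rfl⟩
  have hle : Q₁ ≤ Q := hQ₁ ▸ H1.commutator_le_left_of_le_normalizer hZQ
  have hgen : ⁅Q₁, zpowers z⁆ = Q₁ := hQ₁ ▸ H1.commutator_commutator_eq hZQ (hcop le_rfl)
  have hsup : Q₁ ⊔ (Q ⊓ centralizer (zpowers z : Set G)) = Q :=
    hQ₁ ▸ H1.commutator_sup_centralizer hZQ (hcop le_rfl) (Or.inl (H1.isSolvable_zpowers z))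
  have hhQ₁ : h ∈ normalizer (Q₁ : Set G) := by
    have : zpowers h ≤ normalizer (Q₁ : Set G) := hQ₁ ▸ le_normalizer_commutator
      (by rw [normalizer_eq_top]; exact le_top)
      (le_normalizer_of_le_centralizer (le_centralizer_iff'.mpr fun a ha b hb =>
        isMulCommutative_iff'.mp inferInstance a ha b
          (zpowers_le.mpr (hzdef ▸ pow_mem (mem_zpowers h) _) hb)))
    exact this (mem_zpowers h)
  have hZQ₁ : zpowers z ≤ normalizer (Q₁ : Set G) := zpowers_le.mpr (hzdef ▸ pow_mem hhQ₁ _)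
  have hfree : Q₁ ⊓ centralizer (zpowers z : Set G) ≤ centralizer (Q : Set G) := fun a ha =>
    hc (commutator_mono hle hle (H1.inf_centralizer_inf_commutator_le hZQ₁ (hcop hle)
      ⟨ha, hgen.symm ▸ ha.1⟩))
  let T : Subgroup G := normalizer (Q₁ : Set G) ⊓ invSub ρ (range j)
  have hQT : Q₁ ≤ T := le_inf le_normalizer (by
    rintro a ha _ ⟨v, rfl⟩; exact ⟨_, h1 ⟨a, hle ha⟩ v⟩)
  have hhT : h ∈ T := ⟨hhQ₁, by rintro _ ⟨v, rfl⟩; exact ⟨_, (h2 v).symm⟩⟩
  obtain ⟨τ, hτ⟩ := hh_exists_restr ρ hinj T fun g hg => hg.2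
  have hτσ : ∀ (a : T) (ha : (a : G) ∈ Q), τ a = σ ⟨a, ha⟩ := fun a ha =>
    LinearMap.ext fun v => hinj ((hτ a v).trans (h1 ⟨a, ha⟩ v).symm)
  let N : Subgroup T := Q₁.subgroupOf T
  have : N.Normal := (normal_subgroupOf_iff_le_normalizer hQT).mpr inf_le_left
  have hNQ : IsPGroup q N := (hQ.to_le hle).comap_subtype
  obtain ⟨a, ha⟩ := IsPGroup.iff_card.mp hNQ
  have hNK : (Nat.card N : K) ≠ 0 := by rw [ha]; simp [hqK]
  obtain ⟨S₁, σ₁, hσ₁, -, hj₁⟩ := exists_irrRep_le (τ.comp N.subtype) (W₀ := ⊤) top_ne_bot (by simp)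
  have := hσ₁.1
  let x : T := ⟨h, hhT⟩
  have hx : x ^ p ^ (n + 1) = 1 := Subtype.ext hh
  have hτx : τ x = u := LinearMap.ext fun v => hinj ((hτ x v).trans (h2 v))
  obtain ⟨k, hk, -, j', u', h0', h1', h2', hs'⟩ := hσ₁.exists_stable_pow hNK (ρ := τ)
    subtype_ne_zero hj₁ hx (hτx ▸ hs)
  obtain ⟨m, hm⟩ := Nat.exists_eq_add_of_le hk
  rw [hm, hh_div] at hs'
  rcases m with _ | m
  · simp at hs'
  have hn : n = k + m := by omega
  have hxz : (x ^ p ^ k) ^ p ^ m = ⟨z, hzdef ▸ pow_mem hhT _⟩ := Subtype.ext (by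
    simp only [x, SubmonoidClass.coe_pow]
    rw [← pow_mul, ← pow_add, ← hn, hzdef])
  have hA : (zpowers ((x ^ p ^ k) ^ p ^ m)).map T.subtype = zpowers z := by
    rw [MonoidHom.map_zpowers, hxz]; rfl
  have hNT : N.map T.subtype = Q₁ := map_subgroupOf_eq_of_le hQT
  have hpos := pow_pos hp.out.pos (m + 1)
  have hrank : finrank K S₁ < p ^ (n + 1) ∧ (finrank K S₁ : K) ≠ 0 := by
    rcases hσ₁.critical_local hNK h0' h1' (h := x ^ p ^ k) (m := m)
      (by rw [← pow_mul, ← pow_add, ← add_assoc, ← hn, hx]) h2'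
      (fun a ha s hs => Subtype.ext (hfree ⟨ha.1, fun g hg => by
        rw [← hA] at hg
        obtain ⟨g, hg, rfl⟩ := hg
        exact congrArg Subtype.val (ha.2 g hg)⟩ s (hle hs))) hs' (by omega) with hu | ⟨-, hu⟩
    · rw [hσ₁.finrank_eq_one fun s => ⟨1, by
        rw [one_smul]
        refine eq_one_of_fixes (hσ₁.injective h0' fun t => ⟨_, h1' t⟩) h1' (g := x ^ p ^ k)
          (i := p ^ m) (fun v => by rw [h2', hu]; rfl) ?_
        rw [← mem_map_iff_mem T.subtype_injective, map_commutator, hA, hNT, hgen]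
        exact s.2⟩]
      exact ⟨Nat.one_lt_pow n.succ_ne_zero hp.out.one_lt, by simp⟩
    · rw [hu]
      refine ⟨lt_of_lt_of_le (by omega) (Nat.pow_le_pow_right hp.out.pos
        (show m + 1 ≤ n + 1 by omega)), ?_⟩
      rw [Nat.cast_sub hpos, Nat.cast_pow, CharP.cast_eq_zero]; simp
  have hcs : ∀ a b : Q, ⁅a, b⁆ ∈ scalSub σ := fun a b =>
    hσ.mem_scalSub_of_mem_centralizer (hc (commutator_mem_commutator a.2 b.2))
  have htw : ∀ (a b : Q) (c : K), σ ⁅a, b⁆ = c • 1 → σ a * σ b = c • (σ b * σ a) :=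
    fun a b c h => by
      rw [← one_mul (σ b * σ a), ← smul_mul_assoc, ← h, ← map_mul, ← map_mul, ← map_mul]
      simp [commutatorElement_def, mul_assoc]
  have hres : ∀ (s : N) (c : K), σ ⟨(s : T), hle s.2⟩ = c • 1 → σ₁ s = c • 1 := fun s c h =>
    LinearMap.ext fun v => Subtype.ext (by
      rw [hj₁, MonoidHom.comp_apply, hτσ (N.subtype s) (hle s.2)]
      exact congrArg (fun φ : End K S => φ v) h)
  have hsm : ∀ c d : K, c • (1 : End K S₁) = d • 1 → c = d := fun c d h => by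
    obtain ⟨v, hv⟩ := exists_ne (0 : S₁)
    exact smul_left_injective K hv (congrArg (fun φ : End K S₁ => φ v) h)
  have hZI : zpowers z ≤ inertia σ := zpowers_le.mpr (hzdef ▸ pow_mem hI _)
  -- scalars on `S₁` are scalars on `S`
  have hscal : ∀ s : N, s ∈ scalSub σ₁ → (⟨(s : T), hle s.2⟩ : Q) ∈ scalSub σ := by
    rintro s ⟨c, hs⟩
    let D : Subgroup G :=
      { carrier := {g | ∃ hg : g ∈ Q, σ ⟨g, hg⟩ * σ ⟨(s : T), hle s.2⟩ =
          σ ⟨(s : T), hle s.2⟩ * σ ⟨g, hg⟩}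
        one_mem' := ⟨one_mem _, by rw [show (⟨1, one_mem _⟩ : Q) = 1 from rfl]; simp⟩
        mul_mem' := by
          rintro a b ⟨ha, ha'⟩ ⟨hb, hb'⟩
          refine ⟨mul_mem ha hb, ?_⟩
          rw [show (⟨a * b, mul_mem ha hb⟩ : Q) = ⟨a, ha⟩ * ⟨b, hb⟩ from rfl, map_mul, mul_assoc,
            hb', ← mul_assoc, ha', mul_assoc]
        inv_mem' := by
          rintro a ⟨ha, ha'⟩
          refine ⟨inv_mem ha, ?_⟩
          rw [show (⟨a⁻¹, inv_mem ha⟩ : Q) = (⟨a, ha⟩ : Q)⁻¹ from rfl]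
          have : Commute (σ.toHomUnits ⟨a, ha⟩) (σ.toHomUnits ⟨(s : T), hle s.2⟩) := Units.ext ha'
          have := congrArg Units.val this.inv_left.eq
          rwa [← map_inv] at this }
    have hD : Q ≤ D := by
      rw [← hsup]
      refine sup_le (fun g hg => ⟨hle hg, ?_⟩) fun g hg => ⟨hg.1, ?_⟩
      · obtain ⟨d, hd⟩ := hcs ⟨g, hle hg⟩ ⟨(s : T), hle s.2⟩
        let g' : N := ⟨⟨g, hQT hg⟩, hg⟩
        have h3 : σ₁ ⁅g', s⁆ = 1 := by
          simp only [commutatorElement_def, map_mul, hs, mul_smul_comm, smul_mul_assoc, mul_one]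
          rw [← map_mul σ₁ g', mul_inv_cancel, map_one, one_mul, ← one_mul (σ₁ s⁻¹),
            ← smul_mul_assoc, ← hs, ← map_mul, mul_inv_cancel, map_one]
        have h6 : d = 1 := hsm d 1 ((hres ⁅g', s⁆ d hd).symm.trans (by rw [h3, one_smul]))
        rw [htw _ _ _ hd, h6, one_smul]
      · let E : Subgroup Q :=
          { carrier := {a | σ ⟨g, hg.1⟩ * σ a = σ a * σ ⟨g, hg.1⟩}
            one_mem' := by simp
            mul_mem' := by
              intro a b ha hb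
              change _ = _ at ha hb ⊢
              rw [map_mul, ← mul_assoc, ha, mul_assoc, hb, mul_assoc]
            inv_mem' := by
              intro a ha
              have : Commute (σ.toHomUnits ⟨g, hg.1⟩) (σ.toHomUnits a) := Units.ext ha
              have := congrArg Units.val this.inv_right.eq
              rwa [← map_inv] at this }
        have hE : Q₁ ≤ E.map Q.subtype := hQ₁ ▸ commutator_le.mpr fun a ha y hy => by
          refine ⟨⟨a, ha⟩ * MulAut.conjNormal y (⟨a, ha⟩ : Q)⁻¹, ?_,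
            by simp [commutatorElement_def, mul_assoc]⟩
          obtain ⟨d, hd⟩ := hcs ⟨g, hg.1⟩ ⟨a, ha⟩
          obtain ⟨d', hd'⟩ := hcs ⟨g, hg.1⟩ (⟨a, ha⟩ : Q)⁻¹
          have h3 := conjNormal_eq_of_mem_inertia (hZI hy) hd'
          rw [map_commutatorElement, show MulAut.conjNormal y (⟨g, hg.1⟩ : Q) = ⟨g, hg.1⟩ from
            Subtype.ext (by
              rw [MulAut.conjNormal_apply, mul_inv_eq_iff_eq_mul]; exact hg.2 y hy)] at h3
          have h4 := htw _ _ _ hd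
          have h5 := htw _ _ _ hd'
          have h6 := htw _ _ _ h3
          have h7 : (d * d') • σ ⟨g, hg.1⟩ = σ ⟨g, hg.1⟩ := by
            conv_rhs => rw [← mul_one (σ ⟨g, hg.1⟩), ← map_one σ, ← mul_inv_cancel (⟨a, ha⟩ : Q),
              map_mul, ← mul_assoc, h4, smul_mul_assoc, mul_assoc, h5, mul_smul_comm, smul_smul,
              ← mul_assoc, ← map_mul, mul_inv_cancel, map_one, one_mul]
          change _ = _
          rw [map_mul, ← mul_assoc, h4, smul_mul_assoc, mul_assoc, h6, mul_smul_comm, smul_smul,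
            ← mul_assoc, ← mul_smul_comm, h7]
        obtain ⟨a, ha, ha'⟩ := hE s.2
        rw [show (⟨(s : T), hle s.2⟩ : Q) = a from Subtype.ext ha'.symm]
        exact ha
    exact hσ.exists_eq_smul fun r => (hD r.2).2
  rw [← hQ₁] at ht
  have := hσ₁.card_le_sq (fun s t => (hcs ⟨(s : T), hle s.2⟩ ⟨(t : T), hle t.2⟩).imp
    fun c hc => hres ⁅s, t⁆ c hc) hrank.2 (ι := ι)
    (fun i => ⟨⟨t i, hQT (ht i)⟩, ht i⟩) fun i j hij => hd i j (hscal _ hij)
  exact this.trans_lt (Nat.pow_lt_pow_left hrank.1 two_ne_zero)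

end Cfsg.Agent.H7
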