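import Cfsg.Agent.H7.HHe2
import Cfsg.Agent.H9.PLen

/-! Exceptional elements in the Hall–Higman theorem B commute; the bound `l ≤ 2 e`. -/

set_option autoImplicit false

namespace Cfsg.Agent.H7

open Module LinearMap Subgroup H9
open scoped commutatorElement

universe u

variable {K : Type*} [Field K] {W : Type*} [AddCommGroup W] [Module K W] [FiniteDimensional K W]
  {G : Type*} [Group G] [Finite G] {p : ℕ} [hp : Fact p.Prime] [CharP K p]

/-- The subgroup generated by the `n`-th powers of the elements of `P`. -/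
def hhPow (P : Subgroup G) (n : ℕ) : Subgroup G := closure {z | ∃ x ∈ P, z = x ^ n}

theorem hh_core [IsAlgClosed K] (hp2 : p ≠ 2) {q : ℕ} [hq : Fact q.Prime] (hpq : p ≠ q)
    {Q P : Subgroup G} [Q.Normal] (hQ : IsPGroup q Q) (hP : IsPGroup p P)
    (hc : ⁅Q, Q⁆ ≤ centralizer (Q : Set G)) (ρ : G →* End K W) (hρ : ∃ t ∈ Q, ρ t ≠ 1) {m : ℕ}
    (h1 : ∀ x ∈ P, x ^ p ^ (m + 1) = 1) (h2 : ∀ x ∈ P, (ρ x - 1) ^ (p ^ (m + 1) - 1) = 0)
    (hgen : ⁅Q, ⁅hhPow P (p ^ m), hhPow P (p ^ m)⁆⁆ = Q) : False := by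
  classical
  obtain ⟨a, ha⟩ := IsPGroup.iff_card.mp hQ
  have hqK : (q : K) ≠ 0 := by
    rw [Ne, CharP.cast_eq_zero_iff K p, Nat.prime_dvd_prime_iff_eq hp.out hq.out]; exact hpq
  have hQK : (Nat.card Q : K) ≠ 0 := by rw [ha]; simp [hqK]
  obtain ⟨S, σ, hσ, hj, hσ1⟩ := exists_irrRep_ne_one hQK (ρ.comp Q.subtype)
    (by obtain ⟨t, ht, h⟩ := hρ; exact ⟨⟨t, ht⟩, h⟩)
  have := hσ.1
  have hcs : ∀ a b : Q, ⁅a, b⁆ ∈ scalSub σ := fun a b =>
    hσ.mem_scalSub_of_mem_centralizer (hc (commutator_mem_commutator a.2 b.2))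
  have hZn : (scalSub σ).Normal := ⟨fun n hn g => by
    have := mul_mem (hcs g n) hn
    simpa [commutatorElement_def] using this⟩
  let _ : CommGroup (Q ⧸ scalSub σ) :=
    { QuotientGroup.Quotient.group (scalSub σ) with
      mul_comm := fun a b => by
        obtain ⟨a, rfl⟩ := QuotientGroup.mk_surjective a
        obtain ⟨b, rfl⟩ := QuotientGroup.mk_surjective b
        rw [← QuotientGroup.mk_mul, ← QuotientGroup.mk_mul, QuotientGroup.eq]
        simpa [commutatorElement_def, mul_assoc] using hcs b⁻¹ a⁻¹ }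
  let I : Subgroup G := P ⊓ inertia σ
  let φ : I → (Q ⧸ scalSub σ →* Q ⧸ scalSub σ) := fun g =>
    QuotientGroup.map _ _ (MulAut.conjNormal (H := Q) (g : G)).toMonoidHom
      fun t ht => mem_comap.mpr (conjNormal_mem_scalSub g.2.2 ht)
  let θ : I →* End ℤ (Additive (Q ⧸ scalSub σ)) :=
    { toFun := fun g => (MonoidHom.toAdditive (φ g)).toIntLinearMap
      map_one' := LinearMap.ext fun w => by
        obtain ⟨a, ha⟩ := QuotientGroup.mk_surjective w.toMul
        rw [← ofMul_toMul w, ← ha]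
        exact congrArg (fun t : Q => Additive.ofMul (t : Q ⧸ scalSub σ)) (by simp)
      map_mul' := fun g h => LinearMap.ext fun w => by
        obtain ⟨a, ha⟩ := QuotientGroup.mk_surjective w.toMul
        rw [← ofMul_toMul w, ← ha]
        exact congrArg (fun t : Q => Additive.ofMul (t : Q ⧸ scalSub σ)) (by simp) }
  have hθ : ∀ (g : I) (t : Q), θ g (Additive.ofMul (t : Q ⧸ scalSub σ)) =
      Additive.ofMul ((MulAut.conjNormal (g : G) t : Q) : Q ⧸ scalSub σ) := fun _ _ => rfl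
  have hU : ∀ w : Additive (Q ⧸ scalSub σ), p • w = 0 → w = 0 := fun w hw => by
    obtain ⟨k, hk⟩ := hQ.to_quotient (scalSub σ) w.toMul
    have h3 : w.toMul ^ p = 1 := congrArg Additive.toMul hw
    have := Nat.dvd_gcd (orderOf_dvd_of_pow_eq_one h3) (orderOf_dvd_of_pow_eq_one hk)
    rw [Nat.Coprime.pow_right k ((Nat.coprime_primes hp.out hq.out).mpr hpq), Nat.dvd_one,
      orderOf_eq_one_iff] at this
    exact congrArg Additive.ofMul this
  let θ' : I ⧸ θ.ker →* End ℤ (Additive (Q ⧸ scalSub σ)) := QuotientGroup.lift θ.ker θ fun _ h => h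
  have hθ' : Function.Injective θ' := by
    rw [injective_iff_map_eq_one]
    intro g hg
    obtain ⟨g, rfl⟩ := QuotientGroup.mk_surjective g
    exact (QuotientGroup.eq_one_iff g).mpr hg
  obtain ⟨A, hA, hAz⟩ := hh_exists_abelian hp2 hU
    ((hP.to_le (inf_le_left : I ≤ P)).to_quotient θ.ker) θ' hθ'
  have hB : hhPow P (p ^ m) ≤ (A.comap (QuotientGroup.mk' θ.ker)).map I.subtype := by
    rw [hhPow, closure_le]
    rintro _ ⟨x, hx, rfl⟩
    obtain ⟨k, hk, hI, j, u, h0, hj1, hj2, hs⟩ := hσ.exists_stable_pow hQK (ρ := ρ)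
      subtype_ne_zero hj (h1 x hx) (h2 x hx)
    obtain ⟨n, hn⟩ := Nat.exists_eq_add_of_le hk
    rw [hn, hh_div] at hs
    rcases n with _ | n
    · simp at hs
    have hm : m = k + n := by omega
    let h : I := ⟨x ^ p ^ k, pow_mem hx _, hI⟩
    have hh : (x ^ p ^ k) ^ p ^ (n + 1) = 1 := by rw [← pow_mul, ← pow_add, ← hn, h1 x hx]
    refine ⟨h ^ p ^ n, ?_, by
      simp only [h, coe_subtype, SubmonoidClass.coe_pow]; rw [← pow_mul, ← pow_add, hm]⟩
    change QuotientGroup.mk' θ.ker (h ^ p ^ n) ∈ A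
    rw [map_pow]
    refine hAz _ n (by rw [← map_pow, show h ^ p ^ (n + 1) = 1 from Subtype.ext hh, map_one])
      fun f hf hf' => ?_
    choose w hw using hf'
    choose b hb using fun i => QuotientGroup.mk_surjective (w i).toMul
    have h3 : ∀ i, f i = Additive.ofMul
        ((MulAut.conjNormal ((h ^ p ^ n : I) : G) (b i) * (b i)⁻¹ : Q) : Q ⧸ scalSub σ) := fun i => by
      rw [← hw i, ← ofMul_toMul (w i), ← hb i, LinearMap.sub_apply, ← map_pow, End.one_apply]
      exact (congrArg (· - _) (hθ _ _)).trans (by simp [sub_eq_add_neg])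
    have := hh_bound hpq hQ hc hσ h0 hj1 hh hI hj2 hs
      (fun i => MulAut.conjNormal ((h ^ p ^ n : I) : G) (b i) * (b i)⁻¹) (fun i => by
        rw [commutator_comm]
        exact commutator_mem_commutator (mem_zpowers _) (b i).2) fun i j hij => hf (by
          rw [h3, h3]
          exact congrArg Additive.ofMul (QuotientGroup.eq_iff_div_mem.mpr (by
            rwa [div_eq_mul_inv])))
    simp [sq] at this
  have hB' : ⁅hhPow P (p ^ m), hhPow P (p ^ m)⁆ ≤ θ.ker.map I.subtype :=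
    commutator_le.mpr fun a ha b hb => by
      obtain ⟨a, ha', rfl⟩ := hB ha
      obtain ⟨b, hb', rfl⟩ := hB hb
      refine ⟨⁅a, b⁆, ?_, rfl⟩
      change _ ∈ θ.ker
      rw [← QuotientGroup.eq_one_iff, ← QuotientGroup.mk'_apply, map_commutatorElement,
        commutatorElement_eq_one_iff_mul_comm]
      exact isMulCommutative_iff'.mp hA _ ha' _ hb'
  have h4 : Q ≤ (scalSub σ).map Q.subtype := hgen.ge.trans (commutator_le.mpr fun t ht g hg => by
    obtain ⟨g, hg', rfl⟩ := hB' hg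
    have h5 := hθ g (⟨t, ht⟩ : Q)
    rw [show θ g = 1 from hg', End.one_apply] at h5
    refine ⟨⟨t, ht⟩ * (MulAut.conjNormal (g : G) ⟨t, ht⟩)⁻¹, ?_,
      by simp [commutatorElement_def, mul_assoc]⟩
    have := QuotientGroup.eq_iff_div_mem.mp (Additive.ofMul.injective h5)
    rwa [div_eq_mul_inv] at this)
  have h5 : Q ≤ σ.ker.map Q.subtype := hgen.ge.trans (commutator_le.mpr fun t ht g hg => by
    obtain ⟨g, hg, rfl⟩ := hB' hg
    obtain ⟨s, ⟨c, hs⟩, hst⟩ := h4 ht
    obtain rfl : s = t := hst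
    refine ⟨s * (MulAut.conjNormal (g : G) s)⁻¹, ?_, by simp [commutatorElement_def, mul_assoc]⟩
    change σ _ = 1
    rw [map_mul, hs, ← conjNormal_eq_of_mem_inertia g.2.2 hs, ← map_mul, mul_inv_cancel, map_one])
  refine hσ1 fun t => ?_
  obtain ⟨s, hs, hst⟩ := h5 t.2
  obtain rfl : s = t := Subtype.ext hst
  exact hs

omit [Finite G] hp in
theorem hhPow_le (P : Subgroup G) (n : ℕ) : hhPow P n ≤ P := by
  rw [hhPow, closure_le]
  rintro _ ⟨x, hx, rfl⟩
  exact pow_mem hx n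

omit [Finite G] hp in
theorem map_hhPow {G' : Type*} [Group G'] (f : G →* G') (P : Subgroup G) (n : ℕ) :
    (hhPow P n).map f = hhPow (P.map f) n := by
  rw [hhPow, hhPow, MonoidHom.map_closure]
  congr 1
  ext y
  constructor
  · rintro ⟨_, ⟨x, hx, rfl⟩, rfl⟩
    exact ⟨f x, mem_map_of_mem f hx, map_pow f x n⟩
  · rintro ⟨_, ⟨x, hx, rfl⟩, rfl⟩
    exact ⟨_, ⟨x, hx, rfl⟩, map_pow f x n⟩

omit hp in
theorem le_normalizer_hhPow (P : Subgroup G) (n : ℕ) : P ≤ normalizer (hhPow P n : Set G) :=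
  fun g hg => mem_normalizer_fintype fun x hx => by
    have : (hhPow P n).map (MulAut.conj g).toMonoidHom ≤ hhPow P n := by
      rw [map_hhPow]
      refine closure_mono ?_
      rintro _ ⟨_, ⟨y, hy, rfl⟩, rfl⟩
      exact ⟨_, mul_mem (mul_mem hg hy) (inv_mem hg), rfl⟩
    exact this ⟨x, hx, rfl⟩

theorem hh_le_centralizer (hp2 : p ≠ 2) {L P : Subgroup G} (hL : (Nat.card L).Coprime p)
    (hP : IsPGroup p P) (hPL : P ≤ normalizer (L : Set G)) (ρ : G →* End K W)
    (hρ : ∀ t ∈ L, ρ t = 1 → t = 1) {m : ℕ}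
    (h1 : ∀ x ∈ P, x ^ p ^ (m + 1) = 1) (h2 : ∀ x ∈ P, (ρ x - 1) ^ (p ^ (m + 1) - 1) = 0) :
    ⁅hhPow P (p ^ m), hhPow P (p ^ m)⁆ ≤ centralizer (L : Set G) := by
  by_contra hy
  obtain ⟨q, Q, hq, hpq, hQ, hQL, hQ1, hXQ, h3, -, h5, -⟩ := exists_special' hP
    ((commutator_le_self _).trans (hhPow_le P (p ^ m)))
    (le_normalizer_commutator (le_normalizer_hhPow P _) (le_normalizer_hhPow P _)) hPL hL
    (fun h => hy (le_centralizer_iff.mp h))
  have := Fact.mk hq
  let K' := AlgebraicClosure K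
  let M := normalizer (Q : Set G)
  have hQM : (Q.subgroupOf M).map M.subtype = Q := map_subgroupOf_eq_of_le le_normalizer
  have hBM : (P.subgroupOf M).map M.subtype = P := map_subgroupOf_eq_of_le hXQ
  let b := End.baseChangeHom K K' W
  have hb : Function.Injective b := LinearMap.baseChangeHom_injective K W K'
  refine hh_core (K := K') (Q := Q.subgroupOf M) (P := P.subgroupOf M) (m := m) hp2 hpq
    hQ.comap_subtype hP.comap_subtype
    (fun t ht s hs => Subtype.ext (h5 (by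
      rw [← hQM, ← map_commutator]; exact mem_map_of_mem _ ht) s hs))
    (b.toRingHom.toMonoidHom.comp (ρ.comp M.subtype)) (by
      obtain ⟨⟨t, ht⟩, ht1⟩ := ne_bot_iff_exists_ne_one.mp hQ1
      exact ⟨⟨t, le_normalizer ht⟩, ht, fun h => ht1 (Subtype.ext (hρ t (hQL ht)
        (hb (h.trans (map_one b).symm))))⟩) (fun x hx => Subtype.ext (h1 x hx)) (fun x hx => ?_)
    (map_injective M.subtype_injective (by
      rw [map_commutator, map_commutator, map_hhPow, hQM, hBM, h3]))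
  have := congrArg b (h2 x hx)
  rwa [map_pow, map_sub, map_one, map_zero] at this

omit [Finite G] in
theorem pLengthLE_two_mul (hp2 : p ≠ 2) (e : ℕ) : ∀ {G : Type u} [Group G] [Finite G],
    IsPSolvable p G → (∀ x : G, (∃ k, x ^ p ^ k = 1) → x ^ p ^ e = 1) →
      PLengthLE p (2 * e) G := by
  induction e with
  | zero =>
    intro G _ _ _ h
    refine pLengthLE_zero_iff.mpr fun hd => ?_
    obtain ⟨x, hx⟩ := exists_prime_orderOf_dvd_card' p hd
    have := h x ⟨1, by rw [pow_one, ← hx, pow_orderOf_eq_one]⟩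
    rw [pow_zero, pow_one] at this
    exact hp.out.ne_one (by rw [← hx, this, orderOf_one])
  | succ e ih =>
    intro G _ _ hG h
    obtain ⟨G₂, _, _, f, hf, hV, hC, hle⟩ := exists_red hG
    have hs := QuotientGroup.mk'_surjective (pCore p G₂)
    have h2 : ∀ x : G₂, (∃ k, x ^ p ^ k = 1) → x ^ p ^ (e + 1) = 1 := by
      rintro x ⟨k, hk⟩
      obtain ⟨x, hx, rfl⟩ := exists_pElt_lift hf hk
      rw [← map_pow, h x hx, map_one]
    have hG' := isPSolvable_of_surjective _ hs (isPSolvable_of_surjective f hf hG)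
    obtain ⟨H₂, _, _, f₂, hf₂, hW, hC₂, hle₂⟩ := exists_red hG'
    have hs₂ := QuotientGroup.mk'_surjective (pCore p H₂)
    have hH' := isPSolvable_of_surjective _ hs₂ (isPSolvable_of_surjective f₂ hf₂ hG')
    have h3 : ∀ x : G₂ ⧸ pCore p G₂, (∃ k, x ^ p ^ k = 1) → x ^ p ^ (e + 1) = 1 ∧
        (quoRep hV x - 1) ^ (p ^ (e + 1) - 1) = 0 := by
      rintro x ⟨k, hk⟩
      obtain ⟨x, hx, rfl⟩ := exists_pElt_lift hs hk
      exact ⟨by rw [← map_pow, h2 x hx, map_one], eaRepN_sub_one_pow hV h2 hx⟩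
    rw [Nat.mul_succ]
    refine pLengthLE_succ_of_ker_le (f := (QuotientGroup.mk' (pCore p G₂)).comp f)
      (by rwa [← MonoidHom.comap_ker, QuotientGroup.ker_mk'])
      (pLengthLE_succ_of_ker_le (f := (QuotientGroup.mk' (pCore p H₂)).comp f₂)
        (by rwa [← MonoidHom.comap_ker, QuotientGroup.ker_mk']) (ih hH' ?_))
    rintro y ⟨k, hk⟩
    obtain ⟨g₂, ⟨k', hk'⟩, rfl⟩ := exists_pElt_lift hs₂ hk
    obtain ⟨g, hg, rfl⟩ := exists_pElt_lift hf₂ hk'
    by_contra hne
    obtain ⟨P, hP⟩ : ∃ P : Sylow p (G₂ ⧸ pCore p G₂), g ∈ (P : Subgroup _) := by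
      obtain ⟨k, hk⟩ := hg
      obtain ⟨k, -, hk⟩ := (Nat.dvd_prime_pow hp.out).mp (orderOf_dvd_of_pow_eq_one hk)
      obtain ⟨P, hP⟩ := (IsPGroup.of_card (G := zpowers g)
        (by rw [Nat.card_zpowers, hk])).exists_le_sylow
      exact ⟨P, hP (mem_zpowers g)⟩
    have hPe : ∀ x ∈ (P : Subgroup (G₂ ⧸ pCore p G₂)), ∃ k, x ^ p ^ k = 1 := fun x hx =>
      (P.isPGroup' ⟨x, hx⟩).imp fun k hk => congrArg Subtype.val hk
    have h4 := (hh_le_centralizer hp2 (H1.coprime_card_pPrimeCore p _) P.isPGroup'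
      (by rw [normalizer_eq_top]; exact le_top) (quoRep hV)
      (fun t _ h => quoRep_injective hV hC (h.trans (map_one _).symm)) (m := e)
      (fun x hx => (h3 x (hPe x hx)).1) fun x hx => (h3 x (hPe x hx)).2).trans
        (centralizer_pPrimeCore_le_of_isPSolvable hG' (H1.pCore_quotient_pCore p))
    have h5 : ∀ x ∈ (P : Subgroup (G₂ ⧸ pCore p G₂)), Commute (g ^ p ^ e) (x ^ p ^ e) := by
      intro x hx
      have h6 : ⁅g ^ p ^ e, x ^ p ^ e⁆ ∈ ⁅hhPow P.1 (p ^ e), hhPow P.1 (p ^ e)⁆ :=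
        commutator_mem_commutator (subset_closure ⟨g, hP, rfl⟩) (subset_closure ⟨x, hx, rfl⟩)
      obtain ⟨k, hk⟩ := hPe _ (hhPow_le _ _ (commutator_le_self _ h6))
      have := Nat.dvd_gcd (Subgroup.orderOf_dvd_natCard _ (h4 h6)) (orderOf_dvd_of_pow_eq_one hk)
      rwa [Nat.Coprime.pow_right k (H1.coprime_card_pPrimeCore p _), Nat.dvd_one,
        orderOf_eq_one_iff, commutatorElement_eq_one_iff_commute] at this
    have h7 : (eaRepN hW (f₂ g) - 1) ^ (p ^ e + (p ^ e - 1)) = 0 := by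
      rw [pow_add, sub_one_pow_char_pow (K := ZMod p), sub_one_pow_pred_eq_sum (K := ZMod p)]
      refine LinearMap.ext fun v => ?_
      obtain ⟨x, hx, hxv⟩ : v.val * f₂ g ∈ (P : Subgroup (G₂ ⧸ pCore p G₂)).map f₂ :=
        mul_mem (H1.pCore_le_sylow (P.mapSurjective hf₂) (EAMod.val_mem v)) (mem_map_of_mem _ hP)
      have h8 := ((h5 x hx).map f₂).eq
      rw [map_pow, map_pow, hxv, ← val_sum_eaRepN_pow hW, ← mul_assoc, mul_left_inj] at h8
      rw [End.mul_apply, LinearMap.sub_apply, End.one_apply, LinearMap.zero_apply, sub_eq_zero,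
        ← map_pow]
      exact EAMod.ext' (by rw [val_eaRepN, h8, mul_inv_cancel_right])
    have hpos := pow_pos hp.out.pos e
    have h3p : 3 ≤ p := by have := hp.out.two_le; omega
    rcases hall_higman_B hH' (H1.pCore_quotient_pCore p)
      (orderOf_eq_prime_pow hne (by rw [← map_pow, ← map_pow, (h3 g hg).1, map_one, map_one]))
      (quoRep hW) (quoRep_injective hW hC₂) h7 with h8 | ⟨n₀, -, -, -, h8, h9, -, -, -, -, -, -, h10⟩
    · rw [pow_succ] at h8
      have := Nat.mul_le_mul_left (p ^ e) h3p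
      omega
    · obtain ⟨a, ha⟩ := Nat.exists_eq_add_of_le h9
      obtain ⟨b, rfl⟩ := Nat.exists_eq_add_of_le h8
      obtain rfl : e = a + b := by omega
      rw [show a + b + 1 - (1 + b) = a by omega, pow_add, pow_add, pow_one] at h10
      have h11 := pow_pos hp.out.pos a
      have h12 := pow_pos hp.out.pos b
      have h13 : 2 * p ^ b ≤ p * p ^ b - 1 := by
        have := Nat.mul_le_mul_right (p ^ b) h3p
        omega
      have h14 := Nat.mul_le_mul_left (p ^ a) h13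
      have h15 := Nat.mul_pos h11 h12
      rw [mul_left_comm] at h14
      omega

end Cfsg.Agent.H7
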