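import Mathlib
import Cfsg.Agent.H8.Subsec3
import Cfsg.Agent.S0920
import Cfsg.Agent.S4635

/-!
# Counting characters of degree prime to `p` when a Sylow subgroup has order `p`
-/

set_option linter.style.haveILetI false

namespace Cfsg.Agent.H7.MK

open Cfsg Cfsg.Agent.H4 Cfsg.Agent.H5 Cfsg.Agent.H8

variable {G : Type*} [Group G] [Finite G] {p : ℕ} [hp : Fact p.Prime] {M : Ideal AlgInt}

theorem sylow_def (hM : IsPModular p M) {B : Set (IrrCharacter G)} (hB : IsPBlock M B)
    (P : Sylow p G) (hd : blockDefect p B = (Nat.card G).factorization p) :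
    IsDefectGroup p M B P := by
  haveI := hM.2.1
  haveI := Fintype.ofFinite G
  obtain ⟨g, hg⟩ := H6.exists_isDefectClass hB
  have hD : IsDefectGroup p M B _ := ⟨g, hg, default, rfl⟩
  have h1 := card_defectGroup hM hB hD
  rw [hd] at h1
  obtain ⟨t, ht⟩ := MulAction.exists_smul_eq G (Sylow.ofCard _ h1) P
  obtain ⟨D, h2, h3⟩ := H6.exists_defectGroup_ge (H6.IsDefectClass.conj hB hg t) P.isPGroup' (by
    intro x hx
    rw [← ht] at hx
    obtain ⟨y, ⟨z, -, rfl⟩, rfl⟩ := hx
    have := H6.mem_centralizer_singleton.1 z.2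
    simp only [MulDistribMulAction.toMonoidEnd_apply, MulDistribMulAction.toMonoidHom_apply,
      MulAut.smul_def, MulAut.conj_apply, Subgroup.coe_subtype]
    rw [conj_mul, conj_mul, this.eq])
  rwa [P.is_maximal' (isPGroup_defectGroup h2) h3] at h2

theorem not_dvd_iff (hM : IsPModular p M) (h1 : (Nat.card G).factorization p = 1)
    (P : Sylow p G) (χ : IrrCharacter G) :
    ¬ p ∣ charDegree (χ : G → ℂ) ↔ IsDefectGroup p M (blockOf M (χ : G → ℂ)) P := by
  haveI := hM.2.1
  haveI := Fintype.ofFinite G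
  have hB := isPBlock_blockOf (M := M) χ
  have hχ := mem_blockOf_self (M := M) χ
  have e1 := height_add_bmin (p := p) hχ
  have e2 := defect_add_bmin (p := p) ⟨χ, hχ⟩
  rw [hp.out.dvd_iff_one_le_factorization (irr_charDegree_ne_zero χ)]
  constructor
  · intro h
    exact sylow_def hM hB P (by omega)
  · intro h
    have h2 := card_defectGroup hM hB h
    rw [P.card_eq_multiplicity, h1] at h2
    have h3 := Nat.pow_right_injective hp.out.two_le h2
    by_cases h0 : blockHeight p (blockOf M (χ : G → ℂ)) (χ : G → ℂ) = 0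
    · omega
    · have := height_add_two_le hM hB hχ h0
      omega

theorem card_eq_sum [M.IsMaximal] [Fintype G] (q : Set (IrrCharacter G) → Prop)
    [DecidablePred q] :
    Nat.card {χ : IrrCharacter G // q (blockOf M (χ : G → ℂ))} =
      ∑ B ∈ (H6.blocks M G).filter q, Nat.card B := by
  classical
  rw [Nat.card_eq_fintype_card, Fintype.card_subtype,
    Finset.card_eq_sum_card_fiberwise (f := fun χ : IrrCharacter G => blockOf M (χ : G → ℂ))
      (t := (H6.blocks M G).filter q) (fun χ hχ => by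
        simp only [Finset.coe_filter, Finset.mem_univ, true_and, Set.mem_ofPred_eq] at hχ ⊢
        exact ⟨H6.mem_blocks.2 (isPBlock_blockOf χ), hχ⟩)]
  refine Finset.sum_congr rfl fun B hB => ?_
  obtain ⟨h1, h2⟩ := Finset.mem_filter.1 hB
  have h3 := H6.mem_blocks.1 h1
  rw [← card_bfin]
  congr 1
  ext χ
  simp only [Finset.mem_filter, Finset.mem_univ, true_and, mem_bfin]
  constructor
  · rintro ⟨-, h⟩
    exact h ▸ mem_blockOf_self χ
  · intro h
    rw [← block_eq_blockOf h3 h]
    exact ⟨h2, rfl⟩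

theorem def_of_normal (hM : IsPModular p M) (P : Sylow p G) (hn : (P : Subgroup G).Normal)
    {B : Set (IrrCharacter G)} (hB : IsPBlock M B) : IsDefectGroup p M B P := by
  haveI := hM.2.1
  haveI := H6.charP_res hM
  haveI := Fintype.ofFinite G
  obtain ⟨D, hD⟩ := H6.exists_isDefectGroup p hB
  have h1 := IsDef.le_of_normal le_rfl P.isPGroup' le_top (by rw [Subgroup.normalizer_eq_top])
    (blk_eB hB).mem (blk_eB hB).idem ((isDefectGroup_iff hM hB).1 hD)
  rwa [P.is_maximal' (isPGroup_defectGroup hD) h1] at hD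

theorem result (p : ℕ) [hp : Fact p.Prime] (hdiv : p ∣ Nat.card G) (hsq : ¬ p ^ 2 ∣ Nat.card G)
    (P : Sylow p G) : Nat.card {χ : IrrCharacter G // ¬ p ∣ charDegree (χ : G → ℂ)} =
      Nat.card (ConjClasses (Subgroup.normalizer ((P : Subgroup G) : Set G))) := by
  classical
  obtain ⟨M, hM⟩ := H6.exists_isPModular hp.out
  haveI := hM.2.1
  haveI := Fintype.ofFinite G
  set N := Subgroup.normalizer ((P : Subgroup G) : Set G) with hN
  haveI := Fintype.ofFinite N
  have h1 : (Nat.card G).factorization p = 1 :=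
    factorization_eq_of_dvd_of_not_dvd hp.out (by rwa [pow_one]) hsq
  have hc' : Nat.card P = p := by rw [P.card_eq_multiplicity, h1, pow_one]
  have hP1 : (P : Subgroup G) ≠ ⊥ := fun h => by
    have : Nat.card (P : Subgroup G) = 1 := by rw [h, Subgroup.card_bot]
    exact hp.out.one_lt.ne' (hc'.symm.trans this)
  have hcyc : IsCyclic (P : Subgroup G) := isCyclic_of_prime_card hc'
  have hall : ∀ c : Set (IrrCharacter N), IsPBlock M c →
      IsDefectGroup p M c ((P : Subgroup G).subgroupOf N) := fun c hc =>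
    def_of_normal hM (P.subtype Subgroup.le_normalizer) Subgroup.normal_in_normalizer hc
  obtain ⟨f1, f2⟩ := S0920.result p M hM (P : Subgroup G) P.isPGroup'
  rw [Nat.card_congr (Equiv.subtypeEquivRight fun χ => not_dvd_iff hM h1 P χ),
    card_eq_sum (M := M) (fun B => IsDefectGroup p M B (P : Subgroup G)), ← card_irr_eq_card_conjClasses,
    ← Nat.card_congr (Equiv.subtypeUnivEquiv (p := fun χ : IrrCharacter N =>
      (fun _ => True) (blockOf M (χ : N → ℂ))) fun _ => trivial), card_eq_sum (M := M) (fun _ => True)]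
  symm
  have key : ∀ c ∈ (H6.blocks M N).filter (fun _ => True), ∃ B, IsPBlock M B ∧
      IsDefectGroup p M B P ∧ IsInducedBlock M N c B := fun c hc =>
    f1 c (H6.mem_blocks.1 (Finset.mem_filter.1 hc).1)
      (hall c (H6.mem_blocks.1 (Finset.mem_filter.1 hc).1))
  choose F hF1 hF2 hF3 using key
  refine Finset.sum_bij F (fun c hc => Finset.mem_filter.2 ⟨H6.mem_blocks.2 (hF1 c hc), hF2 c hc⟩)
    (fun c hc c' hc' h => ?_) (fun B hB => ?_) fun c hc => ?_
  · exact (f2 _ (hF1 c hc) (hF2 c hc)).unique ⟨(hF3 c hc).1, hall c (hF3 c hc).1, hF3 c hc⟩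
      ⟨(hF3 c' hc').1, hall c' (hF3 c' hc').1, h ▸ hF3 c' hc'⟩
  · obtain ⟨h2, h3⟩ := Finset.mem_filter.1 hB
    obtain ⟨c, ⟨h4, -, h5⟩, -⟩ := f2 B (H6.mem_blocks.1 h2) h3
    have h6 : c ∈ (H6.blocks M N).filter (fun _ => True) :=
      Finset.mem_filter.2 ⟨H6.mem_blocks.2 h4, trivial⟩
    exact ⟨c, h6, H6.induced_unique (hF3 c h6) h5⟩
  · exact (S4635.result p M hM _ (hF1 c hc) P (hF2 c hc) hP1 hcyc P le_rfl hc' N rfl c
      (hall c (hF3 c hc).1) (hF3 c hc)).1

end Cfsg.Agent.H7.MK
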