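import Cfsg.Agent.H7.Rank
import Cfsg.Agent.H7.Local4

/-!
# Contributions of major subsections
-/

set_option autoImplicit false
set_option linter.unusedSectionVars false
set_option linter.style.haveILetI false
set_option warn.classDefReducibility false

namespace Cfsg.Agent.H7

open MonoidAlgebra Cfsg Cfsg.Agent.H3 Cfsg.Agent.H4
open Cfsg.Agent.H6 (Res locRing redC redA eB fB intAlg classSum omega chiL red blocks)
open Cfsg.Agent.H8 (SecData sec sub bspan bfin indBlocks msub)
open scoped Pointwise ComplexConjugate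

theorem cyc_sum_norm_ge_pow {p : ℕ} {M : Ideal AlgInt} [M.IsMaximal] (hM : IsPModular p M)
    {N : ℕ} [NeZero N] {x : ℕ → ℂ} (hx : x ∈ H8.cyc N) (h1 : x 1 ≠ 0) {h : ℕ}
    (hd : ∀ k : ℕ, k.Coprime N → x k / ((p ^ h : ℕ) : ℂ) ∈ locRing M) :
    (Fintype.card (ZMod N)ˣ : ℝ) * (p : ℝ) ^ h ≤ ∑ u : (ZMod N)ˣ, ‖x (u : ZMod N).val‖ := by
  obtain ⟨z, hz⟩ := H8.cyc_exists_int_prod hx
  have h0 := H8.cyc_prod_ne_zero hx h1
  have hp := hM.1
  have hpos : (0 : ℝ) < (p : ℝ) ^ h := by have := hp.pos; positivity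
  have h2 : ∏ u : (ZMod N)ˣ, x (u : ZMod N).val / ((p ^ h : ℕ) : ℂ) ∈ locRing M :=
    prod_mem fun u _ => hd _ (ZMod.val_coe_unit_coprime u)
  rw [Finset.prod_div_distrib, Finset.prod_const, Finset.card_univ, hz, ← Nat.cast_pow,
    H8.intCast_div_mem_iff hM z (pow_ne_zero _ (pow_ne_zero _ hp.ne_zero)), ← pow_mul,
    hp.factorization_pow, Finsupp.single_eq_same] at h2
  rw [hz] at h0
  have h3 := Int.le_of_dvd (abs_pos.mpr (by exact_mod_cast h0)) ((dvd_abs _ _).mpr h2)
  rw [← le_div_iff₀ hpos, Finset.sum_div]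
  refine card_le_sum_of_one_le_prod _ (fun _ => by positivity) ?_
  rw [Finset.prod_div_distrib, ← norm_prod, hz, Finset.prod_const, Finset.card_univ,
    one_le_div (by positivity), Complex.norm_intCast, ← pow_mul]
  exact_mod_cast h3

theorem sum_le_mul_sum_div {α : Type*} [Fintype α] (E : α → α → Prop) (hr : ∀ a, E a a)
    (hs : ∀ a b, E a b → E b a) (ht : ∀ a b c, E a b → E b c → E a c) (Z : Finset α) (A : α → ℝ)
    (hA : ∀ a, 0 ≤ A a) (hE : ∀ a b, E a b → A a = A b) {n : ℕ}
    (hn : ∀ a ∈ Z, {b | b ∈ Z ∧ E a b}.ncard ≤ n) :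
    ∑ a ∈ Z, A a ≤ n * ∑ b, A b / Nat.card {c // E b c} := by
  classical
  have h1 : ∀ a, A a = ∑ b with E a b, A b / Nat.card {c // E b c} := fun a => by
    rw [Finset.sum_congr rfl (g := fun _ => A a / (Finset.univ.filter (E a)).card) fun b hb => by
      have h := (Finset.mem_filter.1 hb).2
      rw [hE a b h, Nat.card_eq_fintype_card, Fintype.card_subtype]
      congr 3
      ext c
      simp only [Finset.mem_filter, Finset.mem_univ, true_and]
      exact ⟨ht _ _ _ h, ht _ _ _ (hs _ _ h)⟩, Finset.sum_const, nsmul_eq_mul, mul_div_cancel₀]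
    exact Nat.cast_ne_zero.2 (Finset.card_ne_zero.2 ⟨a, by simpa using hr a⟩)
  rw [Finset.sum_congr rfl fun a _ => h1 a, Finset.sum_comm' (t' := Finset.univ)
    (s' := fun b => Z.filter fun a => E a b) (by simp), Finset.mul_sum]
  refine Finset.sum_le_sum fun b _ => ?_
  rw [Finset.sum_const, nsmul_eq_mul]
  refine mul_le_mul_of_nonneg_right (Nat.cast_le.2 ?_) (div_nonneg (hA b) (Nat.cast_nonneg _))
  rcases (Z.filter fun a => E a b).eq_empty_or_nonempty with h | ⟨a, ha⟩
  · simp [h]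
  obtain ⟨h2, h3⟩ := Finset.mem_filter.1 ha
  refine le_trans ?_ (hn a h2)
  rw [← Set.ncard_coe_finset]
  exact Set.ncard_le_ncard fun c hc => ⟨(Finset.mem_filter.1 hc).1,
    ht _ _ _ h3 (hs _ _ (Finset.mem_filter.1 hc).2)⟩

variable {M : Ideal AlgInt} [hMm : M.IsMaximal] {G : Type*} [Group G] [Fintype G] {p : ℕ}
  [Fact p.Prime] {P : Subgroup G} {e : (Res M)[G]} (hM : IsPModular p M)
  {B : Set (IrrCharacter G)} (hB : IsPBlock M B) (S : MaxP p ⊤ ⊤ (eB M B) P e)

attribute [local instance] H8.subFintype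

theorem msub_congr {C C' : Subgroup G} (h : C = C') {b : Set (IrrCharacter C)}
    {b' : Set (IrrCharacter C')} (hb : IsPBlock M b) (hb' : IsPBlock M b')
    (he : eb M C b = eb M C' b') (v : G) (θ ψ : G → ℂ) : msub p v b θ ψ = msub p v b' θ ψ := by
  subst h
  rw [eb_injective hb hb' he]

include hM S

theorem MaxP.msub_pow {u : G} (hu : u ∈ P) {k : ℕ} (hk : k.Coprime (orderOf u)) (θ ψ : G → ℂ) :
    msub p (u ^ k) (bsec M p P e (u ^ k)) θ ψ = msub p (u ^ k) (bsec M p P e u) θ ψ := by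
  have h : Subgroup.zpowers (u ^ k) = Subgroup.zpowers u :=
    le_antisymm (Subgroup.zpowers_le.2 (Subgroup.pow_mem _ (Subgroup.mem_zpowers u) k))
      (Subgroup.zpowers_le.2 (mem_zpowers_pow_iff.2 hk))
  exact msub_congr (by rw [← centralizer_zpowers, h, centralizer_zpowers])
    (bsec_spec hM S.pair (P.pow_mem hu k)).1 (bsec_spec hM S.pair hu).1
    (eb_bsec_eq hM S.pair (h ▸ (bsec_spec hM S.pair hu).2)) _ _ _

include hB

open Classical in
theorem MaxP.card_center_mul_pow_le {χ : IrrCharacter G} (hχ : χ ∈ B) :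
    (Nat.card (Subgroup.center P) : ℝ) * (p : ℝ) ^ blockHeight p B (χ : G → ℂ) ≤
      ∑ u : P with u ∈ Subgroup.center P, ‖msub p (u : G) (bsec M p P e u) χ χ‖ := by
  haveI : NeZero (Nat.card P) := ⟨Nat.card_pos.ne'⟩
  have h1 : ∀ u ∈ Finset.univ.filter (· ∈ Subgroup.center P),
      (Fintype.card (ZMod (Nat.card P))ˣ : ℝ) * (p : ℝ) ^ blockHeight p B (χ : G → ℂ) ≤
      ∑ k : (ZMod (Nat.card P))ˣ, ‖msub p ((u ^ (k : ZMod (Nat.card P)).val : P) : G)
        (bsec M p P e (u ^ (k : ZMod (Nat.card P)).val : P)) χ χ‖ := fun u hu => by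
    have hc : (u : G) ∈ Subgroup.centralizer (P : Set G) := fun y hy =>
      congrArg Subtype.val (Subgroup.mem_center_iff.1 (Finset.mem_filter.1 hu).2 ⟨y, hy⟩)
    have hs := S.secData hM u.2
    have hN : (u : G) ^ Nat.card P = 1 := congrArg Subtype.val (pow_card_eq_one' (x := u))
    have hind := S.bsec_induced hM hB u.2
    have hd := S.blockDefect_bsec hM hB u.2 hc
    refine (cyc_sum_norm_ge_pow hM (hs.msub_mem_cyc (NeZero.ne _) hN χ.2.isGen χ.2.isGen)
      (fun h => S.sub_ne_zero_of_central hM hB hχ u.2 hc ?_) fun k hk =>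
        (hs.pow_of_coprime hN hk).msub_div_pow_mem hM hind hd hχ χ.2.isGen).trans_eq
      (Finset.sum_congr rfl fun k _ => ?_)
    · rw [pow_one, msub, mul_eq_zero, classInner_self_eq_zero] at h
      exact h.resolve_left (Nat.cast_ne_zero.2 (pow_ne_zero _ hM.1.ne_zero))
    · rw [← S.msub_pow hM u.2 ((ZMod.val_coe_unit_coprime k).coprime_dvd_right
        (orderOf_dvd_of_pow_eq_one hN))]
      rfl
  have h2 := Finset.sum_le_sum h1
  rw [Finset.sum_comm, Finset.sum_congr rfl fun (k : (ZMod (Nat.card P))ˣ) _ =>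
    H8.sum_pow_eq_of_closed _ (fun g hg m _ => Finset.mem_filter.2 ⟨Finset.mem_univ _,
      Subgroup.pow_mem _ (Finset.mem_filter.1 hg).2 m⟩)
      (fun u : P => ‖msub p (u : G) (bsec M p P e u) χ χ‖) (ZMod.val_coe_unit_coprime k),
    Finset.sum_const, Finset.sum_const, Finset.card_univ, nsmul_eq_mul, nsmul_eq_mul,
    mul_left_comm] at h2
  rw [Nat.card_eq_fintype_card, Fintype.card_subtype]
  exact le_of_mul_le_mul_left h2 (Nat.cast_pos.2 Fintype.card_pos)

theorem MaxP.card_center_mul_pow_height_le {χ : IrrCharacter G} (hχ : χ ∈ B) :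
    Nat.card (Subgroup.center P) * p ^ blockHeight p B (χ : G → ℂ) ≤
      Nat.card P * (P ⊔ Subgroup.centralizer (P : Set G)).relIndex (NS ⊤ P e) := by
  classical
  have hc : ∀ u : P, u ∈ Subgroup.center P → (u : G) ∈ Subgroup.centralizer (P : Set G) :=
    fun u hu y hy => congrArg Subtype.val (Subgroup.mem_center_iff.1 hu ⟨y, hy⟩)
  have h1 := sum_le_mul_sum_div (fun u v : P => Fus M p P e u v) (fun _ => Fus.refl _)
    (fun _ _ => Fus.symm) (fun _ _ _ => Fus.trans) (Finset.univ.filter (· ∈ Subgroup.center P))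
    (fun u => (classInner (sub p (u : G) (bsec M p P e u) χ) (sub p (u : G) (bsec M p P e u) χ)).re)
    (fun _ => classInner_self_re_nonneg _)
    (fun u v h => congrArg Complex.re
      (S.stable_inner_sub hM χ.2.isClassFunction χ.2.isClassFunction u v h))
    (n := (P ⊔ Subgroup.centralizer (P : Set G)).relIndex (NS ⊤ P e)) fun u hu => by
      have hu' := (Finset.mem_filter.1 hu).2
      refine le_trans (Set.ncard_le_ncard_of_injOn (t := orb (NS ⊤ P e) (u : G)) Subtype.val
        (fun v hv => ?_) Subtype.val_injective.injOn) ?_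
      · exact (S.fus_iff_of_central hM u.2 v.2 (hc u hu') (hc v (Finset.mem_filter.1 hv.1).2)).1 hv.2
      · rw [ncard_orb]
        refine Subgroup.relIndex_le_of_le_left (sup_le ?_ (Subgroup.centralizer_le
          (Set.singleton_subset_iff.2 u.2))) Subgroup.index_ne_zero_of_finite
        exact fun y hy => H6.mem_centralizer_singleton.2 (hc u hu' y hy).symm
  have h2 := congrArg Complex.re
    (S.inner_eq_sum hM hB (H8.mem_bspan_of_mem hχ) χ.2.isClassFunction)
  rw [χ.2.classInner_self, Complex.re_sum] at h2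
  simp only [Complex.div_natCast_re] at h2
  rw [← h2, Complex.one_re, mul_one] at h1
  have h3 := S.card_center_mul_pow_le hM hB hχ
  rw [Finset.sum_congr rfl fun u hu => by
    rw [H8.msub_self_eq_re, Complex.norm_real, Real.norm_of_nonneg (H8.msub_self_re_nonneg _),
      msub, S.blockDefect_bsec hM hB u.2 (hc u (Finset.mem_filter.1 hu).2),
      ← H8.card_defectGroup hM hB ((isDefectGroup_iff hM hB).2 S.isDef), ← Complex.ofReal_natCast,
      Complex.re_ofReal_mul],
    ← Finset.mul_sum] at h3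
  exact_mod_cast h3.trans (mul_le_mul_of_nonneg_left h1 (Nat.cast_nonneg _))

end Cfsg.Agent.H7
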