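import Mathlib
import Cfsg.Agent.H8.Subsec3

/-!
# The number of `p`-conjugates of an irreducible character
-/

set_option linter.style.haveILetI false

namespace Cfsg.Agent.H7.PC

open Cfsg Cfsg.Agent.H4 Cfsg.Agent.H5 Cfsg.Agent.H8
open scoped ComplexConjugate

theorem mem_ker_unitsMap {N n : ℕ} [NeZero N] (h : n ∣ N) (k : (ZMod N)ˣ) :
    k ∈ (ZMod.unitsMap h).ker ↔ (k : ZMod N).val ≡ 1 [MOD n] := by
  rw [MonoidHom.mem_ker, Units.ext_iff, ZMod.unitsMap_val, Units.val_one,
    ← ZMod.natCast_eq_natCast_iff, Nat.cast_one, ZMod.natCast_val]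

theorem pow_val_natCast {R : Type*} [Monoid R] {N : ℕ} [NeZero N] {ε : R} (h : ε ^ N = 1) (j : ℕ) :
    ε ^ ((j : ZMod N).val) = ε ^ j := by
  rw [ZMod.val_natCast]
  conv_rhs => rw [← Nat.mod_add_div j N, pow_add, pow_mul, h, one_pow, mul_one]

theorem pow_eq_self_of_modEq {R : Type*} [Monoid R] {n k : ℕ} {ε : R} (h : ε ^ n = 1)
    (hk : k ≡ 1 [MOD n]) : ε ^ k = ε := by
  have h1 : ∀ j : ℕ, ε ^ j = ε ^ (j % n) := fun j => by
    conv_lhs => rw [← Nat.mod_add_div j n, pow_add, pow_mul, h, one_pow, mul_one]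
  rw [h1 k, hk, ← h1 1, pow_one]

theorem isIntegral_avg {N n a : ℕ} [NeZero N] (h : n ∣ N) (ha : N ∣ n ^ a) {ε : ℂ}
    (hε : ε ^ N = 1) [Fintype (ZMod.unitsMap h).ker] :
    IsIntegral ℤ ((Nat.card (ZMod.unitsMap h).ker : ℂ)⁻¹ *
      ∑ k : (ZMod.unitsMap h).ker, ε ^ ((k : (ZMod N)ˣ) : ZMod N).val) := by
  by_cases hn : ε ^ n = 1
  · have : ∀ k : (ZMod.unitsMap h).ker, ε ^ ((k : (ZMod N)ˣ) : ZMod N).val = ε := fun k =>
      pow_eq_self_of_modEq hn ((mem_ker_unitsMap h _).mp k.2)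
    simp only [this, Finset.sum_const, Finset.card_univ, nsmul_eq_mul, ← Nat.card_eq_fintype_card]
    rw [inv_mul_cancel_left₀ (Nat.cast_ne_zero.mpr Nat.card_pos.ne')]
    exact isIntegral_of_pow_eq_one' (NeZero.ne N) hε
  · have hm : ∀ k : (ZMod.unitsMap h).ker, ((k : (ZMod N)ˣ) : ZMod N).val + n ≡ 1 [MOD n] :=
      fun k => by
        have := (mem_ker_unitsMap h _).mp k.2
        simpa [Nat.ModEq] using this
    have hc : ∀ k : (ZMod.unitsMap h).ker, (((k : (ZMod N)ˣ) : ZMod N).val + n).Coprime N :=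
      fun k => by
        have h1 : (((k : (ZMod N)ˣ) : ZMod N).val + n).Coprime n := by
          rw [Nat.Coprime, (hm k).gcd_eq]
          simp
        exact (h1.pow_right a).coprime_dvd_right ha
    let T : (ZMod.unitsMap h).ker → (ZMod.unitsMap h).ker := fun k =>
      ⟨ZMod.unitOfCoprime _ (hc k), by
        rw [mem_ker_unitsMap, ZMod.coe_unitOfCoprime, ZMod.val_natCast]
        exact ((Nat.mod_modEq _ N).of_dvd h).trans (hm k)⟩
    have hT : Function.Injective T := by
      intro k l hkl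
      have h1 := congrArg (fun x : (ZMod.unitsMap h).ker => ((x : (ZMod N)ˣ) : ZMod N)) hkl
      simp only [T, ZMod.coe_unitOfCoprime, Nat.cast_add, ZMod.natCast_zmod_val, add_left_inj] at h1
      exact Subtype.ext (Units.ext h1)
    have hb := Finite.injective_iff_bijective.mp hT
    have h1 := (Equiv.ofBijective T hb).sum_comp
      (fun k : (ZMod.unitsMap h).ker => ε ^ ((k : (ZMod N)ˣ) : ZMod N).val)
    have h2 : ∀ k, ε ^ (((Equiv.ofBijective T hb k : (ZMod.unitsMap h).ker) : (ZMod N)ˣ) :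
        ZMod N).val = ε ^ ((k : (ZMod N)ˣ) : ZMod N).val * ε ^ n := fun k => by
      simp only [Equiv.ofBijective_apply, T, ZMod.coe_unitOfCoprime]
      rw [pow_val_natCast hε, pow_add]
    simp only [h2, ← Finset.sum_mul] at h1
    have h3 : ∑ k : (ZMod.unitsMap h).ker, ε ^ ((k : (ZMod N)ˣ) : ZMod N).val = 0 := by
      have : (∑ k : (ZMod.unitsMap h).ker, ε ^ ((k : (ZMod N)ˣ) : ZMod N).val) * (ε ^ n - 1) = 0 := by
        rw [mul_sub, h1, mul_one, sub_self]
      exact (mul_eq_zero.mp this).resolve_right (sub_ne_zero.mpr hn)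
    rw [h3, mul_zero]
    exact isIntegral_zero

variable {G : Type*} [Group G] [Finite G]

instance : NeZero (Nat.card G) := ⟨Nat.card_pos.ne'⟩

/-- the action of the units modulo the group order on the irreducible characters -/
@[reducible] noncomputable def act (G : Type*) [Group G] [Finite G] :
    MulAction (ZMod (Nat.card G))ˣ (IrrCharacter G) where
  smul k χ := ⟨fun g => (χ : G → ℂ) (g ^ (k : ZMod (Nat.card G)).val),
    χ.2.comp_pow (ZMod.val_coe_unit_coprime k)⟩
  one_smul χ := Subtype.ext (funext fun g => by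
    show (χ : G → ℂ) (g ^ ((1 : (ZMod (Nat.card G))ˣ) : ZMod (Nat.card G)).val) = _
    rw [Units.val_one, ← Nat.cast_one, pow_val_natCast pow_card_eq_one', pow_one])
  mul_smul k l χ := Subtype.ext (funext fun g => by
    show (χ : G → ℂ) (g ^ ((k * l : (ZMod (Nat.card G))ˣ) : ZMod (Nat.card G)).val) =
      (χ : G → ℂ) ((g ^ (k : ZMod (Nat.card G)).val) ^ (l : ZMod (Nat.card G)).val)
    rw [Units.val_mul, ZMod.val_mul, pow_mod_natCard, pow_mul])

attribute [local instance] act

theorem smul_apply (k : (ZMod (Nat.card G))ˣ) (χ : IrrCharacter G) (g : G) :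
    ((k • χ : IrrCharacter G) : G → ℂ) g = (χ : G → ℂ) (g ^ (k : ZMod (Nat.card G)).val) := rfl

theorem card_orbit (Γ : Subgroup (ZMod (Nat.card G))ˣ) (χ : IrrCharacter G) :
    Nat.card {ψ : IrrCharacter G // ∃ k ∈ Γ, k • χ = ψ} =
      (MulAction.stabilizer (ZMod (Nat.card G))ˣ χ).relIndex Γ := by
  have h1 : (MulAction.stabilizer (ZMod (Nat.card G))ˣ χ).subgroupOf Γ =
      MulAction.stabilizer Γ χ := by ext k; rfl
  rw [Subgroup.relIndex, h1, MulAction.index_stabilizer, ← Nat.card_coe_set_eq]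
  refine Nat.card_congr (Equiv.subtypeEquivRight fun ψ => ?_)
  constructor
  · rintro ⟨k, hk, rfl⟩; exact ⟨⟨k, hk⟩, rfl⟩
  · rintro ⟨k, rfl⟩; exact ⟨k, k.2, rfl⟩

theorem conj_iff {m : ℕ} (hm : m ∣ Nat.card G) (χ ψ : IrrCharacter G) :
    (∃ σ : ℂ ≃+* ℂ, σ (Complex.exp (2 * Real.pi * Complex.I / m)) =
      Complex.exp (2 * Real.pi * Complex.I / m) ∧ (ψ : G → ℂ) = fun g => σ ((χ : G → ℂ) g)) ↔
    ∃ k ∈ (ZMod.unitsMap hm).ker, k • χ = ψ := by
  have hm0 : m ≠ 0 := fun h => by
    rw [h, zero_dvd_iff] at hm; exact Nat.card_pos.ne' hm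
  have hζ := Complex.isPrimitiveRoot_exp m hm0
  have hζN : Complex.exp (2 * Real.pi * Complex.I / m) ^ Nat.card G = 1 :=
    (hζ.pow_eq_one_iff_dvd _).mpr hm
  constructor
  · rintro ⟨σ, h1, h2⟩
    obtain ⟨k, hk, hσ⟩ := exists_pow_of_ringHom (σ : ℂ →+* ℂ) (n := Nat.card G) Nat.card_pos.ne'
    refine ⟨ZMod.unitOfCoprime k hk, ?_, Subtype.ext (funext fun g => ?_)⟩
    · rw [mem_ker_unitsMap, ZMod.coe_unitOfCoprime, ZMod.val_natCast]
      refine ((Nat.mod_modEq _ _).of_dvd hm).trans ?_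
      have h3 := hσ _ hζN
      rw [RingHom.coe_coe, h1] at h3
      have h4 := (hζ.isOfFinOrder hm0).pow_eq_pow_iff_modEq.mp (h3.symm.trans (pow_one _).symm)
      rwa [← hζ.eq_orderOf] at h4
    · rw [smul_apply, ZMod.coe_unitOfCoprime, pow_val_natCast pow_card_eq_one', h2]
      exact (χ.2.isCharacter.map_apply_eq_pow hσ pow_card_eq_one').symm
  · rintro ⟨k, hk, rfl⟩
    obtain ⟨σ, hσ⟩ := exists_ringEquiv_pow (n := Nat.card G) Nat.card_pos.ne'
      (ZMod.val_coe_unit_coprime k)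
    refine ⟨σ, ?_, funext fun g => ?_⟩
    · rw [hσ _ hζN]
      exact pow_eq_self_of_modEq hζ.pow_eq_one ((mem_ker_unitsMap hm k).mp hk)
    · rw [smul_apply]
      exact (χ.2.isCharacter.map_apply_eq_pow (σ := (σ : ℂ →+* ℂ)) hσ pow_card_eq_one').symm

theorem relIndex_dvd {A : Type*} [Group A] (S K Γ Γ' : Subgroup A) [K.Normal] (h1 : Γ ≤ Γ')
    (h2 : K ⊓ Γ' ≤ Γ) : S.relIndex Γ' ∣ S.relIndex Γ * K.index := by
  refine (Subgroup.relIndex_dvd_of_le_left Γ' (inf_le_left : S ⊓ Γ ≤ S)).trans ?_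
  rw [← Subgroup.relIndex_mul_relIndex (S ⊓ Γ) Γ Γ' inf_le_right h1, Subgroup.inf_relIndex_right]
  refine mul_dvd_mul_left _ ((Subgroup.relIndex_dvd_of_le_left Γ' h2).trans ?_)
  rw [Subgroup.inf_relIndex_right]
  exact Subgroup.relIndex_dvd_index_of_normal K Γ'

section
variable {p : ℕ} [hp : Fact p.Prime] {M : Ideal AlgInt}

theorem main (hM : IsPModular p M) {m : ℕ} (hm : p ^ (Nat.card G).factorization p * m = Nat.card G)
    (h : p * m ∣ Nat.card G) (χ : IrrCharacter G) {r : ℕ}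
    (hr : (MulAction.stabilizer (ZMod (Nat.card G))ˣ χ).relIndex (ZMod.unitsMap h).ker = r) :
    r.factorization p + (charDegree (χ : G → ℂ)).factorization p ≤ (Nat.card G).factorization p ∧
    (r.factorization p + (charDegree (χ : G → ℂ)).factorization p = (Nat.card G).factorization p →
      (charDegree (χ : G → ℂ)).factorization p = (Nat.card G).factorization p) := by
  classical
  haveI := Fintype.ofFinite G
  haveI := hM.2.1
  set Γ := (ZMod.unitsMap h).ker with hΓ
  haveI : Fintype Γ := Fintype.ofFinite _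
  have ha0 : (Nat.card G).factorization p ≠ 0 := by
    have := (hp.out.dvd_iff_one_le_factorization Nat.card_pos.ne').mp ((dvd_mul_right p m).trans h)
    omega
  have ha : Nat.card G ∣ (p * m) ^ (Nat.card G).factorization p := by
    conv_lhs => rw [← hm]
    rw [mul_pow]
    exact mul_dvd_mul_left _ (dvd_pow_self _ ha0)
  set f : G → ℂ := (Nat.card Γ : ℂ)⁻¹ • ∑ k : Γ, (((k : (ZMod (Nat.card G))ˣ) • χ : IrrCharacter G) :
    G → ℂ) with hf
  have hfc : IsClassFunction G f :=
    (isClassFunction_sum Finset.univ (fun k : Γ => (((k : (ZMod (Nat.card G))ˣ) • χ : IrrCharacter G) :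
      G → ℂ)) fun k _ =>
        (((k : (ZMod (Nat.card G))ˣ) • χ : IrrCharacter G)).2.isClassFunction).smul _
  have hfi : ∀ g, IsIntegral ℤ (f g) := fun g => by
    obtain ⟨d, hd⟩ := χ.2.isCharacter.exists_degree
    obtain ⟨ε, h1, h2⟩ := χ.2.isCharacter.exists_roots hd g
    have : f g = ∑ i, (Nat.card Γ : ℂ)⁻¹ *
        ∑ k : Γ, ε i ^ ((k : (ZMod (Nat.card G))ˣ) : ZMod (Nat.card G)).val := by
      rw [hf, Pi.smul_apply, Finset.sum_apply, smul_eq_mul, ← Finset.mul_sum, Finset.sum_comm]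
      congr 1
      exact Finset.sum_congr rfl fun k _ => by rw [smul_apply, h2]
    rw [this]
    refine IsIntegral.sum _ fun i _ => isIntegral_avg h ha ?_
    obtain ⟨c, hc⟩ := orderOf_dvd_natCard g
    rw [hc, pow_mul, h1, one_pow]
  have hin : ∀ ψ : IrrCharacter G, classInner (ψ : G → ℂ) f = (Nat.card Γ : ℂ)⁻¹ *
      ((Finset.univ.filter fun k : Γ => (k : (ZMod (Nat.card G))ˣ) • χ = ψ).card : ℂ) := fun ψ => by
    rw [hf, classInner_smul_right, classInner_sum_right, map_inv₀, map_natCast]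
    congr 1
    rw [Finset.card_filter, Nat.cast_sum]
    refine Finset.sum_congr rfl fun k _ => ?_
    rw [irr_classInner]
    by_cases hk : (k : (ZMod (Nat.card G))ˣ) • χ = ψ
    · simp [hk]
    · simp [hk, Ne.symm hk]
  have hr0 : r ≠ 0 := hr ▸ Subgroup.index_ne_zero_of_finite
  have hχf : classInner (χ : G → ℂ) f = (r : ℂ)⁻¹ := by
    rw [hin]
    have h1 := Subgroup.card_mul_index ((MulAction.stabilizer (ZMod (Nat.card G))ˣ χ).subgroupOf Γ)
    have h2 : Nat.card ((MulAction.stabilizer (ZMod (Nat.card G))ˣ χ).subgroupOf Γ) =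
        (Finset.univ.filter fun k : Γ => (k : (ZMod (Nat.card G))ˣ) • χ = χ).card := by
      rw [← Fintype.card_subtype, ← Nat.card_eq_fintype_card]
      rfl
    rw [h2] at h1
    change _ * (MulAction.stabilizer (ZMod (Nat.card G))ˣ χ).relIndex Γ = _ at h1
    rw [hr] at h1
    have h3 : ((Finset.univ.filter fun k : Γ => (k : (ZMod (Nat.card G))ˣ) • χ = χ).card : ℂ) ≠ 0 := by
      rw [← h2]; exact Nat.cast_ne_zero.mpr Nat.card_pos.ne'
    rw [← h1]
    push_cast
    field_simp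
  set B := blockOf M (χ : G → ℂ)
  have hB : IsPBlock M B := isPBlock_blockOf χ
  have hχ : χ ∈ B := mem_blockOf_self χ
  have hval : ((p ^ blockDefect p B : ℕ) : ℂ) * classInner (χ : G → ℂ) f / rdeg p B χ =
      ((p ^ blockDefect p B : ℕ) : ℂ) / ((r * rdeg p B χ : ℕ) : ℂ) := by
    rw [hχf]; push_cast; ring
  have hne : r * rdeg p B χ ≠ 0 := mul_ne_zero hr0 (rdeg_ne_zero hχ)
  have hfac : (r * rdeg p B χ).factorization p =
      r.factorization p + blockHeight p B (χ : G → ℂ) := by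
    rw [Nat.factorization_mul hr0 (rdeg_ne_zero hχ), Finsupp.add_apply, rdeg_factorization hχ]
  have e1 := height_add_bmin (p := p) hχ
  have e2 := defect_add_bmin (p := p) ⟨χ, hχ⟩
  constructor
  · have h1 := pow_inner_div_mem hM hχ hfc hfi
    rw [hval, ← Int.cast_natCast, intCast_div_mem_iff hM _ hne, hfac] at h1
    have h2 : p ^ (r.factorization p + blockHeight p B (χ : G → ℂ)) ∣ p ^ blockDefect p B := by
      exact_mod_cast h1
    have := (Nat.pow_dvd_pow_iff_le_right hp.out.one_lt).mp h2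
    omega
  · intro heq
    have h1 : H6.redC M (((p ^ blockDefect p B : ℕ) : ℂ) * classInner (χ : G → ℂ) f / rdeg p B χ) ≠ 0 := by
      rw [hval]
      refine redC_natCast_div_ne_zero hM (pow_ne_zero _ hp.out.ne_zero) hne ?_
      rw [hp.out.factorization_pow, Finsupp.single_eq_same, hfac]
      omega
    have h2 : ∀ ψ ∈ B, ∃ k : Γ, (k : (ZMod (Nat.card G))ˣ) • χ = ψ := fun ψ hψ => by
      by_contra hcon
      push Not at hcon
      apply h1
      rw [redC_pow_inner_div_eq hM hB hχ hψ hfc hfi, hin, Finset.filter_eq_empty_iff.mpr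
        fun k _ => hcon k]
      simp [H6.redC_zero]
    have h3 : ∀ ψ ∈ B, ∀ g : G, g ^ (p * m) = 1 → (ψ : G → ℂ) g = (χ : G → ℂ) g := fun ψ hψ g hg => by
      obtain ⟨k, rfl⟩ := h2 ψ hψ
      rw [smul_apply, pow_eq_self_of_modEq hg ((mem_ker_unitsMap h _).mp k.2)]
    have h0 : blockHeight p B (χ : G → ℂ) = 0 := by
      obtain ⟨ψ, hψ, h4⟩ := exists_height_zero (p := p) ⟨χ, hχ⟩
      rw [blockHeight_eq] at h4 ⊢
      rwa [charDegree, h3 ψ hψ 1 (one_pow _)] at h4
    by_contra hcon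
    have hd : blockDefect p B ≠ 0 := by omega
    obtain ⟨D, hD⟩ := H6.exists_isDefectGroup p hB
    obtain ⟨u, hu⟩ := exists_prime_orderOf_dvd_card' (G := D) p
      (by rw [card_defectGroup hM hB hD]; exact dvd_pow_self _ hd)
    have hu' : orderOf (u : G) = p := by rw [Subgroup.orderOf_coe, hu]
    have hs := secData_centralizer (p := p) (x := (u : G)) ⟨1, by rw [hu', pow_one]⟩
    haveI : Fintype (Subgroup.centralizer ({(u : G)} : Set G)) := Fintype.ofFinite _
    obtain ⟨b, hb⟩ := hs.exists_induced hM hB hD u.2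
    obtain ⟨y, hy, hy0⟩ := hs.exists_apply_ne_zero hM hb hχ h0
    have hym : (y : G) ^ m = 1 := by
      rw [← orderOf_dvd_iff_pow_eq_one]
      have h5 : orderOf (y : G) ∣ p ^ (Nat.card G).factorization p * m := by
        rw [hm]; exact orderOf_dvd_natCard _
      refine Nat.Coprime.dvd_of_dvd_mul_left ?_ h5
      rw [Subgroup.orderOf_coe]
      exact ((hp.out.coprime_iff_not_dvd.mpr hy).symm).pow_right _
    have hg : ((u : G) * y) ^ (p * m) = 1 := by
      rw [(hs.commute y).mul_pow, pow_mul, ← hu', pow_orderOf_eq_one, one_pow, one_mul, mul_comm,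
        pow_mul, hym, one_pow]
    have hpg : p ∣ orderOf ((u : G) * y) := by
      by_contra hn
      have h5 : ((u : G) * y) ^ m = 1 := by
        rw [← orderOf_dvd_iff_pow_eq_one]
        exact Nat.Coprime.dvd_of_dvd_mul_left ((hp.out.coprime_iff_not_dvd.mpr hn).symm)
          (orderOf_dvd_of_pow_eq_one hg)
      rw [(hs.commute y).mul_pow, hym, mul_one, ← orderOf_dvd_iff_pow_eq_one, hu'] at h5
      have h6 : p ^ ((Nat.card G).factorization p + 1) ∣ Nat.card G := by
        conv_rhs => rw [← hm]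
        rw [pow_succ]
        exact mul_dvd_mul_left _ h5
      exact Nat.pow_succ_factorization_not_dvd Nat.card_pos.ne' hp.out h6
    have h7 := sum_degree_mul_eq_zero hM hB hpg
    rw [Finset.sum_congr rfl fun ψ hψ => by
      rw [h3 ψ (mem_bfin.mp hψ) 1 (one_pow _), h3 ψ (mem_bfin.mp hψ) _ hg], Finset.sum_const,
      nsmul_eq_mul] at h7
    have h8 : ((bfin B).card : ℂ) ≠ 0 :=
      Nat.cast_ne_zero.mpr (Finset.card_ne_zero.mpr ⟨χ, mem_bfin.mpr hχ⟩)
    exact mul_ne_zero h8 (mul_ne_zero χ.2.apply_one_ne_zero hy0) h7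

end

theorem result (p : ℕ) (hp : p.Prime) (χ : IrrCharacter G) (r : ℕ)
    (hr : Nat.card {ψ : IrrCharacter G // ∃ σ : ℂ ≃+* ℂ, σ (Complex.exp (2 * Real.pi * Complex.I /
      ((Nat.card G / p ^ (Nat.card G).factorization p) : ℕ))) = Complex.exp (2 * Real.pi * Complex.I /
      ((Nat.card G / p ^ (Nat.card G).factorization p) : ℕ)) ∧
        (ψ : G → ℂ) = fun g => σ ((χ : G → ℂ) g)} = r) :
    (r * charDegree (χ : G → ℂ)).factorization p ≤ (Nat.card G).factorization p ∧
      (p ^ (Nat.card G).factorization p ∣ r * charDegree (χ : G → ℂ) →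
        p ^ (Nat.card G).factorization p ∣ charDegree (χ : G → ℂ)) := by
  haveI := Fact.mk hp
  set m := Nat.card G / p ^ (Nat.card G).factorization p with hmdef
  have hm : p ^ (Nat.card G).factorization p * m = Nat.card G := Nat.ordProj_mul_ordCompl_eq_self _ _
  have hmd : m ∣ Nat.card G := Dvd.intro_left _ hm
  rw [Nat.card_congr (Equiv.subtypeEquivRight fun ψ => conj_iff hmd χ ψ), card_orbit] at hr
  have hr0 : r ≠ 0 := hr ▸ Subgroup.index_ne_zero_of_finite
  have hd0 := irr_charDegree_ne_zero χ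
  rw [Nat.factorization_mul hr0 hd0, Finsupp.add_apply,
    hp.pow_dvd_iff_le_factorization (mul_ne_zero hr0 hd0), hp.pow_dvd_iff_le_factorization hd0,
    Nat.factorization_mul hr0 hd0, Finsupp.add_apply]
  by_cases ha : (Nat.card G).factorization p = 0
  · have h1 : r = 1 := by
      rw [← hr, Subgroup.relIndex_eq_one]
      intro k hk
      have h2 : m = Nat.card G := by rw [← hm, ha, pow_zero, one_mul]
      have h3 := (mem_ker_unitsMap hmd k).mp hk
      refine Subtype.ext (funext fun g => ?_)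
      rw [smul_apply, pow_eq_self_of_modEq (h2 ▸ pow_card_eq_one') h3]
    have := deg_factorization_le (p := p) χ
    subst h1
    simp only [Nat.factorization_one, Finsupp.coe_zero, Pi.zero_apply]
    omega
  · obtain ⟨M, hM⟩ := H6.exists_isPModular hp
    have h : p * m ∣ Nat.card G := by
      conv_rhs => rw [← hm]
      exact mul_dvd_mul_right (dvd_pow_self _ ha) _
    have hpN : p ∣ Nat.card G := (dvd_mul_right p m).trans h
    have hpm : p.Coprime m := Nat.coprime_ordCompl hp Nat.card_pos.ne'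
    obtain ⟨h1, h2⟩ := main hM hm h χ rfl
    set r₁ := (MulAction.stabilizer (ZMod (Nat.card G))ˣ χ).relIndex (ZMod.unitsMap h).ker
    have hr1 : r₁ ≠ 0 := Subgroup.index_ne_zero_of_finite
    have h3 := relIndex_dvd (MulAction.stabilizer (ZMod (Nat.card G))ˣ χ) (ZMod.unitsMap hpN).ker
      (ZMod.unitsMap h).ker (ZMod.unitsMap hmd).ker
      (fun k hk => (mem_ker_unitsMap _ _).mpr
        (((mem_ker_unitsMap _ _).mp hk).of_dvd (dvd_mul_left m p)))
      (fun k hk => (mem_ker_unitsMap _ _).mpr ((Nat.modEq_and_modEq_iff_modEq_mul hpm).mp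
        ⟨(mem_ker_unitsMap _ _).mp hk.1, (mem_ker_unitsMap _ _).mp hk.2⟩))
    rw [hr] at h3
    have h4 : ¬ p ∣ (ZMod.unitsMap hpN).ker.index := fun h5 => by
      rw [Subgroup.index_ker] at h5
      have h6 := h5.trans (Subgroup.card_subgroup_dvd_card _)
      rw [Nat.card_eq_fintype_card, ZMod.card_units] at h6
      have := Nat.le_of_dvd (by have := hp.two_le; omega) h6
      have := hp.two_le
      omega
    have h5 : r.factorization p ≤ r₁.factorization p := by
      have h6 := (Nat.factorization_le_iff_dvd hr0 (mul_ne_zero hr1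
        Subgroup.index_ne_zero_of_finite)).mpr h3 p
      rwa [Nat.factorization_mul hr1 Subgroup.index_ne_zero_of_finite, Finsupp.add_apply,
        Nat.factorization_eq_zero_of_not_dvd h4, add_zero] at h6
    constructor
    · omega
    · intro h6
      exact (h2 (by omega)).ge

end Cfsg.Agent.H7.PC
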