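import Cfsg.Agent.H7.Pim2
import Cfsg.Agent.H1.Coprime

/-!
A direct summand of minimal dimension of a permutation module of a `p`-group is a transitive
permutation module; blocks of minimal dimension are nilpotent.
-/

set_option linter.style.haveILetI false

namespace Cfsg.Agent.H7

open MonoidAlgebra Cfsg Cfsg.Agent.H3 Cfsg.Agent.H4 Module
open scoped Pointwise commutatorElement

theorem exists_transitive_summand {k Γ X : Type*} [Field k] [Group Γ] [Finite Γ] [MulAction Γ X]
    [Fintype X] {p : ℕ} [Fact p.Prime] [CharP k p] (hΓ : IsPGroup p Γ) (E : Matrix X X k)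
    (hE : E * E = E) (h0 : E ≠ 0) (hi : ∀ (γ : Γ) x y, E (γ • x) (γ • y) = E x y)
    (hs : ∀ x y, E x y ≠ 0 →
      Nat.card (MulAction.stabilizer Γ (x, y)) * E.rank ≤ Nat.card Γ) :
    ∃ z : X × X, Nat.card (MulAction.stabilizer Γ z) * E.rank = Nat.card Γ ∧
      ∀ (T : Subgroup Γ) (w : X → k) (c : X), E.mulVec w = w → (∀ t ∈ T, ∀ x, w (t • x) = w x) →
        (∀ t ∈ T, t • c = c) → w c ≠ 0 → ∃ γ : Γ, ∀ t ∈ T, t • γ • z = γ • z := by
  classical
  -- a nonzero fixed vector
  obtain ⟨w₀, hw₀, hw0, hfix⟩ : ∃ w : X → k, E.mulVec w = w ∧ w ≠ 0 ∧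
      ∀ (γ : Γ) x, w (γ • x) = w x := by
    let ρ : Γ →* End k (X → k) :=
      { toFun := fun γ => LinearMap.funLeft k k fun x => γ⁻¹ • x
        map_one' := by ext; simp
        map_mul' := fun a b => by ext; simp [LinearMap.funLeft, mul_smul] }
    have hρ : ∀ γ v x, ρ γ v x = v (γ⁻¹ • x) := fun _ _ _ => rfl
    obtain ⟨x, y, hxy⟩ : ∃ x y, E x y ≠ 0 := by
      by_contra h
      push Not at h
      exact h0 (Matrix.ext h)
    obtain ⟨w, h1, h2, h3⟩ := exists_ne_zero_fixed p hΓ ρ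
      (LinearMap.ker (E.mulVecLin - 1)).toAddSubgroup (fun γ v hv => by
        have hv' : E.mulVec v = v := sub_eq_zero.1 hv
        refine sub_eq_zero.2 ?_
        ext x
        change E.mulVec (ρ γ v) x = v (γ⁻¹ • x)
        rw [← congrFun hv' (γ⁻¹ • x)]
        simp only [Matrix.mulVec, dotProduct, hρ]
        rw [← Equiv.sum_comp (MulAction.toPerm γ)]
        refine Finset.sum_congr rfl fun y _ => ?_
        rw [MulAction.toPerm_apply, inv_smul_smul, ← hi γ (γ⁻¹ • x), smul_inv_smul])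
      (v := fun x => E x y) (by
        refine (sub_eq_zero (a := E.mulVec fun x => E x y)).2 ?_
        ext x
        exact congrFun (congrFun hE x) y) (fun h => hxy (congrFun h x))
    refine ⟨w, sub_eq_zero.1 h1, h2, fun γ x => ?_⟩
    have := congrFun (h3 γ) (γ • x)
    rw [hρ, inv_smul_smul] at this
    exact this.symm
  -- an orbit with nonzero sum
  obtain ⟨z, hz1, hz2⟩ : ∃ z : X × X, E z.1 z.2 ≠ 0 ∧
      (∑ ω : MulAction.orbit Γ z, fun x => E x ω.1.1) ≠ 0 := by
    by_contra h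
    push Not at h
    apply hw0
    ext x
    have e1 : w₀ x = ∑ z : X × X, E x z.1 * (E z.1 z.2 * w₀ z.2) := by
      rw [Fintype.sum_prod_type]
      conv_lhs => rw [← hw₀, ← hw₀]
      simp only [Matrix.mulVec, dotProduct, Finset.mul_sum]
    rw [e1, ← Finset.sum_fiberwise Finset.univ
      (fun z : X × X => (Quotient.mk'' z : MulAction.orbitRel.Quotient Γ (X × X)))]
    refine Finset.sum_eq_zero fun O _ => ?_
    obtain ⟨z, rfl⟩ := Quotient.exists_rep O
    have e2 : ∀ z' ∈ Finset.univ.filter fun z' : X × X =>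
        (Quotient.mk'' z' : MulAction.orbitRel.Quotient Γ (X × X)) = Quotient.mk _ z,
        E x z'.1 * (E z'.1 z'.2 * w₀ z'.2) = E x z'.1 * (E z.1 z.2 * w₀ z.2) := by
      intro z' hz'
      obtain ⟨γ, rfl⟩ : z' ∈ MulAction.orbit Γ z := Quotient.exact (Finset.mem_filter.1 hz').2
      change _ * (E (γ • z.1) (γ • z.2) * w₀ (γ • z.2)) = _
      rw [hi, hfix]
    rw [Finset.sum_congr rfl e2, ← Finset.sum_mul]
    by_cases hz : E z.1 z.2 = 0
    · rw [hz, zero_mul, mul_zero]
    · have := congrFun (h z hz) x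
      rw [Finset.sum_apply] at this
      rw [Finset.sum_subtype (p := fun z' => z' ∈ MulAction.orbit Γ z) _
        (fun z' => by
          simp only [Finset.mem_filter, Finset.mem_univ, true_and]
          exact Quotient.eq), this, Pi.zero_apply, zero_mul]
  let Ω := MulAction.orbit Γ z
  let α : (Ω → k) →ₗ[k] (X → k) :=
    { toFun := fun ξ x => ∑ ω, ξ ω * E x ω.1.1
      map_add' := fun a b => by ext; simp [add_mul, Finset.sum_add_distrib]
      map_smul' := fun c a => by ext; simp [Finset.mul_sum, mul_assoc] }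
  have hα : ∀ ξ x, α ξ x = ∑ ω, ξ ω * E x ω.1.1 := fun _ _ => rfl
  have hαγ : ∀ (γ : Γ) ξ x, α (fun ω => ξ (γ⁻¹ • ω)) x = α ξ (γ⁻¹ • x) := by
    intro γ ξ x
    rw [hα, hα, ← Equiv.sum_comp (MulAction.toPerm γ)]
    refine Finset.sum_congr rfl fun ω _ => ?_
    rw [MulAction.toPerm_apply, inv_smul_smul, ← hi γ (γ⁻¹ • x), smul_inv_smul]
    rfl
  have hinj : Function.Injective α := by
    rw [← LinearMap.ker_eq_bot, eq_bot_iff]
    intro ξ hξ
    by_contra hne
    let ρ : Γ →* End k (Ω → k) :=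
      { toFun := fun γ => LinearMap.funLeft k k fun x => γ⁻¹ • x
        map_one' := by ext; simp
        map_mul' := fun a b => by ext; simp [LinearMap.funLeft, mul_smul] }
    obtain ⟨η, h1, h2, h3⟩ := exists_ne_zero_fixed p hΓ ρ (LinearMap.ker α).toAddSubgroup
      (fun γ v hv => by
        have hv' : α v = 0 := hv
        ext x
        exact (hαγ γ v x).trans (congrFun hv' _)) hξ hne
    have h4 : ∀ ω : Ω, η ω = η ⟨z, MulAction.mem_orbit_self z⟩ := by
      rintro ⟨_, γ, rfl⟩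
      rw [← congrFun (h3 γ)]
      exact congrArg η (Subtype.ext (inv_smul_smul γ z))
    have h5 : η ⟨z, MulAction.mem_orbit_self z⟩ ≠ 0 := fun h =>
      h2 (funext fun ω => (h4 ω).trans h)
    apply hz2
    ext x
    have h6 := congrFun (show α η = 0 from h1) x
    rw [hα, Finset.sum_congr rfl fun ω _ => by rw [h4 ω], ← Finset.mul_sum] at h6
    rw [Finset.sum_apply]
    exact (mul_eq_zero.1 h6).resolve_left h5
  have hle : LinearMap.range α ≤ LinearMap.range E.mulVecLin := by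
    rintro _ ⟨ξ, rfl⟩
    refine ⟨α ξ, ?_⟩
    ext x
    simp only [Matrix.mulVecLin_apply, Matrix.mulVec, dotProduct, hα, Finset.mul_sum]
    rw [Finset.sum_comm]
    refine Finset.sum_congr rfl fun ω _ => ?_
    rw [← congrFun (congrFun hE x) ω.1.1, Matrix.mul_apply, Finset.mul_sum]
    exact Finset.sum_congr rfl fun y _ => by ring
  have hcard : Nat.card Ω * Nat.card (MulAction.stabilizer Γ z) = Nat.card Γ := by
    rw [← Nat.card_prod, Nat.card_congr (MulAction.orbitProdStabilizerEquivGroup Γ z)]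
  have hr : finrank k (LinearMap.range α) = Nat.card Ω := by
    rw [LinearMap.finrank_range_of_inj hinj, finrank_fintype_fun_eq_card, Nat.card_eq_fintype_card]
  have h1 : Nat.card Ω ≤ E.rank := hr ▸ Submodule.finrank_mono hle
  have h2 : E.rank ≤ Nat.card Ω := by
    have := hs z.1 z.2 hz1
    rw [← hcard, mul_comm] at this
    exact Nat.le_of_mul_le_mul_right this Nat.card_pos
  refine ⟨z, by rw [← hcard, le_antisymm h1 h2, mul_comm], fun T w c hw hT hc hwc => ?_⟩
  have heq : LinearMap.range α = LinearMap.range E.mulVecLin :=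
    Submodule.eq_of_le_of_finrank_le hle (hr ▸ h2)
  obtain ⟨ξ, rfl⟩ : w ∈ LinearMap.range α := heq ▸ ⟨w, hw⟩
  have hξ : ∀ t ∈ T, ∀ ω, ξ (t • ω) = ξ ω := by
    intro t ht ω
    have : (fun ω => ξ (t⁻¹⁻¹ • ω)) = ξ := hinj (funext fun x => by
      rw [hαγ, inv_inv, hT t ht])
    rw [← congrFun this ω, inv_inv]
  rw [hα, sum_eq_sum_fixedPoints p (hΓ.to_subgroup T) _ fun u ω => by
    change ξ ((u : Γ) • ω) * E c ((u : Γ) • ω.1.1) = _
    rw [hξ u u.2, ← hi u c ω.1.1, hc u u.2]] at hwc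
  obtain ⟨⟨_, γ, rfl⟩, h3, -⟩ := Finset.exists_ne_zero_of_sum_ne_zero hwc
  exact ⟨γ, fun t ht => congrArg Subtype.val ((Finset.mem_filter.1 h3).2 ⟨t, ht⟩)⟩

/-- the action of `S × S` on `G` by left and right multiplication -/
@[reducible] def biAct {G : Type*} [Group G] (S : Subgroup G) : MulAction (S × S) G where
  smul z g := z.1 * g * (z.2 : G)⁻¹
  one_smul g := by change 1 * g * 1⁻¹ = g; group
  mul_smul a b g := by
    change (a.1 : G) * b.1 * g * ((a.2 : G) * b.2)⁻¹ =
      a.1 * (b.1 * g * (b.2 : G)⁻¹) * (a.2 : G)⁻¹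
    group

/-- fusion is controlled by a Sylow subgroup in a block of minimal dimension -/
theorem exists_conj_of_finrank {k G : Type*} [Field k] [Group G] [Finite G] {p : ℕ} [Fact p.Prime]
    [CharP k p] {b : k[G]} (hb : Blk ⊤ b) {P S : Subgroup G} (hP : IsDef p ⊤ b P)
    (hS : IsPGroup p S) (hPS : P ≤ S)
    (h : Nat.card P * finrank k (LinearMap.range (LinearMap.mulRight k b)) = Nat.card S ^ 2)
    {u g : G} (hu : u ∈ S) (hg : g * u * g⁻¹ ∈ S) (h0 : br (Subgroup.zpowers u) b ≠ 0) :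
    ∃ s ∈ S, g * u * g⁻¹ = s * u * s⁻¹ := by
  classical
  haveI := Fintype.ofFinite G
  letI := biAct S
  have hsm : ∀ (γ : S × S) (x : G), γ • x = γ.1.1 * x * γ.2.1⁻¹ := fun _ _ => rfl
  have hinv : Invt ⊤ b := (mem_Fix.1 hb.mem).2
  let E : Matrix G G k := fun x y => b.coeff (y⁻¹ * x)
  have hEv : ∀ a : k[G], E.mulVec (fun x => a.coeff x) = fun x => (a * b).coeff x := by
    intro a
    ext x
    rw [coeff_mul_fintype]
    exact Finset.sum_congr rfl fun y _ => mul_comm _ _
  have hr : E.rank = finrank k (LinearMap.range (LinearMap.mulRight k b)) := by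
    have : E = LinearMap.toMatrix (MonoidAlgebra.basis G k) (MonoidAlgebra.basis G k)
        (LinearMap.mulRight k b) := by
      ext x y
      rw [LinearMap.toMatrix_apply, basis_apply]
      change _ = (single y 1 * b).coeff x
      rw [coeff_single_mul_apply, one_mul]
    rw [Matrix.rank_eq_finrank_range_toLin E (MonoidAlgebra.basis G k) (MonoidAlgebra.basis G k),
      this, Matrix.toLin_toMatrix]
  have hcΓ : Nat.card (S × S) = Nat.card S ^ 2 := by
    rw [Nat.card_prod, sq]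
  have hΓ : IsPGroup p (S × S) := by
    obtain ⟨n, hn⟩ := IsPGroup.iff_card.1 hS
    exact IsPGroup.of_card (n := n * 2) (by rw [hcΓ, hn, pow_mul])
  have hst : ∀ x y, E x y ≠ 0 →
      Nat.card (MulAction.stabilizer (S × S) (x, y)) ≤ Nat.card P := by
    intro x y hxy
    let π : S × S →* G := S.subtype.comp (MonoidHom.snd S S)
    have hπ : ∀ γ ∈ MulAction.stabilizer (S × S) (x, y), γ.1.1 * x * γ.2.1⁻¹ = x ∧
      γ.1.1 * y * γ.2.1⁻¹ = y := fun γ hγ => Prod.ext_iff.1 hγ
    have hc : Nat.card (MulAction.stabilizer (S × S) (x, y)) =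
        Nat.card ((MulAction.stabilizer (S × S) (x, y)).map π) := by
      refine Nat.card_congr (Equiv.ofBijective (fun γ => ⟨π γ, γ, γ.2, rfl⟩) ⟨?_, ?_⟩)
      · intro γ δ hγ
        have h1' := congrArg Subtype.val hγ
        have h1 : γ.1.2.1 = δ.1.2.1 := h1'
        have h2 := (hπ γ γ.2).1.trans (hπ δ δ.2).1.symm
        rw [h1, mul_left_inj, mul_left_inj] at h2
        exact Subtype.ext (Prod.ext (Subtype.ext h2) (Subtype.ext h1))
      · rintro ⟨_, γ, hγ, rfl⟩
        exact ⟨⟨γ, hγ⟩, rfl⟩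
    rw [hc]
    refine hP.card_le le_top ((hΓ.to_subgroup _).map π) (br_ne_zero_iff.2 ⟨y⁻¹ * x, ?_, hxy⟩)
    rintro _ ⟨γ, hγ, rfl⟩
    obtain ⟨h1, h2⟩ := hπ γ hγ
    change γ.2.1 * (y⁻¹ * x) = y⁻¹ * x * γ.2.1
    conv_rhs => rw [← h1, ← h2]
    group
  obtain ⟨z, hz1, hz2⟩ := exists_transitive_summand hΓ E (by
      ext x y
      have := congrFun (hEv (single y 1 * b)) x
      rw [mul_assoc, hb.mul_self, coeff_single_mul_apply, one_mul] at this
      refine Eq.trans ?_ this
      rw [Matrix.mul_apply]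
      simp only [Matrix.mulVec, dotProduct, coeff_single_mul_apply, one_mul, E])
    (fun h => hb.ne_zero (H6.alg_ext fun x => by simpa [E] using congrFun (congrFun h x) 1))
    (fun γ x y => by
      simp only [E, hsm]
      rw [← hinv.coeff_conj (Subgroup.mem_top γ.2.1) (y⁻¹ * x)]
      congr 1
      group)
    (fun x y hxy => by
      rw [hcΓ, ← h, hr]
      exact Nat.mul_le_mul_right _ (hst x y hxy))
  have hr0 : 0 < finrank k (LinearMap.range (LinearMap.mulRight k b)) := by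
    refine Nat.pos_of_ne_zero fun h0 => ?_
    rw [h0, mul_zero] at h
    exact (pow_pos Nat.card_pos 2).ne h
  rw [hcΓ, ← h, hr, Nat.mul_left_inj hr0.ne'] at hz1
  -- the diagonal subgroup
  let δ : P →* S × S := (Subgroup.inclusion hPS).prod (Subgroup.inclusion hPS)
  have hδ : Function.Injective δ := fun v w hvw =>
    Subtype.ext (congrArg (fun γ : S × S => γ.1.1) hvw)
  obtain ⟨c, hc, hc0⟩ := br_ne_zero_iff.1 hP.br_ne
  obtain ⟨γ₀, h₀⟩ := hz2 δ.range (fun x => b.coeff x) c (by rw [hEv, hb.mul_self])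
    (by
      rintro _ ⟨v, rfl⟩ x
      exact hinv.coeff_conj (Subgroup.mem_top (v : G)) x)
    (by
      rintro _ ⟨v, rfl⟩
      change (v : G) * c * (v : G)⁻¹ = c
      rw [hc v v.2, mul_inv_cancel_right]) hc0
  have heq : δ.range = MulAction.stabilizer (S × S) (γ₀ • z) := by
    refine Subgroup.eq_of_le_of_card_ge h₀ ?_
    rw [MulAction.stabilizer_smul_eq_stabilizer_map_conj, Subgroup.card_map_of_injective
      (MulAut.conj γ₀).injective, hz1, Nat.card_congr (MonoidHom.ofInjective hδ).toEquiv]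
  obtain ⟨c', hc', hc0'⟩ := br_ne_zero_iff.1 h0
  let τ : S × S := (⟨g * u * g⁻¹, hg⟩, ⟨u, hu⟩)
  obtain ⟨γ₁, h₁⟩ := hz2 (Subgroup.zpowers τ) (fun x => (single g 1 * b).coeff x) (g * c')
    (by rw [hEv, mul_assoc, hb.mul_self])
    (by
      have : Subgroup.zpowers τ ≤
          { carrier := {t | ∀ x, (single g 1 * b).coeff (t • x) = (single g 1 * b).coeff x}
            one_mem' := fun x => by rw [one_smul]
            mul_mem' := fun {a b} ha hb x => by rw [mul_smul, ha, hb]
            inv_mem' := fun {a} ha x => by rw [← ha, smul_inv_smul] } := by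
        rw [Subgroup.zpowers_le]
        intro x
        rw [coeff_single_mul_apply, coeff_single_mul_apply, ← hinv.coeff_conj (Subgroup.mem_top u) (g⁻¹ * x),
          hsm]
        congr 2
        simp only [τ]
        group
      exact fun t ht => this ht)
    (by
      have : Subgroup.zpowers τ ≤ MulAction.stabilizer _ (g * c') := by
        rw [Subgroup.zpowers_le, MulAction.mem_stabilizer_iff, hsm]
        change g * u * g⁻¹ * (g * c') * u⁻¹ = g * c'
        have := hc' u (Subgroup.mem_zpowers u)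
        calc g * u * g⁻¹ * (g * c') * u⁻¹ = g * (u * c') * u⁻¹ := by group
          _ = g * c' := by rw [this]; group
      exact fun t ht => this ht)
    (by rwa [coeff_single_mul_apply, one_mul, inv_mul_cancel_left])
  have h2 : (γ₀ * γ₁⁻¹) * τ * (γ₀ * γ₁⁻¹)⁻¹ ∈ δ.range := by
    rw [heq, MulAction.mem_stabilizer_iff, mul_inv_rev, inv_inv, mul_smul, mul_smul, mul_smul,
      mul_smul, inv_smul_smul, h₁ τ (Subgroup.mem_zpowers τ), inv_smul_smul]
  obtain ⟨v, hv⟩ := h2
  set γ := γ₀ * γ₁⁻¹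
  have e1 : (v : G) = γ.1.1 * (g * u * g⁻¹) * γ.1.1⁻¹ := congrArg (fun γ : S × S => γ.1.1) hv
  have e2 : (v : G) = γ.2.1 * u * γ.2.1⁻¹ := congrArg (fun γ : S × S => γ.2.1) hv
  refine ⟨γ.1.1⁻¹ * γ.2.1, mul_mem (inv_mem γ.1.2) γ.2.2, ?_⟩
  calc g * u * g⁻¹ = γ.1.1⁻¹ * (γ.1.1 * (g * u * g⁻¹) * γ.1.1⁻¹) * γ.1.1 := by group
    _ = _ := by rw [← e1, e2]; group

theorem nilB_of_finrank {k G : Type*} [Field k] [Group G] [Finite G] {p : ℕ} [hp : Fact p.Prime]
    [CharP k p] {b : k[G]} (hb : Blk ⊤ b) {P S : Subgroup G} (hP : IsDef p ⊤ b P)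
    (hS : IsPGroup p S) (hPS : P ≤ S)
    (h : Nat.card P * finrank k (LinearMap.range (LinearMap.mulRight k b)) = Nat.card S ^ 2) :
    NilB p ⊤ ⊤ b := by
  obtain ⟨e, T⟩ := exists_maxP le_rfl Subgroup.le_normalizer hb hP
  rw [T.nilB_iff_ple]
  intro Q f hQ x hx hxp
  have hQP := hQ.le
  have hxn := (mem_NS.1 hx).1
  have key : ∀ y ∈ Subgroup.zpowers x, ∀ u ∈ Q, y * u * y⁻¹ ∈ Q ∧
      ∃ s ∈ S, y * u * y⁻¹ = s * u * s⁻¹ := by
    intro y hy u hu
    have h1 : y * u * y⁻¹ ∈ Q :=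
      (Subgroup.mem_normalizer_iff.1 (Subgroup.zpowers_le.2 hxn hy) u).1 hu
    exact ⟨h1, exists_conj_of_finrank hb hP hS hPS h (hPS (hQP hu)) (hPS (hQP h1))
      (hP.br_ne_of_le (Subgroup.zpowers_le.2 (hQP hu)))⟩
  haveI := hS.isNilpotent
  obtain ⟨n, hn⟩ := (Subgroup.isNilpotent_iff_lowerCentralSeries S).1 inferInstance
  have h0 : Q ⊓ S.lowerCentralSeries 0 = Q := inf_eq_left.2 (hQP.trans hPS)
  have := H1.le_centralizer_of_stabilizes_chain (A := Subgroup.zpowers x)
    (fun i => Q ⊓ S.lowerCentralSeries i) n (by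
      simp only [h0]
      obtain ⟨m, hm⟩ := IsPGroup.iff_card.1 (hP.isPGroup.to_le hQP)
      rw [hm, Nat.card_zpowers]
      exact ((Nat.Prime.coprime_iff_not_dvd hp.out).2 hxp).symm.pow_right m)
    (fun i _ => inf_le_inf_left _ (S.lowerCentralSeries_antitone i.le_succ))
    (fun i _ => by
      rw [Subgroup.commutator_le]
      intro u hu y hy
      obtain ⟨h1, s, hs, h2⟩ := key y hy u⁻¹ (inv_mem hu.1)
      have e : ⁅u, y⁆ = u * (y * u⁻¹ * y⁻¹) := by rw [commutatorElement_def]; group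
      refine ⟨e ▸ mul_mem hu.1 h1, ?_⟩
      have e' : ⁅u, y⁆ = ⁅u, s⁆ := by rw [e, h2, commutatorElement_def]; group
      rw [e']
      exact Subgroup.commutator_mem_commutator hu.2 hs)
    (by simp only [hn, inf_bot_eq])
  simp only [h0] at this
  exact this (Subgroup.mem_zpowers x)

end Cfsg.Agent.H7
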