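import Cfsg.Agent.H7.Pim
import Cfsg.Agent.H4.Galois

/-! The number of `p`-rational characters of a block. -/

set_option linter.style.haveILetI false

namespace Cfsg.Agent.H7

open MonoidAlgebra Cfsg Cfsg.Agent.H3 Cfsg.Agent.H4
open Cfsg.Agent.H6 (Res locRing redC redA eB fB intAlg classSum omega chiL red blocks liftA liftC)
open Cfsg.Agent.H8 (bspan bfin pRegL lat SecData sec lift sub indBlocks)
open scoped Pointwise ComplexConjugate

variable {M : Ideal AlgInt} [hMm : M.IsMaximal] {G : Type*} [Group G] {p : ℕ}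

theorem dn_comp [Finite G] {L : Type*} [Group L] [Finite L] (φ : L →* G) {f : G → ℂ}
    (hf : IsClassFunction G f) {ε : (Res M)[L]} (hε : IsIdempotentElem ε) :
    dn M (fun x => f (φ x)) ε = dn M f (push (Res M) φ ε) := by
  obtain ⟨x, hx, hx2, rfl⟩ := exists_lift hε
  rw [dn_redA (hf.comp φ) hx hx2, ← redA_push φ hx,
    dn_redA hf (push_mem_intAlg φ hx) (hx2.map _), chiL_push]

variable [Fintype G] [Fact p.Prime] {B : Set (IrrCharacter G)}

theorem exists_nat_lift_lift (hM : IsPModular p M) {x y : G} {C : Subgroup G} [Fintype C]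
    (hx : SecData p x C) (hy : SecData p y C) {b : Set (IrrCharacter C)} (hb : IsPBlock M b)
    (j : IBr M b) : ∃ n : ℕ,
      classInner (lift p y C (ibr hM hb j)) (lift p x C (prj M (pim j))) = n := by
  by_cases hc : IsConj y x
  · obtain ⟨n, hn⟩ := isConj_iff.mp hc.symm
    have hmem : ∀ c : C, n * c * n⁻¹ ∈ C := fun c => by
      rw [hy.mem_iff, ← hn]
      exact ((hx.commute c).map (MulAut.conj n).toMonoidHom :)
    let α : C →* C :=
      { toFun := fun c => ⟨n * c * n⁻¹, hmem c⟩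
        map_one' := Subtype.ext (by simp)
        map_mul' := fun a b => Subtype.ext (by simp [mul_assoc]) }
    have h1 : pRegularPart p (sec x C (lift p y C (ibr hM hb j))) =
        pRegularPart p fun c => ibr hM hb j (α c) := by
      funext c
      by_cases h : p ∣ orderOf c
      · rw [H8.pReg_of_dvd _ h, H8.pReg_of_dvd _ h]
      · rw [H8.pReg_of_not_dvd _ h, H8.pReg_of_not_dvd _ h, H8.sec_apply,
          ← hy.lift_apply hM.1 (ibr_isClassFunction hM hb j) (y := α c) (by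
            rwa [← Subgroup.orderOf_coe, show ((α c : C) : G) = n * c * n⁻¹ from rfl,
              H6.orderOf_conj', Subgroup.orderOf_coe]),
          ← H8.lift_isClassFunction _ (x * c) n, ← hn]
        congr 1
        simp [α, mul_assoc]
    rw [hx.inner_lift_right (H8.lift_isClassFunction _), ← H8.classInner_pReg_left, h1,
      H8.classInner_pReg_left, pReg_prj hM, inner_prj ((ibr_isClassFunction hM hb j).comp α),
      dn_comp (M := M) α (ibr_isClassFunction hM hb j) (pim_idem j)]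
    exact exists_nat_dn_ibr hM hb j ((pim_idem j).map _)
  · exact ⟨0, by rw [hy.inner_lift_lift_of_not_isConj hM.1 hx hc, Nat.cast_zero]⟩

theorem exists_nat_sum_sub (hM : IsPModular p M) {x : G} {C : Subgroup G} [Fintype C]
    (hx : SecData p x C) {b : Set (IrrCharacter C)} (hind : IsInducedBlock M C b B) {m : ℕ}
    (hm : m.Coprime (Nat.card G)) (hm' : ∀ g : G, ¬ p ∣ orderOf g → g ^ m = g) :
    ∃ n : ℕ, ∑ χ ∈ bfin B, classInner (sub p x b (χ : G → ℂ))
      (sub p x b fun g => (χ : G → ℂ) (g ^ m)) = n := by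
  classical
  have hb : IsPBlock M b := hind.1
  have hy : SecData p (x ^ m) C := hx.pow_coprime (hm.coprime_dvd_right (orderOf_dvd_natCard x))
  choose n hn using exists_nat_lift_lift hM hx hy hb
  refine ⟨∑ j, n j, ?_⟩
  have h1 : ∀ χ ∈ bfin B, classInner (sub p x b (χ : G → ℂ))
      (sub p x b fun g => (χ : G → ℂ) (g ^ m)) = ∑ j : IBr M b,
        classInner (lift p (x ^ m) C (ibr hM hb j)) χ *
          classInner (χ : G → ℂ) (lift p x C (prj M (pim j))) := fun χ _ => by
    have hχ := χ.2.isClassFunction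
    rw [← hx.inner_sub_sec hM hb hχ, eq_sum_ibr hM hb ((mem_rspan hM hb).2
      ⟨hx.sub_mem_bspan hM hb hχ, H8.pReg_sub' _⟩), classInner_sum_left]
    refine Finset.sum_congr rfl fun j _ => ?_
    rw [classInner_smul_left, mul_comm, ← inner_prj (H8.sub_isClassFunction _),
      hx.inner_sub_left hM hb hχ (prj_mem_bspan hb (pim_idem j) (eB_mul_pim j)),
      hy.inner_lift_left hχ, pReg_ibr]
    congr 1
    rw [← pReg_ibr, H8.classInner_pReg_left, H8.classInner_pReg_left]
    congr 1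
    funext c
    by_cases h : p ∣ orderOf c
    · rw [H8.pReg_of_dvd _ h, H8.pReg_of_dvd _ h]
    · rw [H8.pReg_of_not_dvd _ h, H8.pReg_of_not_dvd _ h, H8.sec_apply, H8.sec_apply,
        (hx.commute c).mul_pow, hm' c (by rwa [Subgroup.orderOf_coe])]
  rw [Finset.sum_congr rfl h1, Finset.sum_comm]
  push_cast
  refine Finset.sum_congr rfl fun j _ => ?_
  rw [← hn, ← classInner_conj_symm (φ := lift p x C (prj M (pim j))),
    H8.inner_eq_sum_bfin (hx.lift_mem_bspan hM hind (prj_mem_bspan hb (pim_idem j) (eB_mul_pim j))),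
    map_sum]
  refine Finset.sum_congr rfl fun χ _ => ?_
  rw [map_mul, classInner_conj_symm, classInner_conj_symm, mul_comm]

theorem blockRank_le_card_fixed (hM : IsPModular p M) (hB : IsPBlock M B) {m : ℕ}
    (hm : m.Coprime (Nat.card G)) (hm' : ∀ g : G, ¬ p ∣ orderOf g → g ^ m = g) :
    blockRank p B ≤ Nat.card {χ : IrrCharacter G // χ ∈ B ∧
      ∀ g, (χ : G → ℂ) (g ^ m) = (χ : G → ℂ) g} := by
  classical
  obtain ⟨X, hX, hXrep⟩ := H8.exists_pClass_reps G p
  letI : ∀ H : Subgroup G, Fintype H := H8.subFintype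
  have h1X : (1 : G) ∈ X := by
    obtain ⟨x, ⟨hx, h⟩, -⟩ := hXrep 1 ⟨0, by simp⟩
    rwa [← isConj_one_right.mp h]
  have h1 : (Nat.card {χ : IrrCharacter G // χ ∈ B ∧
      ∀ g, (χ : G → ℂ) (g ^ m) = (χ : G → ℂ) g} : ℂ) =
      ∑ χ ∈ bfin B, classInner (χ : G → ℂ) fun g => (χ : G → ℂ) (g ^ m) := by
    haveI := Fintype.ofFinite (IrrCharacter G)
    rw [natCard_subtype_eq_sum, ← Finset.sum_subset (Finset.subset_univ (bfin B))
      fun χ _ h => if_neg fun h' => h (H8.mem_bfin.mpr h'.1)]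
    refine Finset.sum_congr rfl fun χ hχ => ?_
    split_ifs with h
    · rw [funext h.2, χ.2.classInner_self]
    · refine (χ.2.classInner_of_ne (χ.2.comp_pow hm) fun h' => h ⟨H8.mem_bfin.mp hχ, fun g => ?_⟩).symm
      exact (congrFun h' g).symm
  rw [Finset.sum_congr rfl fun χ hχ => H8.inner_eq_sum_sub hM hB X hX hXrep (H8.mem_bfin.mp hχ)
    (χ.2.isClassFunction.comp_pow m), Finset.sum_comm,
    ← Finset.add_sum_erase _ _ h1X] at h1
  have h2 : ∀ x ∈ X.erase 1, ∃ n : ℕ, ∑ χ ∈ bfin B,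
      ∑ b ∈ indBlocks M (Subgroup.centralizer ({x} : Set G)) B,
        classInner (sub p x b (χ : G → ℂ)) (sub p x b fun g => (χ : G → ℂ) (g ^ m)) = n :=
    fun x hx => by
      have := fun b (hb : b ∈ indBlocks M (Subgroup.centralizer ({x} : Set G)) B) =>
        exists_nat_sum_sub hM (H8.secData_centralizer (hX x (Finset.mem_of_mem_erase hx)))
          (H8.mem_indBlocks.mp hb) hm hm'
      choose! n hn using this
      exact ⟨∑ b ∈ indBlocks M (Subgroup.centralizer ({x} : Set G)) B, n b, by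
        rw [Finset.sum_comm, Finset.sum_congr rfl hn]; push_cast; rfl⟩
  choose! n hn using h2
  have h3 : ∑ χ ∈ bfin B, ∑ b ∈ indBlocks M (Subgroup.centralizer ({1} : Set G)) B,
      classInner (sub p 1 b (χ : G → ℂ)) (sub p 1 b fun g => (χ : G → ℂ) (g ^ m)) =
        blockRank p B := by
    rw [H8.blockRank_eq_sum hM hB]
    refine Finset.sum_congr rfl fun χ hχ => ?_
    have hs := H8.secData_centralizer (hX 1 h1X)
    rw [← hs.inner_pReg_sec hM hB (H8.mem_bfin.mp hχ),
      ← hs.inner_lift_left (χ.2.isClassFunction.comp_pow m)]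
    have : lift p 1 _ (sec 1 (Subgroup.centralizer ({1} : Set G)) (χ : G → ℂ)) =
        pRegularPart p (χ : G → ℂ) := by
      funext g
      obtain ⟨z, hz⟩ := H6.exists_isPPart hM.1 g
      by_cases h : p ∣ orderOf g
      · rw [H8.pReg_of_dvd _ h, hs.lift_eq_zero hM.1 _ hz fun hc =>
          (H6.IsPPart.eq_one_iff hM.1 hz).mp (isConj_one_right.mp hc) h]
      · rw [H8.pReg_of_not_dvd _ h, hs.lift_sec_apply hM.1 χ.2.isClassFunction
          (H6.isPPart_one hM.1 h) (IsConj.refl _)]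
    rw [this, H8.classInner_pReg_left, H8.classInner_pReg_left]
    congr 1
    funext c
    by_cases h : p ∣ orderOf c
    · rw [H8.pReg_of_dvd _ h, H8.pReg_of_dvd _ h]
    · rw [H8.pReg_of_not_dvd _ h, H8.pReg_of_not_dvd _ h, hm' c h]
  rw [h3, Finset.sum_congr rfl hn] at h1
  have h4 : Nat.card {χ : IrrCharacter G // χ ∈ B ∧ ∀ g, (χ : G → ℂ) (g ^ m) = (χ : G → ℂ) g} =
      blockRank p B + ∑ x ∈ X.erase 1, n x := by exact_mod_cast h1
  omega

omit [Fact p.Prime] in
theorem exists_gen_mod (hp : p.Prime) (hp2 : p ≠ 2) (a : ℕ) {n : ℕ} (hn : n.Coprime p) :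
    ∃ m : ℕ, m.Coprime (p ^ a * n) ∧ m ≡ 1 [MOD n] ∧ ∀ k : ℕ, k.Coprime (p ^ a * n) →
      k ≡ 1 [MOD n] → ∃ i : ℕ, k ≡ m ^ i [MOD p ^ a * n] := by
  haveI := ZMod.isCyclic_units_of_prime_pow p hp hp2 a
  haveI : NeZero (p ^ a) := ⟨(pow_pos hp.pos a).ne'⟩
  obtain ⟨u, hu⟩ := IsCyclic.exists_monoid_generator (α := (ZMod (p ^ a))ˣ)
  have hc : (p ^ a).Coprime n := Nat.Coprime.pow_left a hn.symm
  obtain ⟨m, h1, h2⟩ := Nat.chineseRemainder hc (u : ZMod (p ^ a)).val 1
  have h3 : (m : ZMod (p ^ a)) = u := by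
    rw [(ZMod.natCast_eq_natCast_iff _ _ _).mpr h1, ZMod.natCast_zmod_val]
  refine ⟨m, Nat.Coprime.mul_right ((ZMod.isUnit_iff_coprime _ _).mp (h3 ▸ u.isUnit)) ?_, h2,
    fun k hk hk1 => ?_⟩
  · rw [Nat.Coprime, Nat.ModEq.gcd_eq h2]; simp
  · obtain ⟨i, hi⟩ := hu (ZMod.unitOfCoprime k (hk.coprime_dvd_right (dvd_mul_right _ _)))
    refine ⟨i, (Nat.modEq_and_modEq_iff_modEq_mul hc).mp ⟨?_, hk1.trans ?_⟩⟩
    · rw [← ZMod.natCast_eq_natCast_iff, Nat.cast_pow, h3, ← Units.val_pow_eq_pow_val]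
      exact (congrArg Units.val hi).symm
    · simpa using (h2.pow i).symm

end Cfsg.Agent.H7
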