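import Cfsg.Agent.H7.CU4

/-! The Moebius function of the lattice of invariant subspaces of a semisimple endomorphism. -/

set_option autoImplicit false

open Polynomial Module

namespace Cfsg.Agent.H7.CU

open H28

variable {F : Type*} [Field F]

section hom
variable {V W S V' : Type*} [AddCommGroup V] [Module F V] [AddCommGroup W] [Module F W]
  [AddCommGroup S] [Module F S] [AddCommGroup V'] [Module F V']

/-- the number of intertwiners -/
noncomputable def nhom (a : End F V) (c : End F S) : ℕ := Nat.card {φ : V →ₗ[F] S // ∀ v, φ (a v) = c (φ v)}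

theorem nhom_sim {a : End F V} {b : End F W} (h : Sim a b) (c : End F S) : nhom a c = nhom b c := by
  obtain ⟨e, he⟩ := h
  have he' : ∀ v, e.symm (b v) = a (e.symm v) := fun v => e.injective (by simp [he])
  exact Nat.card_congr ⟨fun φ => ⟨φ.1 ∘ₗ e.symm.toLinearMap, fun v => by simp [he', φ.2]⟩,
    fun φ => ⟨φ.1 ∘ₗ e.toLinearMap, fun v => by simp [he, φ.2]⟩, fun φ => by ext; simp, fun φ => by ext; simp⟩

theorem nhom_sim' (c : End F S) {a : End F V} {b : End F W} (h : Sim a b) : nhom c a = nhom c b := by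
  obtain ⟨e, he⟩ := h
  have he' : ∀ v, e.symm (b v) = a (e.symm v) := fun v => e.injective (by simp [he])
  exact Nat.card_congr ⟨fun φ => ⟨e.toLinearMap ∘ₗ φ.1, fun v => by simp [he, φ.2]⟩,
    fun φ => ⟨e.symm.toLinearMap ∘ₗ φ.1, fun v => by simp [he', φ.2]⟩, fun φ => by ext; simp, fun φ => by ext; simp⟩

theorem nhom_prod (a : End F V) (b : End F W) (c : End F S) :
    nhom (a.prodMap b : End F (V × W)) c = nhom a c * nhom b c := by
  rw [nhom, nhom, nhom, ← Nat.card_prod]
  exact Nat.card_congr ⟨fun φ => (⟨φ.1 ∘ₗ LinearMap.inl F V W, fun v => by simp [← φ.2]⟩,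
    ⟨φ.1 ∘ₗ LinearMap.inr F V W, fun v => by simp [← φ.2]⟩),
    fun φ => ⟨φ.1.1.coprod φ.2.1, fun v => by simp [φ.1.2, φ.2.2]⟩, fun φ => by ext <;> simp, fun φ => by ext <;> simp⟩

theorem nhom_cyc (g : F[X]) (c : End F S) : nhom (cyc g) c = Nat.card (LinearMap.ker (aeval c g)) := by
  have h : ∀ (φ : {φ : AdjoinRoot g →ₗ[F] S // ∀ v, φ (cyc g v) = c (φ v)}) (p : F[X]),
      φ.1 (AdjoinRoot.mk g p) = aeval c p (φ.1 1) := fun φ p => by
    rw [← intertwine_aeval φ.1 φ.2, aeval_cyc_apply, mul_one]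
  refine Nat.card_congr (Equiv.ofBijective (fun φ => ⟨φ.1 1, ?_⟩) ⟨fun φ ψ e => ?_, fun s => ?_⟩)
  · rw [LinearMap.mem_ker, ← h, AdjoinRoot.mk_self, map_zero]
  · ext x
    obtain ⟨p, rfl⟩ := AdjoinRoot.mk_surjective x
    rw [h, h, show φ.1 1 = ψ.1 1 from congrArg Subtype.val e]
  · obtain ⟨j, h1, h2, -⟩ := exists_lift s.2
    exact ⟨⟨j, h2⟩, Subtype.ext (by simpa using h1 1)⟩

theorem card_iv_compl {a : End F V} {U U' : Submodule F V} (h : IsCompl U U') (h1 : Iv a U) (h2 : Iv a U') :
    Nat.card {T : Submodule F V // Iv a T ∧ IsCompl U T} = nhom (a.restrict h2) (a.restrict h1) := by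
  have key : ∀ T, Iv a T → ∀ hT : IsCompl U T, ∀ v, U.projectionOnto T hT (a v) =
      a.restrict h1 (U.projectionOnto T hT v) := fun T h3 hT v => by
    obtain ⟨u, t, rfl, -⟩ := Submodule.existsUnique_add_of_isCompl hT v
    rw [map_add, map_add, map_add, Submodule.projectionOnto_apply_left, Submodule.projectionOnto_apply_right,
      add_zero, (Submodule.projectionOnto_apply_eq_zero_iff hT).2 (h3 _ t.2), add_zero]
    exact Submodule.projectionOnto_apply_left hT ⟨_, h1 _ u.2⟩
  refine Nat.card_congr (Equiv.ofBijective (fun T => ⟨U.projectionOnto T.1 T.2.2 ∘ₗ U'.subtype,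
    fun v => key _ T.2.1 T.2.2 v⟩) ⟨fun T T' e => Subtype.ext ?_, fun φ => ?_⟩)
  · rw [← Submodule.ker_projectionOnto T.2.2, ← Submodule.ker_projectionOnto T'.2.2]
    congr 1
    refine LinearMap.ext fun v => ?_
    obtain ⟨u, t, rfl, -⟩ := Submodule.existsUnique_add_of_isCompl h v
    rw [map_add, map_add, Submodule.projectionOnto_apply_left, Submodule.projectionOnto_apply_left]
    exact congrArg (u + ·) (LinearMap.congr_fun (congrArg Subtype.val e) t)
  · let f : V →ₗ[F] U := LinearMap.ofIsCompl h LinearMap.id φ.1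
    have h3 : ∀ x : U, f x = x := fun x => LinearMap.ofIsCompl_apply_left h x
    have h4 : ∀ x : U', f x = φ.1 x := fun x => LinearMap.ofIsCompl_apply_right h x
    refine ⟨⟨LinearMap.ker f, fun v hv => ?_, LinearMap.isCompl_of_proj h3⟩, Subtype.ext ?_⟩
    · obtain ⟨u, t, rfl, -⟩ := Submodule.existsUnique_add_of_isCompl h v
      rw [LinearMap.mem_ker, map_add, h3, h4] at hv
      rw [LinearMap.mem_ker, map_add, map_add]
      have h5 := h3 (a.restrict h1 u)
      have h6 := (h4 (a.restrict h2 t)).trans (φ.2 t)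
      refine (congrArg₂ (· + ·) h5 h6).trans ?_
      rw [← map_add, hv, map_zero]
    · refine LinearMap.ext fun x => ?_
      exact (LinearMap.congr_fun (LinearMap.projectionOnto_of_proj f h3) x).trans (h4 x)

theorem eq_bot_or_top [FiniteDimensional F S] {c : End F S} (h : Irreducible c.charpoly) {U : Submodule F S}
    (hU : Iv c U) : U = ⊥ ∨ U = ⊤ := by
  rcases h.isUnit_or_isUnit (charpoly_eq_mul U c hU) with h1 | h1
  · left
    rw [← Submodule.finrank_eq_zero, ← LinearMap.charpoly_natDegree, natDegree_eq_zero_of_isUnit h1]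
  · right
    have h2 := natDegree_eq_zero_of_isUnit h1
    rw [LinearMap.charpoly_natDegree] at h2
    exact Submodule.Quotient.subsingleton_iff.1 (finrank_zero_iff.1 h2)

end hom

variable [Finite F]

theorem nhom_model [DecidableEq F] (M : Multiset (PP F)) (hM : ∀ x ∈ M, x.k = 1) (y : PP F) (hy : y.k = 1) :
    nhom (model M) (cyc y.poly) = Nat.card F ^ (y.f.natDegree * (M.map PP.f).count y.f) := by
  classical
  induction M using Multiset.induction_on with
  | empty =>
    simp only [Multiset.map_zero, Multiset.count_zero, mul_zero, pow_zero]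
    have : Subsingleton (∀ i : (0 : Multiset (PP F)), AdjoinRoot (i.1).poly) :=
      finrank_zero_iff.1 (by rw [finrank_model]; rfl)
    exact Nat.card_eq_one_iff_unique.2 ⟨⟨fun φ ψ => Subtype.ext (Subsingleton.elim _ _)⟩, ⟨⟨0, fun _ => by simp⟩⟩⟩
  | cons x M ih =>
    have h1 : Sim (model (x ::ₘ M)) ((cyc x.poly).prodMap (model M)) := sim_iff_ed.2 (by
      rw [ed_prodMap, ed_cyc, ed_model, ed_model, Multiset.singleton_add])
    rw [nhom_sim h1, nhom_prod, ih fun z hz => hM z (Multiset.mem_cons_of_mem hz), nhom_cyc,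
      Module.natCard_eq_pow_finrank (K := F), show x.poly = x.f ^ x.k from rfl, finrank_ker_cyc_poly y x.monic x.irred,
      hM x (Multiset.mem_cons_self _ _), hy, Multiset.map_cons, Multiset.count_cons, ← pow_add]
    congr 1
    split_ifs with h
    · rw [h]; simp; ring
    · simp

open Classical in
/-- the indicator of the zero space -/
noncomputable def b0 (f : F[X]) : ℂ := if f = 1 then 1 else 0

variable {V : Type*} [AddCommGroup V] [Module F V] [FiniteDimensional F V]

open Classical in
theorem sum_del_b0 {a : End F V} {U : Submodule F V} (h : Iv a U) :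
    ∑ T ∈ ivs a with T ≤ U, del b0 (edOn a T) = if U = ⊥ then 1 else 0 := by
  rw [sum_ivs_le h, sum_del, b0]
  refine if_congr ?_ rfl rfl
  rw [← (LinearMap.charpoly_monic _).natDegree_eq_zero, LinearMap.charpoly_natDegree, Submodule.finrank_eq_zero]

open Classical in
theorem weisner {a : End F V} {S : Submodule F V} (hS : Iv a S) (h0 : S ≠ ⊥) (U : Submodule F V) (hU : Iv a U)
    (hSU : S ≤ U) : ∑ T ∈ ivs a with S ⊔ T = U, del b0 (edOn a T) = 0 := by
  induction U using WellFoundedLT.induction with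
  | _ U ih =>
  have h1 := sum_del_b0 hU
  rw [if_neg (fun h : U = ⊥ => h0 (le_bot_iff.1 (h ▸ hSU))), ← Finset.sum_fiberwise_of_maps_to (g := fun T => S ⊔ T)
    (t := (ivs a).filter fun T => S ≤ T ∧ T ≤ U), Finset.sum_eq_single_of_mem U] at h1
  · rw [← h1]
    refine Finset.sum_congr ?_ fun _ _ => rfl
    ext T
    simp only [Finset.mem_filter]
    exact ⟨fun h => ⟨⟨h.1, h.2 ▸ le_sup_right⟩, h.2⟩, fun h => ⟨h.1.1, h.2⟩⟩
  · simp [hU, hSU]
  · intro U' hU' hne
    simp only [Finset.mem_filter, mem_ivs] at hU'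
    rw [← ih U' (lt_of_le_of_ne hU'.2.2 hne) hU'.1 hU'.2.1]
    refine Finset.sum_congr ?_ fun _ _ => rfl
    ext T
    simp only [Finset.mem_filter]
    exact ⟨fun h => ⟨h.1.1, h.2⟩, fun h => ⟨⟨h.1, (h.2 ▸ le_sup_right : T ≤ U').trans hU'.2.2⟩, h.2⟩⟩
  · intro T hT
    simp only [Finset.mem_filter, mem_ivs] at hT ⊢
    exact ⟨hS.sup hT.1, le_sup_left, sup_le hSU hT.2⟩

theorem del_b0_cons (x : PP F) (hx : x.k = 1) (M : Multiset (PP F)) :
    del b0 (x ::ₘ M) = -(nhom (model M) (cyc x.poly) * del b0 M) := by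
  classical
  obtain ⟨S, W, h1, h2, h3, h4, h5⟩ := exists_isCompl_of_ed (a := model (x ::ₘ M)) (M := {x}) (N := M)
    (by rw [ed_model, Multiset.singleton_add])
  set a := model (x ::ₘ M) with ha
  have h6 : S ≠ ⊥ := fun h => by
    rw [h, edOn_bot] at h4
    exact Multiset.zero_ne_singleton _ h4
  have h7 : Irreducible (a.restrict h2).charpoly := by
    rw [charpoly_eq_prod_ed, ← edOn_eq h2, h4]
    simpa [PP.poly, hx] using x.irred
  have h8 := weisner h2 h6 ⊤ (iv_top _) le_top
  have h9 : (ivs a).filter (fun T => S ⊔ T = ⊤) = insert ⊤ ((ivs a).filter fun T => IsCompl S T) := by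
    ext T
    simp only [Finset.mem_filter, mem_ivs, Finset.mem_insert]
    constructor
    · rintro ⟨h10, h11⟩
      rcases eq_bot_or_top h7 (U := T.comap S.subtype) (fun v hv => h10 _ hv) with h | h
      · exact Or.inr ⟨h10, (Submodule.disjoint_iff_comap_eq_bot.2 h), codisjoint_iff.2 h11⟩
      · left
        rw [← h11, sup_eq_right.2 (Submodule.comap_subtype_eq_top.1 h)]
    · rintro (rfl | h)
      · exact ⟨iv_top _, sup_top_eq _⟩
      · exact ⟨h.1, h.2.sup_eq_top⟩
  rw [h9, Finset.sum_insert (fun h => h6 (disjoint_top.1 (Finset.mem_filter.1 h).2.disjoint)), edOn_top, ed_model,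
    Finset.sum_congr rfl (g := fun _ => del b0 M), Finset.sum_const, nsmul_eq_mul, ← Nat.card_eq_finsetCard] at h8
  · have h10 : Nat.card ((ivs a).filter fun T => IsCompl S T) = nhom (model M) (cyc x.poly) := by
      rw [← nhom_sim (a := a.restrict h3) (ed_eq_iff.1 ((edOn_eq h3).symm.trans h5)),
        ← nhom_sim' _ (a := a.restrict h2) (sim_iff_ed.2 (((edOn_eq h2).symm.trans h4).trans (ed_cyc x).symm)),
        ← card_iv_compl h1]
      exact Nat.card_congr (Equiv.subtypeEquivRight fun T => by simp)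
    rw [h10] at h8
    linear_combination h8
  · intro T hT
    simp only [Finset.mem_filter, mem_ivs] at hT
    have := ed_eq_add h2 hT.1 hT.2
    rw [ha, ed_model, h4, Multiset.singleton_add, Multiset.cons_inj_right] at this
    rw [← this]

theorem del_b0_zero : del (b0 (F := F)) 0 = 1 := by
  classical
  have := sum_del_b0 (a := (0 : End F PUnit.{1})) (iv_bot _)
  rw [if_pos rfl, Finset.sum_eq_single_of_mem ⊥ (by simp [iv_bot]) fun T _ h => absurd (Subsingleton.elim _ _) h,
    edOn_bot] at this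
  exact this

theorem del_b0 [DecidableEq F] (M : Multiset (PP F)) (hM : ∀ x ∈ M, x.k = 1) :
    del b0 M = ∏ f ∈ (M.map PP.f).toFinset, (-1 : ℂ) ^ (M.map PP.f).count f *
      (Nat.card F : ℂ) ^ (f.natDegree * (M.map PP.f).count f * ((M.map PP.f).count f - 1) / 2) := by
  induction M using Multiset.induction_on with
  | empty => simp [del_b0_zero]
  | cons x M ih =>
    have h1 := fun z hz => hM z (Multiset.mem_cons_of_mem hz)
    have hx := hM x (Multiset.mem_cons_self _ _)
    rw [del_b0_cons x hx, ih h1, nhom_model M h1 x hx, Multiset.map_cons, Multiset.toFinset_cons]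
    set R := M.map PP.f
    rw [Finset.prod_subset (s₂ := insert x.f R.toFinset) (Finset.subset_insert _ _) fun f _ hf => by
      rw [Multiset.count_eq_zero_of_notMem (by simpa using hf)]; simp]
    rw [← Finset.mul_prod_erase _ _ (Finset.mem_insert_self x.f _),
      ← Finset.mul_prod_erase _ _ (Finset.mem_insert_self x.f _), ← mul_assoc, ← neg_mul]
    congr 1
    · rw [Multiset.count_cons_self, Nat.add_sub_cancel]
      have : ∀ c d : ℕ, d * (c + 1) * c / 2 = d * c + d * c * (c - 1) / 2 := fun c d => by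
        rcases c with _ | c
        · simp
        · rw [Nat.add_sub_cancel, ← Nat.mul_add_div two_pos]
          congr 1
          ring
      rw [this, pow_succ, pow_add]
      push_cast
      ring
    · refine Finset.prod_congr rfl fun f hf => ?_
      rw [Multiset.count_cons_of_ne (Finset.mem_erase.1 hf).1]

end Cfsg.Agent.H7.CU
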