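import Cfsg.Agent.H7.SG1
import Cfsg.Agent.H7.CU7
import Cfsg.Agent.H28.UniGL2

/-! The Steinberg character of the general linear group as a Moebius function. -/

set_option autoImplicit false

open Polynomial Module
open scoped MatrixGroups

namespace Cfsg.Agent.H7.CU

open H28

section fdet
variable {R : Type*} [Ring R] (H : ℕ → R)

/-- the formal determinant -/
def fE (n : ℕ) : R := ∑ κ : Equiv.Perm (Fin n), if ∀ i, (κ i : ℕ) ≤ 1 + i then
  (Equiv.Perm.sign κ : ℤ) • (List.ofFn fun i : Fin n => H (1 + i - κ i)).prod else 0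

/-- the formal determinant with shifted first column -/
def fD (k m : ℕ) : R := ∑ κ : Equiv.Perm (Fin (k + 1)), if ∀ i, (κ i : ℕ) ≤ 1 + i then
  (Equiv.Perm.sign κ : ℤ) • (List.ofFn fun i : Fin (k + 1) => H (if κ i = 0 then m + i else 1 + i - κ i)).prod else 0

theorem fE_succ (k : ℕ) : fE H (k + 1) = fD H k 1 := by
  refine Finset.sum_congr rfl fun κ _ => if_congr Iff.rfl ?_ rfl
  congr 3
  ext i
  split_ifs with h
  · simp [h]
  · rfl

theorem fD_succ (h0 : H 0 = 1) (k m : ℕ) : fD H (k + 1) m = H m * fD H k 1 - fD H k (m + 1) := by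
  rw [fD, ← Equiv.sum_comp Equiv.Perm.decomposeFin.symm, Fintype.sum_prod_type, Fin.sum_univ_succ,
    Fin.sum_univ_succ, Finset.sum_eq_zero (s := (Finset.univ : Finset (Fin k))), add_zero, sub_eq_add_neg]
  · congr 1
    · rw [fD, Finset.mul_sum]
      refine Finset.sum_congr rfl fun e _ => ?_
      rw [mul_ite, mul_zero]
      refine if_congr ?_ ?_ rfl
      · rw [Fin.forall_fin_succ]
        simp only [Equiv.Perm.decomposeFin_symm_apply_zero, Equiv.Perm.decomposeFin_symm_apply_succ,
          Equiv.swap_self, Equiv.refl_apply, Fin.val_succ, Fin.val_zero]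
        exact ⟨fun h i => by have := h.2 i; omega, fun h => ⟨by omega, fun i => by have := h i; omega⟩⟩
      · rw [List.ofFn_succ, List.prod_cons, mul_smul_comm, Equiv.Perm.decomposeFin.symm_sign]
        simp only [Equiv.Perm.decomposeFin_symm_apply_zero, Equiv.Perm.decomposeFin_symm_apply_succ,
          Equiv.swap_self, Equiv.refl_apply, Fin.val_succ, Fin.val_zero, if_true, one_mul, add_zero,
          Fin.succ_ne_zero, if_false]
        congr 4
        ext i
        congr 1
        split_ifs with h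
        · simp [h]; omega
        · omega
    · rw [fD, ← Finset.sum_neg_distrib]
      refine Finset.sum_congr rfl fun e _ => ?_
      have h1 : ∀ x : Fin (k + 1), Equiv.swap (0 : Fin (k + 2)) (Fin.succ 0) (e x).succ =
          if e x = 0 then 0 else (e x).succ := fun x => by
        split_ifs with h
        · rw [h, Equiv.swap_apply_right]
        · exact Equiv.swap_apply_of_ne_of_ne (Fin.succ_ne_zero _) (fun h' => h (Fin.succ_injective _ h'))
      rw [apply_ite Neg.neg, neg_zero]
      refine if_congr ?_ ?_ rfl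
      · rw [Fin.forall_fin_succ]
        simp only [Equiv.Perm.decomposeFin_symm_apply_zero, Equiv.Perm.decomposeFin_symm_apply_succ, h1]
        refine ⟨fun h i => ?_, fun h => ⟨by simp, fun i => ?_⟩⟩
        · have := h.2 i
          split_ifs at this with h2
          · simp [h2]
          · simp only [Fin.val_succ] at this; omega
        · have := h i
          split_ifs with h2
          · simp
          · simp only [Fin.val_succ]; omega
      · rw [List.ofFn_succ, List.prod_cons, Equiv.Perm.decomposeFin.symm_sign]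
        simp only [Equiv.Perm.decomposeFin_symm_apply_zero, Equiv.Perm.decomposeFin_symm_apply_succ, h1,
          Fin.succ_ne_zero, if_false, Fin.val_succ, Fin.val_zero, add_zero, zero_add, Nat.sub_self, h0, one_mul,
          neg_mul, Units.val_neg, neg_smul]
        congr 4
        ext i
        congr 1
        by_cases h : e i = 0
        · simp only [h, if_true]; omega
        · simp only [h, if_false, Fin.succ_ne_zero, Fin.val_succ]; omega
  · intro p _
    refine Finset.sum_eq_zero fun e _ => if_neg fun h => ?_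
    have := h 0
    simp at this

theorem fD_eq (h0 : H 0 = 1) (k : ℕ) : ∀ m, (-1) ^ k * fD H k m =
    ∑ p ∈ Finset.HasAntidiagonal.antidiagonal k, H (m + p.1) * ((-1) ^ p.2 * fE H p.2) := by
  induction k with
  | zero => intro m; simp [fD, fE]
  | succ k ih =>
    intro m
    rw [fD_succ H h0, Finset.Nat.antidiagonal_succ, Finset.sum_cons, Finset.sum_map, fE_succ]
    have := ih (m + 1)
    simp only [Function.Embedding.prodMap, Function.Embedding.coeFn_mk, Prod.map_fst, Prod.map_snd,
      Function.Embedding.refl_apply, Nat.succ_eq_add_one, add_zero]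
    simp only [add_assoc, add_comm 1] at this
    rw [← this, mul_sub, ← mul_assoc, ← mul_assoc, (Commute.neg_one_left (H m)).pow_left, pow_succ]
    simp [sub_eq_add_neg]

theorem fE_rec (h0 : H 0 = 1) (k : ℕ) :
    ∑ p ∈ Finset.HasAntidiagonal.antidiagonal k, ((-1) ^ p.1 * fE H p.1) * H p.2 = if k = 0 then 1 else 0 := by
  have h1 : PowerSeries.mk H * PowerSeries.mk (fun k => (-1) ^ k * fE H k) = 1 := by
    ext k
    rw [PowerSeries.coeff_mul, PowerSeries.coeff_one]
    simp only [PowerSeries.coeff_mk]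
    rcases k with _ | k
    · simp [h0, fE]
    · rw [Finset.Nat.antidiagonal_succ, Finset.sum_cons, Finset.sum_map, fE_succ, h0, one_mul, pow_succ,
        mul_neg_one, neg_mul, fD_eq H h0, if_neg k.succ_ne_zero, neg_add_eq_zero]
      simp [add_comm 1]
  have h2 := PowerSeries.invOfUnit_mul (PowerSeries.mk H) 1 (by simpa using h0)
  have h3 : PowerSeries.mk (fun k => (-1) ^ k * fE H k) * PowerSeries.mk H = 1 := by
    rw [← left_inv_eq_right_inv h2 h1, h2]
  have := congrArg (PowerSeries.coeff k) h3
  rw [PowerSeries.coeff_mul, PowerSeries.coeff_one] at this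
  simpa only [PowerSeries.coeff_mk] using this

end fdet

section chain
variable {P : Type*} [Fintype P] [DecidableEq P] (r : P → P → ℕ → Prop)

open Classical in
theorem prod_apply_eq_card (k : ℕ) : ∀ (μ : Fin k → ℕ) (x y : P),
    (List.ofFn fun i => (Matrix.of fun u v => if r u v (μ i) then 1 else 0 : Matrix P P ℂ)).prod x y =
      Nat.card {Φ : Fin (k + 1) → P // Φ 0 = x ∧ Φ (Fin.last k) = y ∧ ∀ i : Fin k, r (Φ i.castSucc) (Φ i.succ) (μ i)} := by
  induction k with
  | zero =>
    intro μ x y
    rw [List.ofFn_zero, List.prod_nil, Matrix.one_apply]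
    split_ifs with h
    · subst h
      rw [Nat.card_eq_one_iff_unique.2 ⟨⟨fun Φ Ψ => Subtype.ext (_root_.funext fun i => by
        rw [Subsingleton.elim (α := Fin 1) i 0, Φ.2.1, Ψ.2.1])⟩, ⟨⟨fun _ => x, rfl, rfl, fun i => i.elim0⟩⟩⟩,
        Nat.cast_one]
    · rw [Nat.card_eq_zero.2 (Or.inl ⟨fun Φ => h (Φ.2.1.symm.trans Φ.2.2.1)⟩), Nat.cast_zero]
  | succ k ih =>
    intro μ x y
    rw [List.ofFn_succ, List.prod_cons, Matrix.mul_apply]
    simp only [ih, Matrix.of_apply, ite_mul, one_mul, zero_mul]
    have e : {Φ : Fin (k + 2) → P // Φ 0 = x ∧ Φ (Fin.last (k + 1)) = y ∧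
        ∀ i : Fin (k + 1), r (Φ i.castSucc) (Φ i.succ) (μ i)} ≃ Σ z : {z // r x z (μ 0)},
        {Φ : Fin (k + 1) → P // Φ 0 = z ∧ Φ (Fin.last k) = y ∧ ∀ i : Fin k, r (Φ i.castSucc) (Φ i.succ) (μ i.succ)} :=
      { toFun := fun Φ => ⟨⟨Φ.1 1, by have := Φ.2.2.2 0; rwa [Fin.castSucc_zero, Φ.2.1] at this⟩, ⟨fun i => Φ.1 i.succ, rfl, Φ.2.2.1, fun i => Φ.2.2.2 i.succ⟩⟩
        invFun := fun p => ⟨Fin.cons x p.2.1, rfl, p.2.2.2.1, fun i => by
          refine Fin.cases ?_ (fun i => ?_) i
          · have := p.1.2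
            rw [← p.2.2.1] at this
            exact this
          · exact p.2.2.2.2 i⟩
        left_inv := fun Φ => Subtype.ext (_root_.funext fun i => by
          refine Fin.cases ?_ (fun i => ?_) i
          · exact Φ.2.1.symm
          · rfl)
        right_inv := by
          rintro ⟨⟨z, hz⟩, Φ, h1, h2⟩
          dsimp only at h1
          subst h1
          rfl }
    rw [Nat.card_congr e, Nat.card_sigma, Nat.cast_sum, ← Finset.sum_filter]
    exact Finset.sum_subtype _ (by simp) _

end chain

variable {F : Type*} [Field F]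

section flags
variable {V : Type*} [AddCommGroup V] [Module F V] [FiniteDimensional F V]

theorem exists_equiv_step {A B C : Submodule F V} (h1 : A ≤ B) (h2 : A ≤ C) (h : finrank F B = finrank F C) :
    ∃ e : V ≃ₗ[F] V, A.map (e : V →ₗ[F] V) = A ∧ B.map (e : V →ₗ[F] V) = C := by
  obtain ⟨f⟩ := FiniteDimensional.nonempty_linearEquiv_of_finrank_eq h
  have h3 : finrank F ((A.comap B.subtype).map (f : B →ₗ[F] C)) = finrank F (A.comap C.subtype) := by
    rw [LinearEquiv.finrank_map_eq, (Submodule.comapSubtypeEquivOfLe h1).finrank_eq,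
      (Submodule.comapSubtypeEquivOfLe h2).finrank_eq]
  obtain ⟨f'⟩ := FiniteDimensional.nonempty_linearEquiv_of_finrank_eq h3
  obtain ⟨g, hg⟩ := Submodule.exists_linearEquiv_restrict_eq f'
  obtain ⟨e, he⟩ := Submodule.exists_linearEquiv_restrict_eq (f.trans g)
  refine ⟨e, Submodule.eq_of_le_of_finrank_eq ?_ (LinearEquiv.finrank_map_eq _ _),
    Submodule.eq_of_le_of_finrank_eq ?_ ((LinearEquiv.finrank_map_eq _ _).trans h)⟩
  · rintro _ ⟨x, hx, rfl⟩
    have h4 := he ⟨x, h1 hx⟩
    have h5 := hg ⟨f ⟨x, h1 hx⟩, _, hx, rfl⟩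
    change e x ∈ A
    rw [← h4, LinearEquiv.trans_apply, ← h5]
    exact (f' _).2
  · rintro _ ⟨x, hx, rfl⟩
    change e x ∈ C
    rw [← he ⟨x, hx⟩]
    exact (_ : C).2

end flags

end Cfsg.Agent.H7.CU
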