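import Cfsg.Agent.H7.SG2

/-! Values of the Steinberg character of the general linear group on semisimple elements. -/

set_option autoImplicit false

open Polynomial Module
open scoped MatrixGroups

namespace Cfsg.Agent.H7.CU

open H28

variable {F : Type*} [Field F]

section
variable {V : Type*} [AddCommGroup V] [Module F V] [FiniteDimensional F V]

theorem exists_equiv_flag {k : ℕ} (Φ Ψ : Fin (k + 1) → Submodule F V) (h1 : ∀ i : Fin k, Φ i.castSucc ≤ Φ i.succ)
    (h2 : ∀ i : Fin k, Ψ i.castSucc ≤ Ψ i.succ) (h : ∀ j, finrank F (Φ j) = finrank F (Ψ j)) :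
    ∃ e : V ≃ₗ[F] V, ∀ j, (Φ j).map (e : V →ₗ[F] V) = Ψ j := by
  induction k generalizing V with
  | zero =>
    obtain ⟨e, -, he⟩ := exists_equiv_step bot_le bot_le (h 0)
    exact ⟨e, fun j => by rw [Subsingleton.elim (α := Fin 1) j 0, he]⟩
  | succ k ih =>
    have m1 : ∀ j, Φ j ≤ Φ (Fin.last _) := fun j => Fin.monotone_iff_le_succ.2 h1 (Fin.le_last j)
    have m2 : ∀ j, Ψ j ≤ Ψ (Fin.last _) := fun j => Fin.monotone_iff_le_succ.2 h2 (Fin.le_last j)
    obtain ⟨f⟩ := FiniteDimensional.nonempty_linearEquiv_of_finrank_eq (h (Fin.last _))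
    obtain ⟨g, hg⟩ := ih (V := Ψ (Fin.last _))
      (fun j => ((Φ j.castSucc).comap (Φ (Fin.last _)).subtype).map (f : Φ (Fin.last _) →ₗ[F] Ψ (Fin.last _)))
      (fun j => (Ψ j.castSucc).comap (Ψ (Fin.last _)).subtype)
      (fun i => Submodule.map_mono (Submodule.comap_mono (h1 i.castSucc)))
      (fun i => Submodule.comap_mono (h2 i.castSucc)) fun j => by
        rw [LinearEquiv.finrank_map_eq, (Submodule.comapSubtypeEquivOfLe (m1 _)).finrank_eq,
          (Submodule.comapSubtypeEquivOfLe (m2 _)).finrank_eq, h]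
    obtain ⟨e, he⟩ := Submodule.exists_linearEquiv_restrict_eq (f.trans g)
    refine ⟨e, fun j => Submodule.eq_of_le_of_finrank_eq ?_ ((LinearEquiv.finrank_map_eq _ _).trans (h j))⟩
    rintro _ ⟨x, hx, rfl⟩
    change e x ∈ Ψ j
    rw [← he ⟨x, m1 j hx⟩]
    refine Fin.lastCases (motive := fun j => x ∈ Φ j → ∀ hx', ((f.trans g) ⟨x, hx'⟩ : V) ∈ Ψ j)
      (fun _ _ => Subtype.mem _) (fun j hx hx' => ?_) j hx _
    have : (f.trans g) ⟨x, hx'⟩ ∈ (Ψ j.castSucc).comap (Ψ (Fin.last _)).subtype := by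
      rw [← hg j]
      exact ⟨_, ⟨_, hx, rfl⟩, rfl⟩
    exact this

variable [Finite F]

/-- the step relation -/
def stp (a : End F V) (u v : ivs a) (m : ℕ) : Prop := u.1 ≤ v.1 ∧ finrank F v.1 = finrank F u.1 + m

open Classical in
/-- the step matrices -/
noncomputable def hm (a : End F V) (m : ℕ) : Matrix (ivs a) (ivs a) ℂ :=
  Matrix.of fun u v => if stp a u v m then 1 else 0

open Classical in
theorem hm_zero (a : End F V) : hm a 0 = 1 := by
  ext u v
  rw [hm, Matrix.of_apply, Matrix.one_apply]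
  exact if_congr ⟨fun h => Subtype.ext (Submodule.eq_of_le_of_finrank_eq h.1 h.2.symm),
    fun h => h ▸ ⟨le_rfl, rfl⟩⟩ rfl rfl

open Classical in
theorem fE_entry (a : End F V) (k : ℕ) : ∀ y : ivs a, ((-1) ^ k * fE (hm a) k) ⟨⊥, mem_ivs.2 (iv_bot a)⟩ y =
    if finrank F y.1 = k then del b0 (edOn a y) else 0 := by
  induction k using Nat.strong_induction_on with
  | _ k ih =>
  intro y
  have h := congrFun (congrFun (fE_rec (hm a) (hm_zero a) k) ⟨⊥, mem_ivs.2 (iv_bot a)⟩) y
  rw [Finset.Nat.sum_antidiagonal_eq_sum_range_succ_mk, Finset.sum_range_succ, Nat.sub_self, hm_zero, mul_one,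
    Matrix.add_apply, Matrix.sum_apply] at h
  have h1 : ∑ i ∈ Finset.range k, (((-1) ^ i * fE (hm a) i) * hm a (k - i)) ⟨⊥, mem_ivs.2 (iv_bot a)⟩ y =
      ∑ z : ivs a, if finrank F y.1 = k ∧ z.1 ≤ y.1 ∧ z ≠ y then del b0 (edOn a z) else 0 := by
    simp only [Matrix.mul_apply (N := hm a _)]
    rw [Finset.sum_comm]
    refine Finset.sum_congr rfl fun z _ => ?_
    rw [Finset.sum_congr rfl fun i hi => by rw [ih i (Finset.mem_range.1 hi)]]
    simp only [ite_mul, zero_mul, Finset.sum_ite_eq, Finset.mem_range, hm, Matrix.of_apply]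
    by_cases c : finrank F y.1 = k ∧ z.1 ≤ y.1 ∧ z ≠ y
    · have := Submodule.finrank_lt_finrank_of_lt (lt_of_le_of_ne c.2.1 fun e => c.2.2 (Subtype.ext e))
      rw [if_pos c, if_pos (by omega), if_pos ⟨c.2.1, by omega⟩, mul_one]
    · rw [if_neg c]
      split_ifs with c1 c2
      · exact absurd ⟨by have := c2.2; omega, c2.1, fun e => by have := c2.2; rw [e] at this c1; omega⟩ c
      · exact mul_zero _
      · rfl
  have h2 : (if k = 0 then (1 : Matrix (ivs a) (ivs a) ℂ) else 0) ⟨⊥, mem_ivs.2 (iv_bot a)⟩ y =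
      if finrank F y.1 = k ∧ y.1 = ⊥ then 1 else 0 := by
    rw [Matrix.ite_apply, Matrix.one_apply, Matrix.zero_apply, ← ite_and]
    refine if_congr ⟨?_, fun h => ⟨?_, Subtype.ext h.2.symm⟩⟩ rfl rfl
    · rintro ⟨rfl, rfl⟩
      simp
    · rw [← h.1, h.2, finrank_bot]
  rw [h1, h2] at h
  split_ifs with h3
  · have h4 := sum_del_b0 (mem_ivs.1 y.2)
    rw [Finset.sum_filter, ← Finset.sum_coe_sort, ← Finset.add_sum_erase _ _ (Finset.mem_univ y), if_pos le_rfl] at h4
    simp only [h3, true_and] at h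
    rw [← h4, ← Finset.add_sum_erase _ _ (Finset.mem_univ y), if_neg (by simp), zero_add,
      Finset.sum_congr rfl (g := fun z : ivs a => if z.1 ≤ y.1 then del b0 (edOn a z) else 0) fun z hz => by
        simp [(Finset.mem_erase.1 hz).1]] at h
    linear_combination h
  · simpa [h3] using h

end

variable [Fintype F] [DecidableEq F] {n : ℕ}

open Classical in
theorem fix_eq (μ : Fin n → ℕ) (hμ : ∑ i, μ i = n) (g : GL (Fin n) F) :
    fixedPointCharacter (parabolicGL n F μ) g =
      (List.ofFn fun i => hm (nat F n g) (μ i)).prod ⟨⊥, mem_ivs.2 (iv_bot _)⟩ ⟨⊤, mem_ivs.2 (iv_top _)⟩ := by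
  have := finite_submodule (F := F) (V := Fin n → F)
  let _ : MulAction (GL (Fin n) F) (Submodule F (Fin n → F)) :=
    { smul := fun g U => U.map (nat F n g)
      one_smul := fun U => by
        change U.map (nat F n 1) = U
        rw [map_one]; exact Submodule.map_id U
      mul_smul := fun g h U => by
        change U.map (nat F n (g * h)) = (U.map (nat F n h)).map (nat F n g)
        rw [map_mul]; exact Submodule.map_comp _ _ _ }
  have hs : ∀ (g : GL (Fin n) F) (U : Submodule F (Fin n → F)), g • U = U.map (nat F n g) := fun _ _ => rfl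
  let s : Fin (n + 1) → ℕ := fun j => ∑ k : Fin n with k.castSucc < j, μ k
  have s0 : s 0 = 0 := by simp [s]
  have s1 : ∀ i : Fin n, s i.succ = ∑ k with k ≤ i, μ k := fun i => by
    simp only [s, Fin.castSucc_lt_succ_iff]
  have s2 : ∀ i : Fin n, s i.succ = s i.castSucc + μ i := fun i => by
    have : Finset.univ.filter (· ≤ i) = insert i (Finset.univ.filter (· < i)) := by
      ext; simp [le_iff_eq_or_lt]
    rw [s1, this, Finset.sum_insert (by simp), add_comm]
    simp only [s, Fin.castSucc_lt_castSucc_iff]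
  have s3 : ∀ j, s j ≤ n := fun j => (Finset.sum_le_sum_of_subset (Finset.subset_univ _)).trans_eq hμ
  have s4 : s (Fin.last n) = n := by simp [s, hμ]
  let Φ₀ : Fin (n + 1) → Submodule F (Fin n → F) := fun j => Pi.spanSubset F {i : Fin n | i.val < s j}
  have f1 : ∀ j, finrank F (Φ₀ j) = s j := fun j => by
    rw [Pi.dim_spanSubset, Set.ncard_eq_toFinset_card', Set.toFinset_ofPred, Fin.card_filter_val_lt, min_eq_right (s3 j)]
  have f2 : ∀ i : Fin n, Φ₀ i.castSucc ≤ Φ₀ i.succ := fun i v hv =>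
    Pi.mem_spanSubset_iff.2 fun l hl => Pi.mem_spanSubset_iff.1 hv l fun h => hl (by
      have := s2 i
      simp only [Set.mem_ofPred_eq] at h ⊢
      omega)
  have h1 : parabolicGL n F μ = MulAction.stabilizer (GL (Fin n) F) Φ₀ := by
    ext y
    rw [MulAction.mem_stabilizer_iff, funext_iff]
    simp only [Pi.smul_apply, hs, map_eq_iff_iv]
    constructor
    · intro h j v hv
      refine Pi.mem_spanSubset_iff.2 fun l hl => ?_
      change (y : Matrix (Fin n) (Fin n) F).mulVec v l = 0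
      rw [Matrix.mulVec, dotProduct]
      refine Finset.sum_eq_zero fun l' _ => ?_
      by_cases h2 : l'.val < s j
      · refine mul_eq_zero_of_left (h ?_) _
        refine Fin.cases (motive := fun j => l'.val < s j → ¬ l.val < s j → _) (fun h2 => by omega)
          (fun j h2 h3 => ?_) j h2 hl
        rw [s1, ← not_le, ← lt_compLabel] at h2
        rw [s1, not_lt, ← lt_compLabel] at h3
        omega
      · exact mul_eq_zero_of_right _ (Pi.mem_spanSubset_iff.1 hv l' h2)
    · intro h l l' hl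
      let j : Fin n := flab hμ l'
      have h2 := Pi.mem_spanSubset_iff.1 (h j.succ (Pi.single l' 1) (Pi.mem_spanSubset_iff.2 fun k hk =>
        Pi.single_eq_of_ne (by
          rintro rfl
          refine hk ?_
          simp only [Set.mem_ofPred_eq]
          rw [s1, ← not_le, ← lt_compLabel]
          exact lt_irrefl _) _)) l (by
        simp only [Set.mem_ofPred_eq]
        rw [s1, not_lt, ← lt_compLabel]
        exact hl)
      simpa [nat_apply] using h2
  have h2 : ∀ Φ : Fin (n + 1) → Submodule F (Fin n → F), Φ ∈ MulAction.orbit (GL (Fin n) F) Φ₀ ↔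
      Φ 0 = ⊥ ∧ Φ (Fin.last n) = ⊤ ∧ ∀ i : Fin n, Φ i.castSucc ≤ Φ i.succ ∧
        finrank F (Φ i.succ) = finrank F (Φ i.castSucc) + μ i := fun Φ => by
    constructor
    · rintro ⟨y, rfl⟩
      have h3 : ∀ j, finrank F ((y • Φ₀) j) = s j := fun j =>
        (Submodule.equivMapOfInjective _ ((nat F n).apply_bijective y).1 _).finrank_eq.symm.trans (f1 j)
      refine ⟨Submodule.finrank_eq_zero.1 ((h3 0).trans s0), Submodule.eq_top_of_finrank_eq ?_, fun i =>
        ⟨Submodule.map_mono (f2 i), by rw [h3, h3, s2]⟩⟩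
      rw [h3, s4, finrank_fin_fun]
    · rintro ⟨h3, -, h4⟩
      obtain ⟨e, he⟩ := exists_equiv_flag Φ₀ Φ f2 (fun i => (h4 i).1) fun j => by
        rw [f1]
        induction j using Fin.induction with
        | zero => rw [s0, h3, finrank_bot]
        | succ j ih => rw [s2, ih, (h4 j).2]
      refine ⟨Matrix.GeneralLinearGroup.toLin.symm (LinearMap.GeneralLinearGroup.ofLinearEquiv e), funext fun j => ?_⟩
      rw [← he j]
      exact congrArg (fun u : LinearMap.GeneralLinearGroup F (Fin n → F) => (Φ₀ j).map u.1)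
        (Matrix.GeneralLinearGroup.toLin.apply_symm_apply _)
  rw [fixedPointCharacter, ← H5.indFun_one_eq_card_fixedBy, H5.indFun_congr h1 _ (fun _ => 1) fun _ _ _ => rfl,
    H5.indFun_stabilizer_one]
  refine Eq.trans ?_ (prod_apply_eq_card (stp (nat F n g)) n μ _ _).symm
  congr 1
  refine Nat.card_congr ⟨fun Φ => ⟨fun j => ⟨Φ.1 j, mem_ivs.2 ((map_eq_iff_iv _ g _).1 (congrFun Φ.2.2 j))⟩,
    Subtype.ext ((h2 _).1 Φ.2.1).1, Subtype.ext ((h2 _).1 Φ.2.1).2.1, ((h2 _).1 Φ.2.1).2.2⟩,
    fun Φ => ⟨fun j => (Φ.1 j).1, (h2 _).2 ⟨congrArg Subtype.val Φ.2.1, congrArg Subtype.val Φ.2.2.1, Φ.2.2.2⟩,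
      funext fun j => (map_eq_iff_iv _ g _).2 (mem_ivs.1 (Φ.1 j).2)⟩, fun _ => rfl, fun _ => rfl⟩

theorem st_eq (g : GL (Fin n) F) : unipotentCharacterGL n F (fun _ => 1) g = (-1) ^ n * del b0 (ed (nat F n g)) := by
  classical
  have h := fE_entry (nat F n g) n ⟨⊤, mem_ivs.2 (iv_top _)⟩
  rw [if_pos (by simp), edOn_top] at h
  have h1 : ((-1) ^ n * fE (hm (nat F n g)) n : Matrix _ _ ℂ) = (-1 : ℂ) ^ n • fE (hm (nat F n g)) n := by
    rcases Nat.even_or_odd n with h | h <;> simp [h.neg_one_pow]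
  rw [← h, h1, Matrix.smul_apply, smul_eq_mul, ← mul_assoc, ← mul_pow, neg_mul_neg, one_mul, one_pow, one_mul, fE,
    Matrix.sum_apply, unipotentCharacterGL]
  refine Finset.sum_congr rfl fun κ _ => ?_
  split_ifs with h2
  · rw [fix_eq _ (sum_sub_perm (ν := fun _ => 1) (by simp) h2), Matrix.smul_apply, zsmul_eq_mul]
  · rfl

theorem st_value {q : ℕ} (hq : Fintype.card F = q) (p : ℕ) [Fact p.Prime] [CharP F p]
    (x : GL (Fin n) F) (hx : (orderOf x).Coprime p) :
    unipotentCharacterGL n F (fun _ => 1) x =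
      ∏ f ∈ (UniqueFactorizationMonoid.normalizedFactors (x : Matrix (Fin n) (Fin n) F).charpoly).toFinset,
        (-1 : ℂ) ^ ((f.natDegree - 1) *
          (UniqueFactorizationMonoid.normalizedFactors (x : Matrix (Fin n) (Fin n) F).charpoly).count f) *
        (q : ℂ) ^ (f.natDegree *
          (UniqueFactorizationMonoid.normalizedFactors (x : Matrix (Fin n) (Fin n) F).charpoly).count f *
          ((UniqueFactorizationMonoid.normalizedFactors (x : Matrix (Fin n) (Fin n) F).charpoly).count f - 1) / 2) := by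
  have h1 : Squarefree (X ^ orderOf x - 1 : F[X]) := by
    refine (X_pow_sub_one_separable_iff.2 fun h => ?_).squarefree
    exact (Fact.out : p.Prime).one_lt.ne' (Nat.Coprime.eq_one_of_dvd hx.symm ((CharP.cast_eq_zero_iff F p _).1 h))
  have h2 : ∀ y ∈ ed (nat F n x), y.k = 1 := fun y hy => by
    have := (pow_eq_one_iff_ed (nat F n x) (orderOf x)).1 (by rw [← map_pow, pow_orderOf_eq_one, map_one]) y hy
    by_contra h
    have h3 : 2 ≤ y.k := by have := y.pos; omega
    exact y.irred.not_isUnit (h1 _ ((_root_.sq y.f ▸ pow_dvd_pow y.f h3).trans this))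
  have h3 : (x : Matrix (Fin n) (Fin n) F).charpoly = ((ed (nat F n x)).map PP.f).prod := by
    rw [← Matrix.charpoly_toLin', show Matrix.toLin' (x : Matrix (Fin n) (Fin n) F) = nat F n x from rfl,
      charpoly_eq_prod_ed]
    congr 1
    exact Multiset.map_congr rfl fun y hy => by rw [PP.poly, h2 y hy, pow_one]
  have h4 : UniqueFactorizationMonoid.normalizedFactors (x : Matrix (Fin n) (Fin n) F).charpoly =
      (ed (nat F n x)).map PP.f := by
    rw [h3, UniqueFactorizationMonoid.normalizedFactors_prod_eq, Multiset.map_map]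
    · exact Multiset.map_congr rfl fun y _ => y.monic.normalize_eq_self
    · intro f hf
      obtain ⟨y, -, rfl⟩ := Multiset.mem_map.1 hf
      exact y.irred
  have h5 : n = ∑ f ∈ ((ed (nat F n x)).map PP.f).toFinset, ((ed (nat F n x)).map PP.f).count f * f.natDegree := by
    have := finrank_eq_sum_ed (nat F n x)
    rw [finrank_fin_fun] at this
    refine this.trans ?_
    rw [← Finset.sum_congr rfl fun f _ => smul_eq_mul _ _, ← Finset.sum_multiset_map_count, Multiset.map_map]
    congr 1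
    exact Multiset.map_congr rfl fun y hy => by simp [h2 y hy]
  rw [st_eq, del_b0 _ h2, h4, Nat.card_eq_fintype_card, hq]
  rw [congrArg (fun k => (-1 : ℂ) ^ k) h5, ← Finset.prod_pow_eq_pow_sum, ← Finset.prod_mul_distrib]
  refine Finset.prod_congr rfl fun f hf => ?_
  obtain ⟨y, -, rfl⟩ := Multiset.mem_map.1 (Multiset.mem_toFinset.1 hf)
  obtain ⟨d, hd⟩ := Nat.exists_eq_succ_of_ne_zero y.natDegree_f_pos.ne'
  rw [← mul_assoc, ← pow_add, hd, Nat.succ_sub_one]
  congr 1
  rw [show ∀ c : ℕ, c * d.succ + c = d * c + 2 * c from fun c => by rw [Nat.succ_eq_add_one]; ring, pow_add, pow_mul _ 2]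
  simp

end Cfsg.Agent.H7.CU
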