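/-
Towers acting on modules: the statements that connect the pieces.
-/
import Cfsg.Agent.L0.Tu4

set_option autoImplicit false

namespace Cfsg.Agent.H7.Tw

open Subgroup Cfsg.Agent.L0.Tu
open scoped commutatorElement

universe u

/-- `G = X ⟨a⟩` with `X` a solvable normal `r'`-subgroup and `a ^ r = 1` -/
structure Bs {G : Type*} [Group G] (X : Subgroup G) (a : G) (r : ℕ) : Prop where
  pr : r.Prime
  ha : a ^ r = 1
  cop : ¬ r ∣ Nat.card X
  sol : Group.IsSolvable X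
  nX : X.Normal
  dec : ∀ g : G, ∃ x ∈ X, ∃ i : ℕ, g = x * a ^ i

/-- the conclusion for a module -/
def Co {G : Type*} [Group G] {k V : Type*} [Field k] [AddCommGroup V] [Module k V] (ρ : G →* Module.End k V)
    (X : Subgroup G) (a : G) (p m : ℕ) : Prop :=
  (∃ t, Good t ∧ m ≤ t.length + 2 ∧ t.head? ≠ some p ∧
    ∃ v, ρ a v = v ∧ v ≠ 0 ∧ (t ≠ [] → ∃ g ∈ D t (Cx X a), ρ g v ≠ v)) ∨
  ∃ t, Good t ∧ t ≠ [] ∧ (∃ g ∈ D t (Cx X a), ρ g ≠ 1) ∧ (m ≤ t.length ∨ (m ≤ t.length + 1 ∧ t.head? = some p))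

/-- the statement for modules -/
def MS (r : ℕ) (s : List ℕ) : Prop :=
  ∀ (G : Type u) [Group G] [Finite G] (X : Subgroup G) (a : G), Bs X a r →
    ∀ (k : Type) [Field k] [IsAlgClosed k] (p : ℕ) [Fact p.Prime] [CharP k p], p ≠ r → s.head? ≠ some p →
      ∀ (V : Type u) [AddCommGroup V] [Module k V] [FiniteDimensional k V] (ρ : G →* Module.End k V),
        (∃ g ∈ D s X, ρ g ≠ 1) → Co ρ X a p s.length

/-- the statement for faithful irreducible modules, when the bottom of the tower is an `l`-group -/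
def MS0 (r l : ℕ) (s : List ℕ) : Prop :=
  ∀ (G : Type u) [Group G] [Finite G] (X : Subgroup G) (a : G), Bs X a r →
    ∀ (k : Type) [Field k] [IsAlgClosed k] (p : ℕ) [Fact p.Prime] [CharP k p], p ≠ r → l ≠ p →
      ∀ (V : Type u) [AddCommGroup V] [Module k V] [FiniteDimensional k V] (ρ : G →* Module.End k V),
        Function.Injective ρ → (∀ W : Submodule k V, (∀ g : G, ∀ v ∈ W, ρ g v ∈ W) → W = ⊥ ∨ W = ⊤) →
        IsPGroup l (D (l :: s) X) → D (l :: s) X ≠ ⊥ → Co ρ X a p (s.length + 1)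

/-- the conclusion for a section `L / Z` -/
def CoG {G : Type*} [Group G] (X L Z : Subgroup G) (a : G) (l m : ℕ) : Prop :=
  (∃ t, Good t ∧ m ≤ t.length + 2 ∧ t.head? ≠ some l ∧
    ∃ c ∈ Cx L a, c ∉ Z ∧ (t ≠ [] → ∃ g ∈ D t (Cx X a), ⁅g, c⁆ ∉ Z)) ∨
  ∃ t, Good t ∧ t ≠ [] ∧ (∃ g ∈ D t (Cx X a), ∃ y ∈ L, ⁅g, y⁆ ∉ Z) ∧
    (m ≤ t.length ∨ (m ≤ t.length + 1 ∧ t.head? = some l))

/-- the statement for elementary abelian sections -/
def GV (r : ℕ) (s : List ℕ) : Prop :=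
  ∀ (G : Type u) [Group G] [Finite G] (X : Subgroup G) (a : G), Bs X a r →
    ∀ (L Z : Subgroup G) (l : ℕ), L.Normal → Z.Normal → Z ≤ L → L ≤ X → l.Prime → l ≠ r → s.head? ≠ some l →
      (∀ x ∈ L, ∀ y ∈ L, ⁅x, y⁆ ∈ Z) → (∀ y ∈ L, y ^ l ∈ Z) → (∃ g ∈ D s X, ∃ y ∈ L, ⁅g, y⁆ ∉ Z) →
      CoG X L Z a l s.length

end Cfsg.Agent.H7.Tw
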